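import Cfsg.Agent.Lib.H29.ParaFusion
import Cfsg.Agent.Lib.SLn.Basic
import Cfsg.Agent.Lib.PGroups.Basic

/-!
# The unitriangular Sylow subgroup of `SL_n` and its normalizer
-/

set_option autoImplicit false

namespace Cfsg.Agent.Lib.H29.LinA

open Matrix

variable {K : Type*} [Field K] {n : ℕ}

/-- Upper triangular matrices. -/
def UT (g : Matrix (Fin n) (Fin n) K) : Prop := ∀ k l, l < k → g k l = 0

lemma UT.mul {g h : Matrix (Fin n) (Fin n) K} (hg : UT g) (hh : UT h) : UT (g * h) := by
  intro k l hkl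
  rw [Matrix.mul_apply]
  apply Finset.sum_eq_zero
  intro r _
  by_cases hr : r < k
  · rw [hg k r hr, zero_mul]
  · rw [hh r l (by
      rw [not_lt] at hr
      exact lt_of_lt_of_le hkl hr), mul_zero]

lemma UT.mul_diag {g h : Matrix (Fin n) (Fin n) K} (hg : UT g) (hh : UT h) (k : Fin n) :
    (g * h) k k = g k k * h k k := by
  rw [Matrix.mul_apply]
  apply Finset.sum_eq_single k
  · intro r _ hr
    rcases lt_or_gt_of_ne hr with h1 | h1
    · rw [hg k r h1, zero_mul]
    · rw [hh r k h1, mul_zero]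
  · simp

lemma UT.one : UT (1 : Matrix (Fin n) (Fin n) K) := by
  intro k l hkl
  exact Matrix.one_apply_ne hkl.ne'

lemma UT.pow {g : Matrix (Fin n) (Fin n) K} (hg : UT g) (m : ℕ) : UT (g ^ m) := by
  induction m with
  | zero => simpa using UT.one
  | succ m ih => rw [pow_succ]; exact ih.mul hg

lemma UT.pow_diag {g : Matrix (Fin n) (Fin n) K} (hg : UT g) (m : ℕ) (k : Fin n) :
    (g ^ m) k k = g k k ^ m := by
  induction m with
  | zero => simp
  | succ m ih => rw [pow_succ, (hg.pow m).mul_diag hg, ih, pow_succ]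

/-- The combinatorial core of `N(U) = B`. -/
lemma UT_of_rank_one {g h : Matrix (Fin n) (Fin n) K} (hhg : h * g = 1)
    (H : ∀ i j, i < j → ∀ k l, l ≤ k → g k i * h j l = 0) : UT g := by
  have hex : ∀ j, ∃ r, g r j ≠ 0 ∧ h j r ≠ 0 := by
    intro j
    have h1 : (h * g) j j = 1 := by rw [hhg]; simp
    rw [Matrix.mul_apply] at h1
    have h2 : ∑ r, h j r * g r j ≠ 0 := by rw [h1]; exact one_ne_zero
    obtain ⟨r, -, hr⟩ := Finset.exists_ne_zero_of_sum_ne_zero h2
    exact ⟨r, right_ne_zero_of_mul hr, left_ne_zero_of_mul hr⟩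
  choose r hr1 hr2 using hex
  have hmono : StrictMono r := by
    intro i j hij
    by_contra hcon
    rw [not_lt] at hcon
    have := H i j hij (r i) (r j) hcon
    exact (mul_ne_zero (hr1 i) (hr2 j)) this
  have hid : r = id := by
    apply (hmono.range_inj strictMono_id).mp
    have h1 : Function.Surjective r := Finite.surjective_of_injective hmono.injective
    rw [h1.range_eq, Set.range_id]
  intro k l hlk
  by_contra hcon
  have hl : (l : ℕ) + 1 < n := by
    have := k.2
    have : (l : ℕ) < k := hlk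
    omega
  let j : Fin n := ⟨l + 1, hl⟩
  have hlj : l < j := by
    rw [Fin.lt_def]
    show (l : ℕ) < l + 1
    omega
  have hjk : j ≤ k := by
    rw [Fin.le_def]
    show (l : ℕ) + 1 ≤ k
    have : (l : ℕ) < k := hlk
    omega
  have h1 := H l j hlj k j hjk
  have h2 := hr2 j
  rw [hid] at h2
  exact (mul_ne_zero hcon h2) h1

variable [Fintype K]

/-- The Borel subgroup of `SL_n`. -/
def B (K : Type*) [Field K] [Fintype K] (n : ℕ) : Subgroup (Matrix.SpecialLinearGroup (Fin n) K) where
  carrier := {g | UT (g : Matrix (Fin n) (Fin n) K)}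
  mul_mem' := by
    intro a b ha hb
    show UT _
    rw [Matrix.SpecialLinearGroup.coe_mul]
    exact UT.mul ha hb
  one_mem' := by
    show UT _
    rw [Matrix.SpecialLinearGroup.coe_one]
    exact UT.one
  inv_mem' := by
    intro a ha
    show UT _
    rw [Cfsg.Agent.Lib.H29.ParaFusion.inv_eq_pow', Matrix.SpecialLinearGroup.coe_pow]
    exact UT.pow ha _

/-- The unitriangular subgroup of `SL_n`. -/
def U (K : Type*) [Field K] [Fintype K] (n : ℕ) : Subgroup (Matrix.SpecialLinearGroup (Fin n) K) where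
  carrier := {g | UT (g : Matrix (Fin n) (Fin n) K) ∧ ∀ k, (g : Matrix (Fin n) (Fin n) K) k k = 1}
  mul_mem' := by
    rintro a b ⟨ha, ha'⟩ ⟨hb, hb'⟩
    refine ⟨?_, fun k => ?_⟩
    · rw [Matrix.SpecialLinearGroup.coe_mul]
      exact UT.mul ha hb
    · rw [Matrix.SpecialLinearGroup.coe_mul, UT.mul_diag ha hb, ha', hb', one_mul]
  one_mem' := by
    refine ⟨?_, fun k => ?_⟩
    · rw [Matrix.SpecialLinearGroup.coe_one]
      exact UT.one
    · simp
  inv_mem' := by
    rintro a ⟨ha, ha'⟩
    refine ⟨?_, fun k => ?_⟩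
    · rw [Cfsg.Agent.Lib.H29.ParaFusion.inv_eq_pow', Matrix.SpecialLinearGroup.coe_pow]
      exact UT.pow ha _
    · rw [Cfsg.Agent.Lib.H29.ParaFusion.inv_eq_pow', Matrix.SpecialLinearGroup.coe_pow, UT.pow_diag ha, ha', one_pow]

lemma mem_B {g : Matrix.SpecialLinearGroup (Fin n) K} : g ∈ B K n ↔ UT (g : Matrix (Fin n) (Fin n) K) := Iff.rfl

lemma mem_U {g : Matrix.SpecialLinearGroup (Fin n) K} :
    g ∈ U K n ↔ UT (g : Matrix (Fin n) (Fin n) K) ∧ ∀ k, (g : Matrix (Fin n) (Fin n) K) k k = 1 := Iff.rfl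

lemma U_le_B : U K n ≤ B K n := fun _ h => h.1

/-- Transvections. -/
def X (k l : Fin n) (h : k ≠ l) (a : K) : Matrix.SpecialLinearGroup (Fin n) K :=
  ⟨transvection k l a, det_transvection_of_ne k l h a⟩

lemma coe_X (k l : Fin n) (h : k ≠ l) (a : K) :
    ((X k l h a : Matrix.SpecialLinearGroup (Fin n) K) : Matrix (Fin n) (Fin n) K) = 1 + Matrix.single k l a := rfl

lemma X_mem_U {k l : Fin n} (h : k < l) (a : K) : X k l h.ne a ∈ U K n := by
  constructor
  · intro r s hrs
    rw [coe_X, Matrix.add_apply, Matrix.one_apply_ne hrs.ne', zero_add]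
    apply Matrix.single_apply_of_ne
    rintro ⟨rfl, rfl⟩
    exact lt_asymm h hrs
  · intro r
    rw [coe_X, Matrix.add_apply, Matrix.one_apply_eq, Matrix.single_apply_of_ne, add_zero]
    rintro ⟨rfl, rfl⟩
    exact lt_irrefl _ h

/-- Conjugates of a transvection in the scalars times `U`. -/
lemma rank_one_of_conj {g h : Matrix (Fin n) (Fin n) K} (hgh : g * h = 1) (hhg : h * g = 1) {i j : Fin n}
    (hij : i ≠ j) {z : K} {u : Matrix (Fin n) (Fin n) K} (hu : UT u) (hu' : ∀ k, u k k = 1)
    (he : g * (1 + Matrix.single i j 1) * h = z • u) (k l : Fin n) (hlk : l ≤ k) : g k i * h j l = 0 := by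
  set N := g * Matrix.single i j (1 : K) * h with hN
  have hNe : ∀ k l, N k l = g k i * h j l := by
    intro k l
    rw [hN, Matrix.mul_apply]
    rw [Finset.sum_eq_single j]
    · rw [Matrix.mul_single_apply_same, mul_one]
    · intro b _ hb
      rw [Matrix.mul_single_apply_of_ne _ i j k b hb g, zero_mul]
    · simp
  have h1 : 1 + N = z • u := by
    rw [← he, mul_add, mul_one, add_mul, hgh]
  have h2 : ∀ k l, l < k → N k l = 0 := by
    intro k l hlk
    have := congrFun (congrFun h1 k) l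
    simp only [Matrix.add_apply, Matrix.smul_apply, smul_eq_mul] at this
    rw [hu k l hlk, mul_zero, Matrix.one_apply_ne hlk.ne', zero_add] at this
    exact this
  have h3 : ∀ k, N k k = z - 1 := by
    intro k
    have := congrFun (congrFun h1 k) k
    simp only [Matrix.add_apply, Matrix.smul_apply, smul_eq_mul] at this
    rw [hu' k, mul_one, Matrix.one_apply_eq] at this
    linear_combination this
  have h4 : N * N = 0 := by
    rw [hN]
    have e : g * Matrix.single i j (1 : K) * h * (g * Matrix.single i j (1 : K) * h) =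
        g * Matrix.single i j (1 : K) * (h * g) * Matrix.single i j (1 : K) * h := by
      simp only [Matrix.mul_assoc]
    rw [e, hhg, Matrix.mul_one, Matrix.mul_assoc g, Matrix.single_mul_single_of_ne (1 : K) i j i hij.symm 1]
    simp
  have h5 : z - 1 = 0 := by
    have := congrFun (congrFun h4 k) k
    rw [Matrix.mul_apply, Finset.sum_eq_single k] at this
    · rw [h3] at this
      simpa using this
    · intro b _ hb
      rcases lt_or_gt_of_ne hb with h6 | h6
      · rw [h2 k b h6, zero_mul]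
      · rw [h2 b k h6, mul_zero]
    · simp
  rw [← hNe]
  rcases lt_or_eq_of_le hlk with h6 | rfl
  · exact h2 k l h6
  · rw [h3, h5]

/-- An element of `SL_n` carrying transvections into `Z · U` lies in `B`. -/
lemma mem_B_of_conj {g : Matrix.SpecialLinearGroup (Fin n) K}
    (H : ∀ i j (hij : i < j), ∃ z : K, ∃ u ∈ U K n,
      ((g * X i j hij.ne 1 * g⁻¹ : Matrix.SpecialLinearGroup (Fin n) K) : Matrix (Fin n) (Fin n) K) =
        z • (u : Matrix (Fin n) (Fin n) K)) : g ∈ B K n := by
  have hgh : (g : Matrix (Fin n) (Fin n) K) * ((g⁻¹ : Matrix.SpecialLinearGroup (Fin n) K) : Matrix (Fin n) (Fin n) K) = 1 := by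
    rw [← Matrix.SpecialLinearGroup.coe_mul, mul_inv_cancel, Matrix.SpecialLinearGroup.coe_one]
  have hhg : ((g⁻¹ : Matrix.SpecialLinearGroup (Fin n) K) : Matrix (Fin n) (Fin n) K) * (g : Matrix (Fin n) (Fin n) K) = 1 := by
    rw [← Matrix.SpecialLinearGroup.coe_mul, inv_mul_cancel, Matrix.SpecialLinearGroup.coe_one]
  apply UT_of_rank_one hhg
  intro i j hij k l hlk
  obtain ⟨z, u, hu, he⟩ := H i j hij
  rw [Matrix.SpecialLinearGroup.coe_mul, Matrix.SpecialLinearGroup.coe_mul, coe_X] at he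
  exact rank_one_of_conj hgh hhg hij.ne hu.1 hu.2 he k l hlk

section charp

variable (p : ℕ) [Fact p.Prime] [CharP K p]

include p in
lemma mem_U_of_pow {g : Matrix.SpecialLinearGroup (Fin n) K} (hg : g ∈ B K n) {m : ℕ} (h : g ^ (p ^ m) = 1) :
    g ∈ U K n := by
  refine ⟨hg, fun k => ?_⟩
  have h1 : (g : Matrix (Fin n) (Fin n) K) ^ (p ^ m) = 1 := by
    rw [← Matrix.SpecialLinearGroup.coe_pow, h, Matrix.SpecialLinearGroup.coe_one]
  have h2 := congrFun (congrFun h1 k) k
  rw [UT.pow_diag hg, Matrix.one_apply_eq] at h2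
  have h3 : ((g : Matrix (Fin n) (Fin n) K) k k - 1) ^ (p ^ m) = 0 := by
    rw [sub_pow_char_pow, h2, one_pow, sub_self]
  have h4 := pow_eq_zero_iff (pow_ne_zero m (Fact.out : p.Prime).ne_zero) |>.mp h3
  linear_combination h4

/-- Strictly upper triangular matrices are nilpotent. -/
lemma strict_pow {A : Matrix (Fin n) (Fin n) K} (hA : ∀ k l, l ≤ k → A k l = 0) (m : ℕ) :
    ∀ k l : Fin n, (l : ℕ) < k + m → (A ^ m) k l = 0 := by
  induction m with
  | zero =>
    intro k l hkl
    rw [pow_zero]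
    apply Matrix.one_apply_ne
    rintro rfl
    simp at hkl
  | succ m ih =>
    intro k l hkl
    rw [pow_succ, Matrix.mul_apply]
    apply Finset.sum_eq_zero
    intro r _
    by_cases hr : (r : ℕ) < k + m
    · rw [ih k r hr, zero_mul]
    · rw [hA r l (by
        rw [Fin.le_def]
        omega), mul_zero]

lemma U_isPGroup [NeZero n] : IsPGroup p (U K n) := by
  rintro ⟨u, hu, hu'⟩
  refine ⟨n, ?_⟩
  apply Subtype.ext
  apply Subtype.ext
  show ((u ^ (p ^ n) : Matrix.SpecialLinearGroup (Fin n) K) : Matrix (Fin n) (Fin n) K) = 1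
  rw [Matrix.SpecialLinearGroup.coe_pow]
  set A : Matrix (Fin n) (Fin n) K := (u : Matrix (Fin n) (Fin n) K) - 1 with hAdef
  have hA : ∀ k l, l ≤ k → A k l = 0 := by
    intro k l hlk
    rcases lt_or_eq_of_le hlk with h | rfl
    · rw [hAdef, Matrix.sub_apply, hu k l h, Matrix.one_apply_ne h.ne', sub_self]
    · rw [hAdef, Matrix.sub_apply, hu', Matrix.one_apply_eq, sub_self]
  have hAn : A ^ (p ^ n) = 0 := by
    ext k l
    rw [Matrix.zero_apply]
    apply strict_pow hA
    have h1 : n < p ^ n := Nat.lt_pow_self (Fact.out : p.Prime).one_lt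
    have := l.2
    omega
  have e : (u : Matrix (Fin n) (Fin n) K) = 1 + A := by
    rw [hAdef]; abel
  haveI : CharP (Matrix (Fin n) (Fin n) K) p := Matrix.charP p
  rw [e, add_pow_char_pow_of_commute _ _ (Commute.one_left A), hAn, one_pow, add_zero]

/-- `U` is a maximal `p`-subgroup. -/
lemma U_max [NeZero n] {Q : Subgroup (Matrix.SpecialLinearGroup (Fin n) K)} (hQ : IsPGroup p Q)
    (hUQ : U K n ≤ Q) : Q = U K n := by
  by_contra hne
  haveI := hQ.isNilpotent
  have hlt : (U K n).subgroupOf Q < ⊤ := by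
    rw [lt_top_iff_ne_top]
    intro h
    apply hne
    apply le_antisymm _ hUQ
    intro x hx
    have : (⟨x, hx⟩ : Q) ∈ (U K n).subgroupOf Q := by rw [h]; trivial
    exact this
  have h2 := normalizerCondition_of_isNilpotent ((U K n).subgroupOf Q) hlt
  obtain ⟨⟨y, hyQ⟩, hyN, hyU⟩ := SetLike.exists_of_lt h2
  rw [Subgroup.mem_normalizer_iff] at hyN
  have hyB : y ∈ B K n := by
    apply mem_B_of_conj
    intro i j hij
    have hX := X_mem_U hij (1 : K)
    have h3 := (hyN ⟨_, hUQ hX⟩).mp hX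
    refine ⟨1, _, h3, ?_⟩
    simp
  obtain ⟨m, hm⟩ := hQ ⟨y, hyQ⟩
  have hm' : y ^ (p ^ m) = 1 := congrArg Subtype.val hm
  exact hyU (mem_U_of_pow p hyB hm')

/-- `U` as a Sylow subgroup. -/
def Usyl [NeZero n] : Sylow p (Matrix.SpecialLinearGroup (Fin n) K) where
  toSubgroup := U K n
  isPGroup' := U_isPGroup p
  is_maximal' := fun hQ hle => U_max p hQ hle

end charp

end Cfsg.Agent.Lib.H29.LinA
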