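import Cfsg.Agent.Lib.H29.LinA

/-!
# Monomial matrices, generation of `U` and strongly closed subgroups
-/

set_option autoImplicit false

namespace Cfsg.Agent.Lib.H29.LinA

open Matrix

variable {K : Type*} [Field K] {n : ℕ}

/-- Monomial matrices. -/
def mono (s : Equiv.Perm (Fin n)) (d : Fin n → K) : Matrix (Fin n) (Fin n) K :=
  Matrix.of fun k l => if l = s k then d k else 0

/-- The inverse of a monomial matrix. -/
def monoI (s : Equiv.Perm (Fin n)) (d : Fin n → K) : Matrix (Fin n) (Fin n) K :=
  Matrix.of fun k l => if k = s l then (d l)⁻¹ else 0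

lemma mono_apply (s : Equiv.Perm (Fin n)) (d : Fin n → K) (k l : Fin n) :
    mono s d k l = if l = s k then d k else 0 := rfl

lemma monoI_apply (s : Equiv.Perm (Fin n)) (d : Fin n → K) (k l : Fin n) :
    monoI s d k l = if k = s l then (d l)⁻¹ else 0 := rfl

lemma mono_mul_apply (s : Equiv.Perm (Fin n)) (d : Fin n → K) (A : Matrix (Fin n) (Fin n) K) (k l : Fin n) :
    (mono s d * A) k l = d k * A (s k) l := by
  rw [Matrix.mul_apply, Finset.sum_eq_single (s k)]
  · rw [mono_apply, if_pos rfl]
  · intro b _ hb
    rw [mono_apply, if_neg hb, zero_mul]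
  · simp

lemma mul_monoI_apply (s : Equiv.Perm (Fin n)) (d : Fin n → K) (A : Matrix (Fin n) (Fin n) K) (k l : Fin n) :
    (A * monoI s d) k l = A k (s l) * (d l)⁻¹ := by
  rw [Matrix.mul_apply, Finset.sum_eq_single (s l)]
  · rw [monoI_apply, if_pos rfl]
  · intro b _ hb
    rw [monoI_apply, if_neg hb, mul_zero]
  · simp

lemma mono_mul_monoI {s : Equiv.Perm (Fin n)} {d : Fin n → K} (hd : ∀ k, d k ≠ 0) :
    mono s d * monoI s d = 1 := by
  ext k l
  rw [mono_mul_apply, monoI_apply]
  by_cases h : k = l
  · subst h
    simp [hd]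
  · rw [if_neg (fun e => h (s.injective e)), mul_zero, Matrix.one_apply_ne h]

lemma conj_apply (s : Equiv.Perm (Fin n)) (d : Fin n → K) (A : Matrix (Fin n) (Fin n) K) (k l : Fin n) :
    (mono s d * A * monoI s d) k l = d k * A (s k) (s l) * (d l)⁻¹ := by
  rw [mul_monoI_apply, mono_mul_apply]

lemma mono_eq (s : Equiv.Perm (Fin n)) (d : Fin n → K) :
    mono s d = Matrix.diagonal d * s.permMatrix K := by
  ext k l
  rw [mono_apply, Matrix.diagonal_mul]
  simp only [Equiv.Perm.permMatrix, PEquiv.toMatrix_apply, Equiv.toPEquiv_apply, Option.mem_def, Option.some.injEq]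
  by_cases h : l = s k
  · subst h
    simp
  · rw [if_neg h, if_neg (fun e => h e.symm), mul_zero]

lemma det_mono (s : Equiv.Perm (Fin n)) (d : Fin n → K) :
    (mono s d).det = (∏ k, d k) * ((Equiv.Perm.sign s : ℤˣ) : ℤ) := by
  rw [mono_eq, Matrix.det_mul, Matrix.det_diagonal, Matrix.det_permutation]

/-- Monomial matrices in `SL_n`. -/
def monoSL (s : Equiv.Perm (Fin n)) (d : Fin n → K) (h : (∏ k, d k) * ((Equiv.Perm.sign s : ℤˣ) : ℤ) = 1) :
    Matrix.SpecialLinearGroup (Fin n) K := ⟨mono s d, by rw [det_mono, h]⟩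

lemma coe_monoSL_inv {s : Equiv.Perm (Fin n)} {d : Fin n → K} (h : (∏ k, d k) * ((Equiv.Perm.sign s : ℤˣ) : ℤ) = 1)
    (hd : ∀ k, d k ≠ 0) :
    (((monoSL s d h)⁻¹ : Matrix.SpecialLinearGroup (Fin n) K) : Matrix (Fin n) (Fin n) K) = monoI s d := by
  have h1 : (((monoSL s d h)⁻¹ : Matrix.SpecialLinearGroup (Fin n) K) : Matrix (Fin n) (Fin n) K) * mono s d = 1 := by
    have : ((monoSL s d h)⁻¹ * monoSL s d h : Matrix.SpecialLinearGroup (Fin n) K) = 1 := inv_mul_cancel _
    exact congrArg Subtype.val this
  calc _ = ((((monoSL s d h)⁻¹ : Matrix.SpecialLinearGroup (Fin n) K) : Matrix (Fin n) (Fin n) K) * mono s d) * monoI s d := by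
        rw [Matrix.mul_assoc, mono_mul_monoI hd, Matrix.mul_one]
    _ = monoI s d := by rw [h1, Matrix.one_mul]

lemma conj_monoSL {s : Equiv.Perm (Fin n)} {d : Fin n → K} (h : (∏ k, d k) * ((Equiv.Perm.sign s : ℤˣ) : ℤ) = 1)
    (hd : ∀ k, d k ≠ 0) (a : Matrix.SpecialLinearGroup (Fin n) K) (k l : Fin n) :
    ((monoSL s d h * a * (monoSL s d h)⁻¹ : Matrix.SpecialLinearGroup (Fin n) K) : Matrix (Fin n) (Fin n) K) k l =
      d k * (a : Matrix (Fin n) (Fin n) K) (s k) (s l) * (d l)⁻¹ := by
  rw [Matrix.SpecialLinearGroup.coe_mul, Matrix.SpecialLinearGroup.coe_mul, coe_monoSL_inv h hd]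
  exact conj_apply s d _ k l

/-- Two-transitivity of the symmetric group. -/
lemma exists_perm {i j a b : Fin n} (hij : i ≠ j) (hab : a ≠ b) : ∃ s : Equiv.Perm (Fin n), s i = a ∧ s j = b := by
  refine ⟨Equiv.swap (Equiv.swap i a j) b * Equiv.swap i a, ?_, ?_⟩
  · rw [Equiv.Perm.mul_apply, Equiv.swap_apply_left]
    apply Equiv.swap_apply_of_ne_of_ne _ hab
    intro e
    have : Equiv.swap i a i = Equiv.swap i a j := by rw [Equiv.swap_apply_left]; exact e
    exact hij ((Equiv.swap i a).injective this)
  · rw [Equiv.Perm.mul_apply, Equiv.swap_apply_left]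

variable [Fintype K]

/-- All transvections with non-zero parameter are conjugate. -/
lemma exists_conj_X (hn : 3 ≤ n) {a b i j : Fin n} (hab : a ≠ b) (hij : i ≠ j) {c e : K} (hc : c ≠ 0) (he : e ≠ 0) :
    ∃ g : Matrix.SpecialLinearGroup (Fin n) K, g * X a b hab c * g⁻¹ = X i j hij e := by
  classical
  obtain ⟨s, hsi, hsj⟩ := exists_perm hij hab
  obtain ⟨m, hmi, hmj⟩ : ∃ m : Fin n, m ≠ i ∧ m ≠ j := by
    by_contra hcon
    push Not at hcon
    have hsub : (Finset.univ : Finset (Fin n)) ⊆ {i, j} := by
      intro x _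
      by_cases hx : x = i
      · simp [hx]
      · simp [hcon x hx]
    have := Finset.card_le_card hsub
    rw [Finset.card_univ, Fintype.card_fin] at this
    have h2 := Finset.card_le_two (a := i) (b := j)
    omega
  set σ : K := (((Equiv.Perm.sign s : ℤˣ) : ℤ) : K) with hσ
  have hσσ : σ * σ = 1 := by
    rw [hσ, ← Int.cast_mul, ← Units.val_mul, ← pow_two, Int.units_sq]
    simp
  have hσ0 : σ ≠ 0 := left_ne_zero_of_mul_eq_one hσσ
  let d : Fin n → K := fun k => (if k = i then e / c else 1) * (if k = m then σ * (c / e) else 1)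
  have hdi : d i = e / c := by
    simp [d, hmi.symm]
  have hdj : d j = 1 := by
    simp [d, hij.symm, hmj.symm]
  have hd : ∀ k, d k ≠ 0 := by
    intro k
    apply mul_ne_zero
    · split_ifs
      · exact div_ne_zero he hc
      · exact one_ne_zero
    · split_ifs
      · exact mul_ne_zero hσ0 (div_ne_zero hc he)
      · exact one_ne_zero
  have hprod : (∏ k, d k) * σ = 1 := by
    have : ∏ k, d k = (e / c) * (σ * (c / e)) := by
      simp only [d, Finset.prod_mul_distrib]
      simp [Finset.prod_ite_eq']
    have e2 : (e / c) * (σ * (c / e)) = σ := by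
      field_simp
    rw [this, e2, hσσ]
  refine ⟨monoSL s d (by exact_mod_cast hprod), ?_⟩
  apply Subtype.ext
  ext k l
  rw [conj_monoSL _ hd, coe_X, coe_X, Matrix.add_apply, Matrix.add_apply]
  by_cases hkl : k = l
  · subst hkl
    have h1 : Matrix.single a b c (s k) (s k) = 0 := by
      apply Matrix.single_apply_of_ne
      rintro ⟨h1, h2⟩
      exact hab (h1.trans h2.symm)
    have h2 : Matrix.single i j e k k = 0 := by
      apply Matrix.single_apply_of_ne
      rintro ⟨h1, h2⟩
      exact hij (h1.trans h2.symm)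
    rw [Matrix.one_apply_eq, h1, h2, Matrix.one_apply_eq]
    simp [hd]
  · have h1 : (1 : Matrix (Fin n) (Fin n) K) (s k) (s l) = 0 :=
      Matrix.one_apply_ne (fun e => hkl (s.injective e))
    rw [h1, Matrix.one_apply_ne hkl, zero_add, zero_add]
    by_cases h2 : i = k ∧ j = l
    · obtain ⟨rfl, rfl⟩ := h2
      rw [hsi, hsj, Matrix.single_apply_same, Matrix.single_apply_same, hdi, hdj]
      field_simp
    · have h5 : Matrix.single i j e k l = 0 := by
        apply Matrix.single_apply_of_ne
        exact h2
      have h6 : Matrix.single a b c (s k) (s l) = 0 := by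
        apply Matrix.single_apply_of_ne
        rintro ⟨h3, h4⟩
        apply h2
        rw [← hsi] at h3
        rw [← hsj] at h4
        exact ⟨s.injective h3, s.injective h4⟩
      rw [h5, h6]
      simp

/-- `U` is generated by the transvections. -/
lemma U_le_of_X (R : Subgroup (Matrix.SpecialLinearGroup (Fin n) K))
    (hX : ∀ i j (h : i < j) (e : K), X i j h.ne e ∈ R) : U K n ≤ R := by
  -- the order in which entries are cleared
  have key : ∀ t : ℕ, ∀ u ∈ U K n, (∀ k l : Fin n, k ≠ l → n * (l : ℕ) + (n - 1 - (k : ℕ)) < n * n - t →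
      (u : Matrix (Fin n) (Fin n) K) k l = 0) → u ∈ R := by
    intro t
    induction t with
    | zero =>
      intro u hu hcl
      have h1 : u = 1 := by
        apply Subtype.ext
        ext k l
        rw [Matrix.SpecialLinearGroup.coe_one]
        by_cases hkl : k = l
        · subst hkl
          rw [hu.2, Matrix.one_apply_eq]
        · rw [Matrix.one_apply_ne hkl]
          apply hcl k l hkl
          have hk := k.2
          have hl := l.2
          have h2 : n * (l : ℕ) + n ≤ n * n := by
            have : n * ((l : ℕ) + 1) ≤ n * n := Nat.mul_le_mul_left _ hl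
            rw [Nat.mul_add, Nat.mul_one] at this
            exact this
          simp only [Nat.sub_zero]
          omega
      rw [h1]
      exact R.one_mem
    | succ t ih =>
      intro u hu hcl
      by_cases hN : n * n ≤ t
      · apply ih u hu
        intro k l hkl h
        omega
      set N := n * n - (t + 1) with hNdef
      have hN1 : n * n - t = N + 1 := by omega
      have hNlt : N < n * n := by omega
      have hn0 : 0 < n := by
        by_contra h0
        have : n = 0 := by omega
        subst this
        simp at hNlt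
      have hmlt : N / n < n := Nat.div_lt_of_lt_mul hNlt
      have hmod : N % n < n := Nat.mod_lt _ hn0
      have hrlt : n - 1 - N % n < n := by omega
      let m : Fin n := ⟨N / n, hmlt⟩
      let r : Fin n := ⟨n - 1 - N % n, hrlt⟩
      have hφ : n * (m : ℕ) + (n - 1 - (r : ℕ)) = N := by
        show n * (N / n) + (n - 1 - (n - 1 - N % n)) = N
        have e1 : n - 1 - (n - 1 - N % n) = N % n := by omega
        rw [e1, Nat.div_add_mod]
      have hinj : ∀ k l : Fin n, n * (l : ℕ) + (n - 1 - (k : ℕ)) = N → k = r ∧ l = m := by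
        intro k l h
        have hk := k.2
        have h1 : n - 1 - (k : ℕ) < n := by omega
        have h2 : (n * (l : ℕ) + (n - 1 - (k : ℕ))) / n = l := by
          rw [Nat.mul_add_div hn0, Nat.div_eq_of_lt h1, Nat.add_zero]
        have h3 : (n * (l : ℕ) + (n - 1 - (k : ℕ))) % n = n - 1 - k := by
          rw [Nat.mul_add_mod, Nat.mod_eq_of_lt h1]
        rw [h] at h2 h3
        constructor
        · apply Fin.ext
          show (k : ℕ) = n - 1 - N % n
          omega
        · apply Fin.ext
          exact h2.symm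
      by_cases hrm : r < m
      · -- clear the entry
        set a : K := - (u : Matrix (Fin n) (Fin n) K) r m with ha
        have hu' : u * X r m hrm.ne a ∈ U K n := (U K n).mul_mem hu (X_mem_U hrm a)
        have h5 := ih _ hu' (by
          intro k l hkl hlt
          rw [hN1] at hlt
          have e0 : ((u * X r m hrm.ne a : Matrix.SpecialLinearGroup (Fin n) K) : Matrix (Fin n) (Fin n) K) =
              (u : Matrix (Fin n) (Fin n) K) * transvection r m a := rfl
          rw [e0]
          by_cases hlm : l = m
          · subst hlm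
            rw [Matrix.mul_transvection_apply_same]
            have hkr : r ≤ k := by
              by_contra hcon
              rw [not_le, Fin.lt_def] at hcon
              have hk := k.2
              have hr := r.2
              omega
            rcases lt_or_eq_of_le hkr with h6 | h6
            · rw [hu.1 k r h6, mul_zero, add_zero]
              apply hcl k m hkl
              rw [Fin.lt_def] at h6
              have hk := k.2
              have hr := r.2
              have : n * (m : ℕ) + (n - 1 - (k : ℕ)) < N := by omega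
              omega
            · subst h6
              rw [hu.2, ha]
              ring
          · rw [Matrix.mul_transvection_apply_of_ne _ _ _ _ hlm]
            apply hcl k l hkl
            have hne : n * (l : ℕ) + (n - 1 - (k : ℕ)) ≠ N := fun e => hlm (hinj k l e).2
            omega)
        have h6 := R.mul_mem h5 (R.inv_mem (hX r m hrm a))
        simpa using h6
      · apply ih u hu
        intro k l hkl hlt
        rw [hN1] at hlt
        by_cases he : n * (l : ℕ) + (n - 1 - (k : ℕ)) = N
        · obtain ⟨rfl, rfl⟩ := hinj k l he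
          rw [not_lt] at hrm
          exact hu.1 _ _ (lt_of_le_of_ne hrm (Ne.symm hkl))
        · apply hcl k l hkl
          omega
  intro u hu
  apply key (n * n) u hu
  intro k l _ h
  omega

section charp

variable (p : ℕ) [Fact p.Prime] [CharP K p]

include p in
/-- Strongly closed subgroups of `U`. -/
theorem closed_eq_U (hn : 3 ≤ n) {T : Subgroup (Matrix.SpecialLinearGroup (Fin n) K)} (hT : T ≤ U K n) (hne : T ≠ ⊥)
    (hcl : ∀ x ∈ T, ∀ g, g * x * g⁻¹ ∈ U K n → g * x * g⁻¹ ∈ T) : T = U K n := by
  haveI : NeZero n := ⟨by omega⟩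
  have hnorm : ∀ s ∈ U K n, ∀ x ∈ T, s * x * s⁻¹ ∈ T := fun s hs x hx =>
    hcl x hx s ((U K n).mul_mem ((U K n).mul_mem hs (hT hx)) ((U K n).inv_mem hs))
  -- a central element
  let N : Subgroup (U K n) := T.subgroupOf (U K n)
  haveI hNn : N.Normal := by
    constructor
    intro x hx g
    exact hnorm g g.2 x hx
  have hN1 : N ≠ ⊥ := by
    intro h
    apply hne
    rw [eq_bot_iff]
    intro x hx
    have h1 : (⟨x, hT hx⟩ : U K n) ∈ N := hx
    rw [h, Subgroup.mem_bot] at h1
    have := congrArg Subtype.val h1
    exact this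
  obtain ⟨z, hzN, hzc, hzo⟩ := Cfsg.Agent.Lib.PGroups.Basic.exists_central_orderOf_eq (U_isPGroup p (K := K) (n := n)) N hN1
  have hz1 : z ≠ 1 := by
    rintro rfl
    rw [orderOf_one] at hzo
    exact (Fact.out : p.Prime).one_lt.ne hzo
  set x : Matrix.SpecialLinearGroup (Fin n) K := z.1 with hx
  have hxU : x ∈ U K n := z.2
  have hxT : x ∈ T := hzN
  have hx1 : x ≠ 1 := fun e => hz1 (Subtype.ext e)
  -- commutation with transvections
  have hcomm : ∀ i j (hij : i < j), Commute (Matrix.single i j (1 : K)) (x : Matrix (Fin n) (Fin n) K) := by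
    intro i j hij
    have h1 := Subgroup.mem_center_iff.mp hzc ⟨_, X_mem_U hij (1 : K)⟩
    have h2 : X i j hij.ne 1 * x = x * X i j hij.ne 1 := congrArg Subtype.val h1
    have h3 := congrArg Subtype.val h2
    simp only [Matrix.SpecialLinearGroup.coe_mul, coe_X, add_mul, mul_add, one_mul, mul_one] at h3
    exact add_left_cancel (a := (x : Matrix (Fin n) (Fin n) K)) (by
      rw [h3])
  have hn0 : 0 < n := by omega
  let f : Fin n := ⟨0, hn0⟩
  let e : Fin n := ⟨n - 1, by omega⟩
  have hfe : f < e := by
    rw [Fin.lt_def]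
    show 0 < n - 1
    omega
  have hrow : ∀ k l : Fin n, k ≠ f → k ≠ l → (x : Matrix (Fin n) (Fin n) K) k l = 0 := by
    intro k l hk hkl
    have hk0 : 0 < (k : ℕ) := by
      by_contra h0
      apply hk
      apply Fin.ext
      show (k : ℕ) = 0
      omega
    let i : Fin n := ⟨k - 1, by have := k.2; omega⟩
    have hik : i < k := by
      rw [Fin.lt_def]
      show (k : ℕ) - 1 < k
      omega
    exact Matrix.row_eq_zero_of_commute_single (hcomm i k hik) (Ne.symm hkl)
  have hcol : ∀ k l : Fin n, l ≠ e → k ≠ l → (x : Matrix (Fin n) (Fin n) K) k l = 0 := by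
    intro k l hl hkl
    have hl0 : (l : ℕ) + 1 < n := by
      have h1 := l.2
      by_contra h0
      apply hl
      apply Fin.ext
      show (l : ℕ) = n - 1
      omega
    let j : Fin n := ⟨l + 1, hl0⟩
    have hlj : l < j := by
      rw [Fin.lt_def]
      show (l : ℕ) < l + 1
      omega
    exact Matrix.col_eq_zero_of_commute_single (hcomm l j hlj) hkl
  set c : K := (x : Matrix (Fin n) (Fin n) K) f e with hc
  have hxX : x = X f e hfe.ne c := by
    apply Subtype.ext
    ext k l
    rw [coe_X, Matrix.add_apply]
    by_cases hkl : k = l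
    · subst hkl
      rw [hxU.2, Matrix.one_apply_eq, Matrix.single_apply_of_ne, add_zero]
      rintro ⟨rfl, h2⟩
      exact hfe.ne h2.symm
    · rw [Matrix.one_apply_ne hkl, zero_add]
      by_cases h1 : k = f
      · subst h1
        by_cases h2 : l = e
        · subst h2
          rw [Matrix.single_apply_same]
        · rw [hcol _ _ h2 hkl, Matrix.single_apply_of_ne]
          rintro ⟨-, h3⟩
          exact h2 h3.symm
      · rw [hrow _ _ h1 hkl, Matrix.single_apply_of_ne]
        rintro ⟨h3, -⟩
        exact h1 h3.symm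
  have hc0 : c ≠ 0 := by
    intro h0
    apply hx1
    rw [hxX, h0]
    apply Subtype.ext
    simp [coe_X]
  -- all transvections
  have hall : ∀ i j (h : i < j) (a : K), X i j h.ne a ∈ T := by
    intro i j h a
    by_cases ha : a = 0
    · have : X i j h.ne a = 1 := by
        apply Subtype.ext
        rw [coe_X, ha]
        simp
      rw [this]
      exact T.one_mem
    · obtain ⟨g, hg⟩ := exists_conj_X hn hfe.ne h.ne hc0 ha
      rw [← hg]
      apply hcl _ _ g
      · rw [hg]
        exact X_mem_U h a
      · rw [← hxX]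
        exact hxT
  exact le_antisymm hT (U_le_of_X T hall)

end charp

end Cfsg.Agent.Lib.H29.LinA
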