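import Cfsg.Agent.Lib.H29.LinB

/-!
# The Levi elements and the simplicity of the `p`-fusion system of `PSL_n(K)`
-/

set_option autoImplicit false

namespace Cfsg.Agent.Lib.H29.LinA

open Matrix Cfsg.Agent.Lib.H29.ParaFusion Cfsg.Agent.Lib.SLn.Basic

variable {K : Type*} [Field K] {n : ℕ}

section iota

variable (i i' : Fin n)

/-- The embedding of `2 × 2` matrices at the positions `i, i'`. -/
def ι (A : Matrix (Fin 2) (Fin 2) K) : Matrix (Fin n) (Fin n) K :=
  1 + Matrix.single i i (A 0 0 - 1) + Matrix.single i' i' (A 1 1 - 1) + Matrix.single i i' (A 0 1) +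
    Matrix.single i' i (A 1 0)

lemma ι_mul (hne : i ≠ i') (A B : Matrix (Fin 2) (Fin 2) K) : ι i i' A * ι i i' B = ι i i' (A * B) := by
  simp only [ι, add_mul, mul_add, one_mul, mul_one, Matrix.single_mul_single_same,
    Matrix.single_mul_single_of_ne _ _ _ _ hne, Matrix.single_mul_single_of_ne _ _ _ _ hne.symm, add_zero, zero_add,
    Matrix.mul_apply, Fin.sum_univ_two, Fin.isValue]
  ext k l
  simp only [Matrix.add_apply, Matrix.one_apply, Matrix.single_apply]
  split_ifs <;> ring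

lemma ι_diag (hne : i ≠ i') (a : K) (ha : a ≠ 0) :
    ι i i' !![a, 0; 0, a⁻¹] = Matrix.diagonal (fun k => if k = i then a else if k = i' then a⁻¹ else 1) := by
  ext k l
  simp only [ι, Matrix.add_apply, Matrix.one_apply, Matrix.single_apply, Matrix.diagonal_apply]
  simp
  by_cases h1 : i = k <;> by_cases h2 : i' = k <;> by_cases h3 : k = l <;> by_cases h4 : i = l <;> by_cases h5 : i' = l <;>
    simp_all [eq_comm]

end iota

variable [Fintype K]

lemma conj_monoSL_X {s : Equiv.Perm (Fin n)} {d : Fin n → K} (h : (∏ k, d k) * ((Equiv.Perm.sign s : ℤˣ) : ℤ) = 1)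
    (hd : ∀ k, d k ≠ 0) {a b i j : Fin n} (hab : a ≠ b) (hij : i ≠ j) (c e : K) (hsi : s i = a) (hsj : s j = b)
    (he : d i * c * (d j)⁻¹ = e) : monoSL s d h * X a b hab c * (monoSL s d h)⁻¹ = X i j hij e := by
  apply Subtype.ext
  ext k l
  rw [conj_monoSL _ hd, coe_X, coe_X, Matrix.add_apply, Matrix.add_apply]
  by_cases hkl : k = l
  · subst hkl
    have h1 : Matrix.single a b c (s k) (s k) = 0 := by
      apply Matrix.single_apply_of_ne
      rintro ⟨h1, h2⟩
      exact hab (h1.trans h2.symm)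
    have h2 : Matrix.single i j e k k = 0 := by
      apply Matrix.single_apply_of_ne
      rintro ⟨h1, h2⟩
      exact hij (h1.trans h2.symm)
    rw [Matrix.one_apply_eq, h1, h2, Matrix.one_apply_eq]
    simp [hd]
  · have h1 : (1 : Matrix (Fin n) (Fin n) K) (s k) (s l) = 0 :=
      Matrix.one_apply_ne (fun e => hkl (s.injective e))
    rw [h1, Matrix.one_apply_ne hkl, zero_add, zero_add]
    by_cases h2 : i = k ∧ j = l
    · obtain ⟨rfl, rfl⟩ := h2
      rw [hsi, hsj, Matrix.single_apply_same, Matrix.single_apply_same, he]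
    · have h5 : Matrix.single i j e k l = 0 := by
        apply Matrix.single_apply_of_ne
        exact h2
      have h6 : Matrix.single a b c (s k) (s l) = 0 := by
        apply Matrix.single_apply_of_ne
        rintro ⟨h3, h4⟩
        apply h2
        rw [← hsi] at h3
        rw [← hsj] at h4
        exact ⟨s.injective h3, s.injective h4⟩
      rw [h5, h6]
      simp

/-- The torus element at the positions `i, i'`. -/
def hh (i i' : Fin n) (hne : i ≠ i') (a : K) : Matrix.SpecialLinearGroup (Fin n) K :=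
  X i i' hne a * X i' i hne.symm (-a⁻¹) * X i i' hne a * (X i i' hne (-1) * X i' i hne.symm 1 * X i i' hne (-1))

/-- The diagonal of the torus element. -/
def dd (i i' : Fin n) (a : K) : Fin n → K := fun k => if k = i then a else if k = i' then a⁻¹ else 1

lemma coe_hh {i i' : Fin n} (hne : i ≠ i') {a : K} (ha : a ≠ 0) :
    ((hh i i' hne a : Matrix.SpecialLinearGroup (Fin n) K) : Matrix (Fin n) (Fin n) K) = Matrix.diagonal (dd i i' a) := by
  have e1 : ∀ c : K, ((X i i' hne c : Matrix.SpecialLinearGroup (Fin n) K) : Matrix (Fin n) (Fin n) K) = ι i i' !![1, c; 0, 1] := by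
    intro c
    rw [coe_X]
    simp [ι]
  have e2 : ∀ c : K, ((X i' i hne.symm c : Matrix.SpecialLinearGroup (Fin n) K) : Matrix (Fin n) (Fin n) K) = ι i i' !![1, 0; c, 1] := by
    intro c
    rw [coe_X]
    simp [ι]
  rw [hh]
  simp only [Matrix.SpecialLinearGroup.coe_mul, e1, e2, ι_mul _ _ hne]
  have e3 : (!![1, a; 0, 1] * !![1, 0; -a⁻¹, 1] * !![1, a; 0, 1] *
      (!![1, -1; 0, 1] * !![1, 0; 1, 1] * !![1, -1; 0, 1]) : Matrix (Fin 2) (Fin 2) K) = !![a, 0; 0, a⁻¹] := by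
    ext k l
    fin_cases k <;> fin_cases l <;> simp [Matrix.mul_apply, Fin.sum_univ_two, ha] <;> field_simp <;> ring
  rw [e3]
  exact ι_diag i i' hne a ha

lemma dd_ne {i i' : Fin n} {a : K} (ha : a ≠ 0) (k : Fin n) : dd i i' a k ≠ 0 := by
  simp only [dd]
  split_ifs
  · exact ha
  · exact inv_ne_zero ha
  · exact one_ne_zero

lemma dd_prod {i i' : Fin n} (hne : i ≠ i') {a : K} (ha : a ≠ 0) : ∏ k, dd i i' a k = 1 := by
  have e : dd i i' a = fun k => (if k = i then a else 1) * (if k = i' then a⁻¹ else 1) := by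
    ext k
    simp only [dd]
    by_cases h1 : k = i
    · subst h1
      simp [hne]
    · simp [h1]
  rw [e, Finset.prod_mul_distrib]
  simp [Finset.prod_ite_eq', ha]

lemma mono_one (d : Fin n → K) : mono 1 d = Matrix.diagonal d := by
  ext k l
  rw [mono_apply, Matrix.diagonal_apply]
  simp only [Equiv.Perm.one_apply]
  by_cases h : k = l
  · subst h
    simp
  · simp [h, Ne.symm h]

lemma dd_det {i i' : Fin n} (hne : i ≠ i') {a : K} (ha : a ≠ 0) :
    (∏ k, dd i i' a k) * ((Equiv.Perm.sign (1 : Equiv.Perm (Fin n)) : ℤˣ) : ℤ) = 1 := by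
  rw [dd_prod hne ha]
  simp

lemma hh_eq {i i' : Fin n} (hne : i ≠ i') {a : K} (ha : a ≠ 0) : hh i i' hne a = monoSL 1 (dd i i' a) (dd_det hne ha) := by
  apply Subtype.ext
  rw [coe_hh hne ha]
  exact (mono_one _).symm

lemma hh_conj {i i' : Fin n} (hne : i ≠ i') {a : K} (ha : a ≠ 0) (u : Matrix.SpecialLinearGroup (Fin n) K) (k l : Fin n) :
    ((hh i i' hne a * u * (hh i i' hne a)⁻¹ : Matrix.SpecialLinearGroup (Fin n) K) : Matrix (Fin n) (Fin n) K) k l =
      dd i i' a k * (u : Matrix (Fin n) (Fin n) K) k l * (dd i i' a l)⁻¹ := by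
  rw [hh_eq hne ha, conj_monoSL _ (dd_ne ha)]
  rfl

lemma nz_U_hh {i i' : Fin n} (hne : i ≠ i') {a : K} (ha : a ≠ 0) : Nz (U K n) (hh i i' hne a) := by
  rintro u ⟨hu, hu'⟩
  constructor
  · intro k l hlk
    rw [hh_conj hne ha, hu k l hlk]
    simp
  · intro k
    rw [hh_conj hne ha, hu']
    simp [dd_ne ha]

lemma hh_mem_B {i i' : Fin n} (hne : i ≠ i') {a : K} (ha : a ≠ 0) : hh i i' hne a ∈ B K n := by
  intro k l hlk
  rw [coe_hh hne ha, Matrix.diagonal_apply_ne _ hlk.ne']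

lemma hh_diag {i i' : Fin n} (hne : i ≠ i') {a : K} (ha : a ≠ 0) (k : Fin n) :
    ((hh i i' hne a : Matrix.SpecialLinearGroup (Fin n) K) : Matrix (Fin n) (Fin n) K) k k = dd i i' a k := by
  rw [coe_hh hne ha, Matrix.diagonal_apply_eq]

section para

variable {i i' : Fin n} (hi : (i' : ℕ) = i + 1)

include hi

lemma ne_of_succ : i ≠ i' := by
  intro h
  rw [← h] at hi
  omega

lemma lt_of_succ : i < i' := by
  rw [Fin.lt_def]
  omega

lemma coord_mul {u v : Matrix.SpecialLinearGroup (Fin n) K} (hu : u ∈ U K n) (hv : v ∈ U K n) :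
    ((u * v : Matrix.SpecialLinearGroup (Fin n) K) : Matrix (Fin n) (Fin n) K) i i' =
      (u : Matrix (Fin n) (Fin n) K) i i' + (v : Matrix (Fin n) (Fin n) K) i i' := by
  rw [Matrix.SpecialLinearGroup.coe_mul, Matrix.mul_apply,
    Finset.sum_eq_add i i' (ne_of_succ hi) _ (by simp) (by simp), hu.2, hv.2, one_mul, mul_one, add_comm]
  intro r _ hr
  by_cases h1 : r < i
  · rw [hu.1 i r h1, zero_mul]
  · have h2 : i' < r := by
      rw [Fin.lt_def]
      rw [Fin.lt_def] at h1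
      have h3 : (r : ℕ) ≠ i := fun e => hr.1 (Fin.ext e)
      have h4 : (r : ℕ) ≠ i' := fun e => hr.2 (Fin.ext e)
      omega
    rw [hv.1 r i' h2, mul_zero]

lemma coord_inv {u : Matrix.SpecialLinearGroup (Fin n) K} (hu : u ∈ U K n) :
    ((u⁻¹ : Matrix.SpecialLinearGroup (Fin n) K) : Matrix (Fin n) (Fin n) K) i i' = - (u : Matrix (Fin n) (Fin n) K) i i' := by
  have h1 := coord_mul hi hu ((U K n).inv_mem hu)
  rw [mul_inv_cancel, Matrix.SpecialLinearGroup.coe_one, Matrix.one_apply_ne (ne_of_succ hi)] at h1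
  linear_combination -h1

omit hi in
/-- The kernel of the coordinate. -/
def Ui (i i' : Fin n) (hi : (i' : ℕ) = i + 1) : Subgroup (Matrix.SpecialLinearGroup (Fin n) K) where
  carrier := {u | u ∈ U K n ∧ (u : Matrix (Fin n) (Fin n) K) i i' = 0}
  mul_mem' := by
    rintro a b ⟨ha, ha'⟩ ⟨hb, hb'⟩
    exact ⟨(U K n).mul_mem ha hb, by rw [coord_mul hi ha hb, ha', hb', add_zero]⟩
  one_mem' := ⟨(U K n).one_mem, by
    rw [Matrix.SpecialLinearGroup.coe_one, Matrix.one_apply_ne (ne_of_succ hi)]⟩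
  inv_mem' := by
    rintro a ⟨ha, ha'⟩
    exact ⟨(U K n).inv_mem ha, by rw [coord_inv hi ha, ha', neg_zero]⟩

lemma Ui_le : Ui (K := K) i i' hi ≤ U K n := fun _ h => h.1

lemma nz_Ui_of_mem {s : Matrix.SpecialLinearGroup (Fin n) K} (hs : s ∈ U K n) : Nz (Ui (K := K) i i' hi) s := by
  rintro u ⟨hu, hu'⟩
  refine ⟨(U K n).mul_mem ((U K n).mul_mem hs hu) ((U K n).inv_mem hs), ?_⟩
  rw [coord_mul hi ((U K n).mul_mem hs hu) ((U K n).inv_mem hs), coord_mul hi hs hu, hu', coord_inv hi hs]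
  ring

lemma nz_Ui_hh {a : K} (ha : a ≠ 0) : Nz (Ui (K := K) i i' hi) (hh i i' (ne_of_succ hi) a) := by
  rintro u ⟨hu, hu'⟩
  refine ⟨nz_U_hh _ ha u hu, ?_⟩
  rw [hh_conj _ ha, hu']
  simp

/-- The diagonal of the Weyl element. -/
def d₀ (i : Fin n) : Fin n → K := fun k => if k = i then -1 else 1

omit hi in
lemma d₀_ne (k : Fin n) : d₀ (K := K) i k ≠ 0 := by
  simp only [d₀]
  split_ifs <;> simp

lemma d₀_det : (∏ k, d₀ (K := K) i k) * ((Equiv.Perm.sign (Equiv.swap i i') : ℤˣ) : ℤ) = 1 := by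
  rw [Equiv.Perm.sign_swap (ne_of_succ hi)]
  simp [d₀, Finset.prod_ite_eq']

/-- The Weyl element. -/
def w₀ : Matrix.SpecialLinearGroup (Fin n) K := monoSL (Equiv.swap i i') (d₀ i) (d₀_det hi)

omit [Fintype K] in
lemma swap_lt {k l : Fin n} (hlk : l < k) (hne : ¬(k = i' ∧ l = i)) : Equiv.swap i i' l < Equiv.swap i i' k := by
  rw [Fin.lt_def] at hlk ⊢
  simp only [Equiv.swap_apply_def]
  have hc : ∀ x y : Fin n, x = y ↔ (x : ℕ) = y := fun x y => Fin.ext_iff
  have hne' : ¬((k : ℕ) = i' ∧ (l : ℕ) = i) := by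
    rintro ⟨h1, h2⟩
    exact hne ⟨Fin.ext h1, Fin.ext h2⟩
  simp only [hc]
  split_ifs <;> simp_all <;> omega

lemma nz_Ui_w₀ : Nz (Ui (K := K) i i' hi) (w₀ hi) := by
  rintro u ⟨hu, hu'⟩
  have hne := ne_of_succ hi
  have hij := lt_of_succ hi
  refine ⟨⟨?_, ?_⟩, ?_⟩
  · intro k l hlk
    rw [w₀, conj_monoSL _ d₀_ne]
    by_cases h : k = i' ∧ l = i
    · obtain ⟨rfl, rfl⟩ := h
      rw [Equiv.swap_apply_right, Equiv.swap_apply_left, hu']
      simp
    · rw [hu.1 _ _ (swap_lt hi hlk h)]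
      simp
  · intro k
    rw [w₀, conj_monoSL _ d₀_ne, hu.2]
    simp [d₀_ne]
  · rw [w₀, conj_monoSL _ d₀_ne, Equiv.swap_apply_left, Equiv.swap_apply_right, hu.1 _ _ hij]
    simp

lemma X_conj_w₀ (b : K) : w₀ hi * X i i' (ne_of_succ hi) (-b) * (w₀ hi)⁻¹ = X i' i (ne_of_succ hi).symm b := by
  apply conj_monoSL_X _ d₀_ne _ _ _ _ (Equiv.swap_apply_right _ _) (Equiv.swap_apply_left _ _)
  have hne := ne_of_succ hi
  simp [d₀, hne.symm]

end para

end Cfsg.Agent.Lib.H29.LinA
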