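import Cfsg.Agent.Lib.H29.LinC

/-!
# The simplicity of the `p`-fusion system of `PSL_n(K)`
-/

set_option autoImplicit false

namespace Cfsg.Agent.Lib.H29.LinA

open Matrix Cfsg.Agent.Lib.H29.ParaFusion Cfsg.Agent.Lib.SLn.Basic

variable {K : Type*} [Field K] [Fintype K] {n : ℕ}

lemma exists_scalar_of_map_eq {x y : Matrix.SpecialLinearGroup (Fin n) K} (h : toPSL x = toPSL y) :
    ∃ c : K, (x : Matrix (Fin n) (Fin n) K) = c • (y : Matrix (Fin n) (Fin n) K) := by
  have h1 : toPSL (x * y⁻¹) = 1 := by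
    rw [map_mul, map_inv, h, mul_inv_cancel]
  obtain ⟨c, hc⟩ := (toPSL_eq_one_iff _).mp h1
  refine ⟨c, ?_⟩
  have h2 : x = (x * y⁻¹) * y := by group
  conv_lhs => rw [h2]
  rw [Matrix.SpecialLinearGroup.coe_mul, hc]
  ext k l
  simp [Matrix.scalar_apply, Matrix.diagonal_mul]

lemma mem_B_of_nz {g : Matrix.SpecialLinearGroup (Fin n) K} (hg : Nz ((U K n).map toPSL) (toPSL g)) : g ∈ B K n := by
  apply mem_B_of_conj
  intro i j hij
  obtain ⟨u, hu, hue⟩ := hg _ ⟨_, X_mem_U hij (1 : K), rfl⟩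
  have h1 : toPSL (g * X i j hij.ne 1 * g⁻¹) = toPSL u := by
    rw [hue]
    simp only [map_mul, map_inv]
  obtain ⟨c, hc⟩ := exists_scalar_of_map_eq h1
  exact ⟨c, u, hu, hc⟩

/-- The centralizer hypothesis. -/
theorem mem_P_of_central (hn : 3 ≤ n) {i i' : Fin n} (hi : (i' : ℕ) = i + 1)
    {g : Matrix.SpecialLinearGroup (Fin n) K} (hgB : g ∈ B K n)
    (h : ∀ a ∈ (Ui (K := K) i i' hi).map toPSL, toPSL g * a * (toPSL g)⁻¹ = a) : toPSL g ∈ (U K n).map toPSL := by
  classical
  have hgg' : (g : Matrix (Fin n) (Fin n) K) * ((g⁻¹ : Matrix.SpecialLinearGroup (Fin n) K) : Matrix (Fin n) (Fin n) K) = 1 := by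
    rw [← Matrix.SpecialLinearGroup.coe_mul, mul_inv_cancel, Matrix.SpecialLinearGroup.coe_one]
  have hkey : ∀ k l (hkl : k < l), ¬(k = i ∧ l = i') →
      (g : Matrix (Fin n) (Fin n) K) k k = (g : Matrix (Fin n) (Fin n) K) l l := by
    intro k l hkl hne
    have hXmem : X k l hkl.ne (1 : K) ∈ Ui (K := K) i i' hi := by
      refine ⟨X_mem_U hkl 1, ?_⟩
      rw [coe_X, Matrix.add_apply, Matrix.one_apply_ne (ne_of_succ hi), zero_add]
      apply Matrix.single_apply_of_ne
      rintro ⟨h1, h2⟩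
      exact hne ⟨h1, h2⟩
    have h1 := h _ ⟨_, hXmem, rfl⟩
    have h2 : toPSL (g * X k l hkl.ne 1 * g⁻¹) = toPSL (X k l hkl.ne (1 : K)) := by
      rw [← h1]
      simp only [map_mul, map_inv]
    obtain ⟨c, hc⟩ := exists_scalar_of_map_eq h2
    have hXB : X k l hkl.ne (1 : K) ∈ B K n := U_le_B (X_mem_U hkl 1)
    have hg'B : g⁻¹ ∈ B K n := (B K n).inv_mem hgB
    have hc1 : c = 1 := by
      have h3 := congrFun (congrFun hc k) k
      rw [Matrix.SpecialLinearGroup.coe_mul, Matrix.SpecialLinearGroup.coe_mul] at h3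
      rw [UT.mul_diag (UT.mul hgB hXB) hg'B, UT.mul_diag hgB hXB, (X_mem_U hkl (1 : K)).2, mul_one] at h3
      have h4 : (g : Matrix (Fin n) (Fin n) K) k k * ((g⁻¹ : Matrix.SpecialLinearGroup (Fin n) K) : Matrix (Fin n) (Fin n) K) k k = 1 := by
        rw [← UT.mul_diag hgB hg'B, hgg', Matrix.one_apply_eq]
      rw [h4] at h3
      simp only [Matrix.smul_apply, smul_eq_mul] at h3
      rw [(X_mem_U hkl (1 : K)).2, mul_one] at h3
      exact h3.symm
    subst hc1
    have h3 : g * X k l hkl.ne 1 * g⁻¹ = X k l hkl.ne 1 := by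
      apply Subtype.ext
      rw [hc, one_smul]
    have h4 : g * X k l hkl.ne 1 = X k l hkl.ne 1 * g := by
      rw [mul_inv_eq_iff_eq_mul] at h3
      exact h3
    have h5 := congrArg Subtype.val h4
    simp only [Matrix.SpecialLinearGroup.coe_mul, coe_X, add_mul, mul_add, one_mul, mul_one] at h5
    have h6 : Commute (Matrix.single k l (1 : K)) (g : Matrix (Fin n) (Fin n) K) :=
      (add_left_cancel h5).symm
    exact Matrix.diag_eq_of_commute_single h6
  obtain ⟨m, hmi, hmj⟩ : ∃ m : Fin n, m ≠ i ∧ m ≠ i' := by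
    by_contra hcon
    push Not at hcon
    have hsub : (Finset.univ : Finset (Fin n)) ⊆ {i, i'} := by
      intro x _
      by_cases hx : x = i
      · simp [hx]
      · simp [hcon x hx]
    have := Finset.card_le_card hsub
    rw [Finset.card_univ, Fintype.card_fin] at this
    have h2 := Finset.card_le_two (a := i) (b := i')
    omega
  set d : K := (g : Matrix (Fin n) (Fin n) K) m m with hd
  have hall : ∀ k, (g : Matrix (Fin n) (Fin n) K) k k = d := by
    intro k
    rcases lt_trichotomy k m with h1 | h1 | h1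
    · exact hkey k m h1 (fun e => hmj e.2)
    · rw [h1]
    · exact (hkey m k h1 (fun e => hmi e.1)).symm
  have hdet : d ^ n = 1 := by
    have h1 : (g : Matrix (Fin n) (Fin n) K).det = ∏ k, (g : Matrix (Fin n) (Fin n) K) k k :=
      Matrix.det_of_isUpperTriangular (fun _ _ hlk => hgB _ _ hlk)
    rw [g.2] at h1
    simp only [hall, Finset.prod_const, Finset.card_univ, Fintype.card_fin] at h1
    exact h1.symm
  have hd0 : d ≠ 0 := by
    rintro h0
    rw [h0, zero_pow (by omega)] at hdet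
    exact zero_ne_one hdet
  have hdetz : (Matrix.scalar (Fin n) d⁻¹).det = 1 := by
    rw [Matrix.scalar_apply, Matrix.det_diagonal]
    simp [Finset.prod_const, hdet]
  let z : Matrix.SpecialLinearGroup (Fin n) K := ⟨Matrix.scalar (Fin n) d⁻¹, hdetz⟩
  have hz1 : toPSL z = 1 := (toPSL_eq_one_iff _).mpr ⟨d⁻¹, rfl⟩
  have hent : ∀ k l, ((z * g : Matrix.SpecialLinearGroup (Fin n) K) : Matrix (Fin n) (Fin n) K) k l =
      d⁻¹ * (g : Matrix (Fin n) (Fin n) K) k l := by
    intro k l
    rw [Matrix.SpecialLinearGroup.coe_mul]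
    show (Matrix.scalar (Fin n) d⁻¹ * (g : Matrix (Fin n) (Fin n) K)) k l = _
    rw [Matrix.scalar_apply, Matrix.diagonal_mul]
  refine ⟨z * g, ⟨?_, ?_⟩, ?_⟩
  · intro k l hlk
    rw [hent, hgB k l hlk, mul_zero]
  · intro k
    rw [hent, hall, inv_mul_cancel₀ hd0]
  · rw [map_mul, hz1, one_mul]

/-- The elements of `B` are in the group generated by `U` and the torus. -/
theorem mem_closure_of_B {C : Subgroup (Matrix.ProjectiveSpecialLinearGroup (Fin n) K)}
    (hU : ∀ u ∈ U K n, toPSL u ∈ C)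
    (hh' : ∀ (i i' : Fin n) (hi : (i' : ℕ) = i + 1) (a : K), a ≠ 0 → toPSL (hh i i' (ne_of_succ hi) a) ∈ C)
    {g : Matrix.SpecialLinearGroup (Fin n) K} (hg : g ∈ B K n) : toPSL g ∈ C := by
  classical
  have key : ∀ m : ℕ, ∀ g ∈ B K n, (∀ j : Fin n, (j : ℕ) + 1 + m < n → (g : Matrix (Fin n) (Fin n) K) j j = 1) →
      toPSL g ∈ C := by
    intro m
    induction m with
    | zero =>
      intro g hg h1
      apply hU
      refine ⟨hg, ?_⟩
      have hdet : ∏ k, (g : Matrix (Fin n) (Fin n) K) k k = 1 := by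
        have h9 : (g : Matrix (Fin n) (Fin n) K).det = ∏ k, (g : Matrix (Fin n) (Fin n) K) k k :=
          Matrix.det_of_isUpperTriangular (fun _ _ hlk => hg _ _ hlk)
        rw [← h9, g.2]
      intro k
      by_cases hk : (k : ℕ) + 1 + 0 < n
      · exact h1 k hk
      · have h2 : ∀ l ∈ Finset.univ, l ≠ k → (g : Matrix (Fin n) (Fin n) K) l l = 1 := by
          intro l _ hl
          apply h1
          have h3 := k.2
          have h4 := l.2
          have h5 : (l : ℕ) ≠ k := fun e => hl (Fin.ext e)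
          omega
        rw [← Finset.mul_prod_erase _ _ (Finset.mem_univ k), Finset.prod_eq_one, mul_one] at hdet
        · exact hdet
        · intro l hl
          exact h2 l (Finset.mem_univ l) (Finset.ne_of_mem_erase hl)
    | succ m ih =>
      intro g hg h1
      by_cases hm : n < m + 2
      · apply ih g hg
        intro j hj
        have := j.2
        omega
      · have hk1 : n - 2 - m < n := by omega
        have hk2 : n - 1 - m < n := by omega
        let k : Fin n := ⟨n - 2 - m, hk1⟩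
        let k' : Fin n := ⟨n - 1 - m, hk2⟩
        have hkk : (k' : ℕ) = k + 1 := by
          show n - 1 - m = n - 2 - m + 1
          omega
        have hne := ne_of_succ hkk
        have ha : (g : Matrix (Fin n) (Fin n) K) k k ≠ 0 := by
          intro h0
          have hdet : ∏ l, (g : Matrix (Fin n) (Fin n) K) l l = 1 := by
            have h9 : (g : Matrix (Fin n) (Fin n) K).det = ∏ k, (g : Matrix (Fin n) (Fin n) K) k k :=
              Matrix.det_of_isUpperTriangular (fun _ _ hlk => hg _ _ hlk)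
            rw [← h9, g.2]
          rw [Finset.prod_eq_zero (f := fun l => (g : Matrix (Fin n) (Fin n) K) l l) (Finset.mem_univ k) h0] at hdet
          exact zero_ne_one hdet
        set a := (g : Matrix (Fin n) (Fin n) K) k k with ha_def
        have ha' : a⁻¹ ≠ 0 := inv_ne_zero ha
        have h3 : hh k k' hne a⁻¹ * g ∈ B K n := (B K n).mul_mem (hh_mem_B hne ha') hg
        have h4 := ih _ h3 (by
          intro j hj
          rw [Matrix.SpecialLinearGroup.coe_mul, UT.mul_diag (hh_mem_B hne ha') hg, hh_diag hne ha']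
          by_cases hjk : (j : ℕ) = n - 2 - m
          · have : j = k := Fin.ext hjk
            subst this
            simp only [dd, if_true]
            exact inv_mul_cancel₀ ha
          · have hj1 : j ≠ k := fun e => hjk (congrArg Fin.val e)
            have hj2 : j ≠ k' := by
              intro e
              have : (j : ℕ) = n - 1 - m := congrArg Fin.val e
              omega
            simp only [dd, if_neg hj1, if_neg hj2, one_mul]
            apply h1
            omega)
        have h5 := C.mul_mem (C.inv_mem (hh' k k' hkk a⁻¹ ha')) h4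
        rw [← map_inv, ← map_mul] at h5
        simpa using h5
  apply key n g hg
  intro j hj
  omega

/-- The torus elements are good. -/
theorem hh_good (hn : 3 ≤ n) {i i' : Fin n} (hi : (i' : ℕ) = i + 1) {a : K} (ha : a ≠ 0) :
    ParaGood ((U K n).map toPSL) (toPSL (hh i i' (ne_of_succ hi) a)) := by
  have hne := ne_of_succ hi
  have hlt := lt_of_succ hi
  refine ⟨(Ui (K := K) i i' hi).map toPSL, Subgroup.map_mono (Ui_le hi), ?_, ?_, ?_, ?_, ?_⟩
  · rintro _ ⟨s, hs, rfl⟩ _ ⟨u, hu, rfl⟩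
    exact ⟨_, nz_Ui_of_mem hi hs u hu, by simp only [map_mul, map_inv]⟩
  · rintro _ ⟨u, hu, rfl⟩
    exact ⟨_, nz_Ui_hh hi ha u hu, by simp only [map_mul, map_inv]⟩
  · rintro _ ⟨u, hu, rfl⟩
    exact ⟨_, nz_U_hh hne ha u hu, by simp only [map_mul, map_inv]⟩
  · refine ⟨_, ?_, fun _ _ => rfl⟩
    have hx : ∀ c : K, toPSL (X i i' hne c) ∈ Subgroup.closure (Gen ((U K n).map toPSL) ((Ui (K := K) i i' hi).map toPSL)) := by
      intro c
      apply Subgroup.subset_closure
      exact ⟨1, Nz.one _, _, ⟨_, X_mem_U hlt c, rfl⟩, by simp⟩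
    have hy : ∀ c : K, toPSL (X i' i hne.symm c) ∈ Subgroup.closure (Gen ((U K n).map toPSL) ((Ui (K := K) i i' hi).map toPSL)) := by
      intro c
      apply Subgroup.subset_closure
      refine ⟨toPSL (w₀ hi), ?_, toPSL (X i i' hne (-c)), ⟨_, X_mem_U hlt (-c), rfl⟩, ?_⟩
      · rintro _ ⟨u, hu, rfl⟩
        exact ⟨_, nz_Ui_w₀ hi u hu, by simp only [map_mul, map_inv]⟩
      · rw [← X_conj_w₀ hi c]
        simp only [map_mul, map_inv]
    rw [hh]
    simp only [map_mul]
    exact Subgroup.mul_mem _ (Subgroup.mul_mem _ (Subgroup.mul_mem _ (hx _) (hy _)) (hx _))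
      (Subgroup.mul_mem _ (Subgroup.mul_mem _ (hx _) (hy _)) (hx _))
  · intro m hm hma
    obtain ⟨g, rfl⟩ := toPSL_surjective m
    have hgB := mem_B_of_nz hm
    exact ⟨_, mem_P_of_central hn hi hgB hma, fun _ _ => rfl⟩

/-- The main theorem. -/
theorem main (p : ℕ) [Fact p.Prime] [CharP K p] (hn : 3 ≤ n)
    (R : Sylow p (Matrix.ProjectiveSpecialLinearGroup (Fin n) K)) :
    (Cfsg.groupFusionSystem (R : Subgroup (Matrix.ProjectiveSpecialLinearGroup (Fin n) K))).IsSimple p := by
  classical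
  haveI : NeZero n := ⟨by omega⟩
  let P : Sylow p (Matrix.ProjectiveSpecialLinearGroup (Fin n) K) :=
    (Usyl (K := K) (n := n) p).mapSurjective toPSL_surjective
  have hP : (P : Subgroup (Matrix.ProjectiveSpecialLinearGroup (Fin n) K)) = (U K n).map toPSL :=
    Sylow.coe_mapSurjective toPSL_surjective _
  have hS1 : (P : Subgroup (Matrix.ProjectiveSpecialLinearGroup (Fin n) K)) ≠ ⊥ := by
    intro h
    rw [hP] at h
    have h01 : (⟨0, by omega⟩ : Fin n) < ⟨1, by omega⟩ := by
      rw [Fin.lt_def]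
      show 0 < 1
      omega
    have h1 : toPSL (X _ _ h01.ne (1 : K)) ∈ (U K n).map toPSL := ⟨_, X_mem_U h01 1, rfl⟩
    rw [h, Subgroup.mem_bot, toPSL_eq_one_iff] at h1
    obtain ⟨c, hc⟩ := h1
    have h2 := congrFun (congrFun hc ⟨0, by omega⟩) ⟨1, by omega⟩
    rw [coe_X, Matrix.add_apply, Matrix.one_apply_ne h01.ne, Matrix.single_apply_same, Matrix.scalar_apply,
      Matrix.diagonal_apply_ne _ h01.ne] at h2
    simp at h2
  apply simple_of_para P hS1 _ {h | ∃ (i i' : Fin n) (hi : (i' : ℕ) = i + 1) (a : K), a ≠ 0 ∧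
    h = toPSL (hh i i' (ne_of_succ hi) a)} _ _ R
  · -- strongly closed subgroups
    intro T hTP hT1 hTc
    rw [hP] at hTP hTc ⊢
    have hle : T.comap toPSL ⊓ U K n ≤ U K n := inf_le_right
    have hne : T.comap toPSL ⊓ U K n ≠ ⊥ := by
      intro h
      apply hT1
      rw [eq_bot_iff]
      intro t ht
      obtain ⟨u, hu, rfl⟩ := hTP ht
      have : u ∈ T.comap toPSL ⊓ U K n := ⟨ht, hu⟩
      rw [h, Subgroup.mem_bot] at this
      rw [this, map_one]
      exact Subgroup.one_mem _
    have hcl : ∀ x ∈ T.comap toPSL ⊓ U K n, ∀ g, g * x * g⁻¹ ∈ U K n → g * x * g⁻¹ ∈ T.comap toPSL ⊓ U K n := by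
      rintro x ⟨hx, -⟩ g hg
      refine ⟨?_, hg⟩
      show toPSL (g * x * g⁻¹) ∈ T
      rw [map_mul, map_mul, map_inv]
      apply hTc _ hx
      refine ⟨_, hg, ?_⟩
      simp only [map_mul, map_inv]
    have hE := closed_eq_U p hn hle hne hcl
    apply le_antisymm hTP
    rintro _ ⟨u, hu, rfl⟩
    rw [← hE] at hu
    exact hu.1
  · rintro _ ⟨i, i', hi, a, ha, rfl⟩
    rw [hP]
    exact hh_good hn hi ha
  · intro g hg
    obtain ⟨ĝ, rfl⟩ := toPSL_surjective g
    rw [hP] at hg
    have hB := mem_B_of_nz hg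
    apply mem_closure_of_B _ _ hB
    · intro u hu
      apply Subgroup.subset_closure
      left
      show toPSL u ∈ (P : Subgroup (Matrix.ProjectiveSpecialLinearGroup (Fin n) K))
      rw [hP]
      exact ⟨u, hu, rfl⟩
    · intro i i' hi a ha
      apply Subgroup.subset_closure
      right
      exact ⟨i, i', hi, a, ha, rfl⟩

end Cfsg.Agent.Lib.H29.LinA
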