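import Cfsg.Agent.Lib.H29.LinD
import Cfsg.Agent.Lib.Classical.SympSimple
import Cfsg.Prelude.Def_Classical

/-!
# The unitriangular Sylow subgroup of `Sp_{2m}` and its normalizer
-/

set_option autoImplicit false

namespace Cfsg.Agent.Lib.H29.SpA

open Matrix Cfsg.Agent.Lib.H29.ParaFusion Cfsg.Agent.Lib.H29.LinA

variable {K : Type*} [Field K] {m : ℕ}

/-- The index type. -/
abbrev I (m : ℕ) := Fin m ⊕ Fin m

/-- The big matrices. -/
abbrev M (K : Type*) (m : ℕ) := Matrix (I m) (I m) K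

/-- The small matrices. -/
abbrev M₀ (K : Type*) (m : ℕ) := Matrix (Fin m) (Fin m) K

/-- The symplectic group. -/
abbrev Sp (m : ℕ) (K : Type*) [Field K] := symplecticGroup (Fin m) K

/-- The block `A`. -/
def aB (g : Sp m K) : M₀ K m := (g : M K m).toBlocks₁₁
/-- The block `B`. -/
def bB (g : Sp m K) : M₀ K m := (g : M K m).toBlocks₁₂
/-- The block `C`. -/
def cB (g : Sp m K) : M₀ K m := (g : M K m).toBlocks₂₁
/-- The block `D`. -/
def dB (g : Sp m K) : M₀ K m := (g : M K m).toBlocks₂₂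

lemma eq_blocks (g : Sp m K) : (g : M K m) = fromBlocks (aB g) (bB g) (cB g) (dB g) :=
  (fromBlocks_toBlocks _).symm

lemma coe_mul_blocks (g h : Sp m K) : ((g * h : Sp m K) : M K m) =
    fromBlocks (aB g * aB h + bB g * cB h) (aB g * bB h + bB g * dB h)
      (cB g * aB h + dB g * cB h) (cB g * bB h + dB g * dB h) := by
  rw [Submonoid.coe_mul, eq_blocks g, eq_blocks h, fromBlocks_multiply]

lemma aB_mul (g h : Sp m K) : aB (g * h) = aB g * aB h + bB g * cB h := by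
  rw [aB, coe_mul_blocks, toBlocks_fromBlocks₁₁]

lemma bB_mul (g h : Sp m K) : bB (g * h) = aB g * bB h + bB g * dB h := by
  rw [bB, coe_mul_blocks, toBlocks_fromBlocks₁₂]

lemma cB_mul (g h : Sp m K) : cB (g * h) = cB g * aB h + dB g * cB h := by
  rw [cB, coe_mul_blocks, toBlocks_fromBlocks₂₁]

lemma dB_mul (g h : Sp m K) : dB (g * h) = cB g * bB h + dB g * dB h := by
  rw [dB, coe_mul_blocks, toBlocks_fromBlocks₂₂]

lemma aB_one : aB (1 : Sp m K) = 1 := by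
  rw [aB, Submonoid.coe_one, ← fromBlocks_one, toBlocks_fromBlocks₁₁]

lemma bB_one : bB (1 : Sp m K) = 0 := by
  rw [bB, Submonoid.coe_one, ← fromBlocks_one, toBlocks_fromBlocks₁₂]

lemma cB_one : cB (1 : Sp m K) = 0 := by
  rw [cB, Submonoid.coe_one, ← fromBlocks_one, toBlocks_fromBlocks₂₁]

lemma dB_one : dB (1 : Sp m K) = 1 := by
  rw [dB, Submonoid.coe_one, ← fromBlocks_one, toBlocks_fromBlocks₂₂]

lemma sp_rel (g : Sp m K) : (aB g)ᵀ * cB g = (cB g)ᵀ * aB g ∧ (bB g)ᵀ * dB g = (dB g)ᵀ * bB g ∧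
    (aB g)ᵀ * dB g - (cB g)ᵀ * bB g = 1 := by
  rw [← SymplecticGroup.fromBlocks_mem_iff, ← eq_blocks]
  exact g.2

lemma sp_rel_C0 {g : Sp m K} (h : cB g = 0) : aB g * (dB g)ᵀ = 1 ∧ (bB g)ᵀ * dB g = (dB g)ᵀ * bB g := by
  obtain ⟨-, h2, h3⟩ := sp_rel g
  rw [h] at h3
  simp only [transpose_zero, zero_mul, sub_zero] at h3
  refine ⟨?_, h2⟩
  have h4 : (dB g)ᵀ * aB g = 1 := by
    have := congrArg Matrix.transpose h3
    rwa [transpose_mul, transpose_transpose, transpose_one] at this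
  exact mul_eq_one_comm.mp h4

/-- The entries of the inverse. -/
lemma inv_apply (g : Sp m K) (j l : Fin m) :
    ((g⁻¹ : Sp m K) : M K m) (Sum.inr j) (Sum.inl l) = - (g : M K m) (Sum.inr l) (Sum.inl j) := by
  rw [SymplecticGroup.coe_inv]
  simp [Matrix.mul_apply, J, Fintype.sum_sum_type, Matrix.one_apply, Finset.sum_ite_eq]

/-- The element `[[1, S], [0, 1]]`. -/
def tau (S : M₀ K m) (hS : Sᵀ = S) : Sp m K :=
  ⟨fromBlocks 1 S 0 1, by
    rw [SymplecticGroup.fromBlocks_mem_iff]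
    simp [hS]⟩

/-- The element `[[A, 0], [0, A⁻ᵀ]]`. -/
def phi (A A' : M₀ K m) (h : A * A' = 1) : Sp m K :=
  ⟨fromBlocks A 0 0 A'ᵀ, by
    rw [SymplecticGroup.fromBlocks_mem_iff]
    have h1 : A' * A = 1 := mul_eq_one_comm.mp h
    simp only [transpose_zero, zero_mul, mul_zero, sub_zero, and_true, true_and]
    rw [← transpose_mul, h1, transpose_one]⟩

lemma coe_tau (S : M₀ K m) (hS : Sᵀ = S) : ((tau S hS : Sp m K) : M K m) = fromBlocks 1 S 0 1 := rfl

lemma coe_phi (A A' : M₀ K m) (h : A * A' = 1) : ((phi A A' h : Sp m K) : M K m) = fromBlocks A 0 0 A'ᵀ := rfl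

lemma aB_tau (S : M₀ K m) (hS : Sᵀ = S) : aB (tau S hS) = 1 := toBlocks_fromBlocks₁₁ _ _ _ _
lemma bB_tau (S : M₀ K m) (hS : Sᵀ = S) : bB (tau S hS) = S := toBlocks_fromBlocks₁₂ _ _ _ _
lemma cB_tau (S : M₀ K m) (hS : Sᵀ = S) : cB (tau S hS) = 0 := toBlocks_fromBlocks₂₁ _ _ _ _
lemma dB_tau (S : M₀ K m) (hS : Sᵀ = S) : dB (tau S hS) = 1 := toBlocks_fromBlocks₂₂ _ _ _ _

lemma aB_phi (A A' : M₀ K m) (h : A * A' = 1) : aB (phi A A' h) = A := toBlocks_fromBlocks₁₁ _ _ _ _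
lemma bB_phi (A A' : M₀ K m) (h : A * A' = 1) : bB (phi A A' h) = 0 := toBlocks_fromBlocks₁₂ _ _ _ _
lemma cB_phi (A A' : M₀ K m) (h : A * A' = 1) : cB (phi A A' h) = 0 := toBlocks_fromBlocks₂₁ _ _ _ _
lemma dB_phi (A A' : M₀ K m) (h : A * A' = 1) : dB (phi A A' h) = A'ᵀ := toBlocks_fromBlocks₂₂ _ _ _ _

lemma sym_add {S S' : M₀ K m} (h : Sᵀ = S) (h' : S'ᵀ = S') : (S + S')ᵀ = S + S' := by
  rw [transpose_add, h, h']

lemma tau_mul (S S' : M₀ K m) (hS : Sᵀ = S) (hS' : S'ᵀ = S') : tau S hS * tau S' hS' = tau (S + S') (sym_add hS hS') := by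
  apply Subtype.ext
  show fromBlocks 1 S 0 1 * fromBlocks 1 S' 0 1 = fromBlocks 1 (S + S') 0 1
  rw [fromBlocks_multiply]
  simp [add_comm]

lemma tau_zero : tau (0 : M₀ K m) transpose_zero = 1 := by
  apply Subtype.ext
  show fromBlocks 1 0 0 1 = 1
  exact fromBlocks_one

lemma sym_neg {S : M₀ K m} (h : Sᵀ = S) : (-S)ᵀ = -S := by
  rw [transpose_neg, h]

lemma tau_inv (S : M₀ K m) (hS : Sᵀ = S) : (tau S hS)⁻¹ = tau (-S) (sym_neg hS) := by
  apply inv_eq_of_mul_eq_one_right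
  have e : tau S hS * tau (-S) (sym_neg hS) = tau (S + -S) (sym_add hS (sym_neg hS)) := tau_mul _ _ _ _
  rw [e]
  have : S + -S = 0 := add_neg_cancel S
  simp only [this]
  exact tau_zero

lemma phi_mul (A A' B B' : M₀ K m) (h : A * A' = 1) (h' : B * B' = 1) :
    phi A A' h * phi B B' h' = phi (A * B) (B' * A') (by
      rw [Matrix.mul_assoc, ← Matrix.mul_assoc B, h', Matrix.one_mul, h]) := by
  apply Subtype.ext
  show fromBlocks A 0 0 A'ᵀ * fromBlocks B 0 0 B'ᵀ = fromBlocks (A * B) 0 0 (B' * A')ᵀ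
  rw [fromBlocks_multiply, transpose_mul]
  simp

lemma phi_one : phi (1 : M₀ K m) 1 (Matrix.mul_one 1) = 1 := by
  apply Subtype.ext
  show fromBlocks 1 0 0 1ᵀ = 1
  rw [transpose_one]
  exact fromBlocks_one

lemma phi_inv (A A' : M₀ K m) (h : A * A' = 1) : (phi A A' h)⁻¹ = phi A' A (mul_eq_one_comm.mp h) := by
  apply inv_eq_of_mul_eq_one_right
  apply Subtype.ext
  show fromBlocks A 0 0 A'ᵀ * fromBlocks A' 0 0 Aᵀ = 1
  rw [fromBlocks_multiply]
  simp only [Matrix.mul_zero, Matrix.zero_mul, add_zero, zero_add]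
  rw [← transpose_mul, h, transpose_one]
  exact fromBlocks_one

lemma sym_conj (A S : M₀ K m) (hS : Sᵀ = S) : (A * S * Aᵀ)ᵀ = A * S * Aᵀ := by
  rw [transpose_mul, transpose_mul, transpose_transpose, hS, Matrix.mul_assoc]

lemma phi_tau (A A' S : M₀ K m) (h : A * A' = 1) (hS : Sᵀ = S) :
    phi A A' h * tau S hS * (phi A A' h)⁻¹ = tau (A * S * Aᵀ) (sym_conj A S hS) := by
  rw [phi_inv]
  apply Subtype.ext
  show fromBlocks A 0 0 A'ᵀ * fromBlocks 1 S 0 1 * fromBlocks A' 0 0 Aᵀ = fromBlocks 1 (A * S * Aᵀ) 0 1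
  rw [fromBlocks_multiply, fromBlocks_multiply]
  simp only [Matrix.mul_zero, Matrix.zero_mul, add_zero, zero_add, Matrix.mul_one, Matrix.one_mul]
  rw [← transpose_mul, h, transpose_one]

/-- The additive coordinates of the rank-one elements. -/
lemma rank_one_apply {I : Type*} [Fintype I] [DecidableEq I] (g h : Matrix I I K) (a b r s : I) :
    (g * Matrix.single a b (1 : K) * h) r s = g r a * h b s := by
  rw [Matrix.mul_apply, Finset.sum_eq_single b]
  · rw [Matrix.mul_single_apply_same, mul_one]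
  · intro t _ ht
    rw [Matrix.mul_single_apply_of_ne _ a b r t ht g, zero_mul]
  · simp

variable [Fintype K]

/-- The Borel subgroup. -/
def Bc (K : Type*) [Field K] [Fintype K] (m : ℕ) : Subgroup (Sp m K) :=
  let S : Submonoid (Sp m K) :=
    { carrier := {g | cB g = 0 ∧ UT (aB g)}
      mul_mem' := by
        rintro a b ⟨ha, ha'⟩ ⟨hb, hb'⟩
        refine ⟨?_, ?_⟩
        · rw [cB_mul, ha, hb]
          simp
        · rw [aB_mul, hb, Matrix.mul_zero, add_zero]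
          exact ha'.mul hb'
      one_mem' := ⟨cB_one, by rw [aB_one]; exact UT.one⟩ }
  { S with
    inv_mem' := by
      intro g hg
      rw [inv_eq_pow']
      exact S.pow_mem hg _ }

/-- The unitriangular subgroup. -/
def Uc (K : Type*) [Field K] [Fintype K] (m : ℕ) : Subgroup (Sp m K) :=
  let S : Submonoid (Sp m K) :=
    { carrier := {g | cB g = 0 ∧ UT (aB g) ∧ ∀ k, aB g k k = 1}
      mul_mem' := by
        rintro a b ⟨ha, ha', ha''⟩ ⟨hb, hb', hb''⟩
        refine ⟨?_, ?_, ?_⟩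
        · rw [cB_mul, ha, hb]
          simp
        · rw [aB_mul, hb, Matrix.mul_zero, add_zero]
          exact ha'.mul hb'
        · intro k
          rw [aB_mul, hb, Matrix.mul_zero, add_zero, ha'.mul_diag hb', ha'', hb'', one_mul]
      one_mem' := ⟨cB_one, by rw [aB_one]; exact UT.one, by
        intro k
        rw [aB_one, Matrix.one_apply_eq]⟩ }
  { S with
    inv_mem' := by
      intro g hg
      rw [inv_eq_pow']
      exact S.pow_mem hg _ }

lemma mem_Bc {g : Sp m K} : g ∈ Bc K m ↔ cB g = 0 ∧ UT (aB g) := Iff.rfl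

lemma mem_Uc {g : Sp m K} : g ∈ Uc K m ↔ cB g = 0 ∧ UT (aB g) ∧ ∀ k, aB g k k = 1 := Iff.rfl

lemma Uc_le_Bc : Uc K m ≤ Bc K m := fun _ h => ⟨h.1, h.2.1⟩

lemma tau_mem_Uc (S : M₀ K m) (hS : Sᵀ = S) : tau S hS ∈ Uc K m := by
  refine ⟨cB_tau _ _, ?_, ?_⟩
  · rw [aB_tau]
    exact UT.one
  · intro k
    rw [aB_tau, Matrix.one_apply_eq]

lemma aB_mul_of_C0 (g : Sp m K) {h : Sp m K} (hh : cB h = 0) : aB (g * h) = aB g * aB h := by
  rw [aB_mul, hh, Matrix.mul_zero, add_zero]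

lemma aB_pow {g : Sp m K} (hg : cB g = 0) (r : ℕ) : aB (g ^ r) = aB g ^ r := by
  induction r with
  | zero => rw [pow_zero, pow_zero, aB_one]
  | succ r ih => rw [pow_succ, aB_mul_of_C0 _ hg, ih, pow_succ]

lemma aB_mul_inv {g : Sp m K} (hg : g ∈ Bc K m) : aB g * aB g⁻¹ = 1 := by
  rw [← aB_mul_of_C0 _ ((Bc K m).inv_mem hg).1, mul_inv_cancel, aB_one]

lemma aB_inv_mul {g : Sp m K} (hg : g ∈ Bc K m) : aB g⁻¹ * aB g = 1 :=
  mul_eq_one_comm.mp (aB_mul_inv hg)

lemma coe_tau_single (j : Fin m) : ((tau (Matrix.single j j (1 : K)) (by simp) : Sp m K) : M K m) =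
    1 + Matrix.single (Sum.inl j) (Sum.inr j) 1 := by
  rw [coe_tau]
  ext (r | r) (s | s) <;> simp [Matrix.one_apply, Matrix.single_apply]

/-- The elements `[[1 + E_{ij}, 0], [0, 1 - E_{ji}]]`. -/
def xE (i j : Fin m) (hij : i ≠ j) (c : K) : Sp m K :=
  phi (1 + Matrix.single i j c) (1 + Matrix.single i j (-c)) (by
    rw [mul_add, add_mul, add_mul, Matrix.one_mul, Matrix.one_mul, Matrix.mul_one,
      Matrix.single_mul_single_of_ne _ _ _ _ hij.symm, add_zero, add_assoc, ← Matrix.single_add, add_neg_cancel]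
    simp)

lemma aB_xE (i j : Fin m) (hij : i ≠ j) (c : K) : aB (xE i j hij c) = 1 + Matrix.single i j c := aB_phi _ _ _
lemma cB_xE (i j : Fin m) (hij : i ≠ j) (c : K) : cB (xE i j hij c) = 0 := cB_phi _ _ _

lemma xE_mem_Uc {i j : Fin m} (hij : i < j) (c : K) : xE i j hij.ne c ∈ Uc K m := by
  refine ⟨cB_xE _ _ _ _, ?_, ?_⟩
  · rw [aB_xE]
    exact (X_mem_U hij c).1
  · intro k
    rw [aB_xE]
    exact (X_mem_U hij c).2 k

/-- An element carrying `U` into `Z · U` lies in `B`. -/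
theorem mem_Bc_of_conj {g : Sp m K}
    (H : ∀ u ∈ Uc K m, ∃ z : K, ∃ v ∈ Uc K m, ((g * u * g⁻¹ : Sp m K) : M K m) = z • (v : M K m)) : g ∈ Bc K m := by
  -- the block `C`
  have hC : cB g = 0 := by
    ext k j
    obtain ⟨z, v, hv, he⟩ := H _ (tau_mem_Uc (Matrix.single j j (1 : K)) (by simp))
    have h1 : ((g * tau (Matrix.single j j (1 : K)) (by simp) * g⁻¹ : Sp m K) : M K m) =
        1 + (g : M K m) * Matrix.single (Sum.inl j) (Sum.inr j) 1 * ((g⁻¹ : Sp m K) : M K m) := by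
      rw [Submonoid.coe_mul, Submonoid.coe_mul, coe_tau_single, mul_add, add_mul, Matrix.mul_one, ← Submonoid.coe_mul,
        mul_inv_cancel, Submonoid.coe_one]
    rw [h1] at he
    have h2 := congrFun (congrFun he (Sum.inr k)) (Sum.inl k)
    have h3 : (v : M K m) (Sum.inr k) (Sum.inl k) = 0 := by
      have := hv.1
      exact congrFun (congrFun this k) k
    simp only [Matrix.add_apply, Matrix.smul_apply, smul_eq_mul, h3, mul_zero] at h2
    rw [rank_one_apply, inv_apply] at h2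
    have h4 : (1 : M K m) (Sum.inr k) (Sum.inl k) = 0 := by simp [Matrix.one_apply]
    rw [h4, zero_add] at h2
    have h5 : (g : M K m) (Sum.inr k) (Sum.inl j) = 0 := by
      have : ((g : M K m) (Sum.inr k) (Sum.inl j)) ^ 2 = 0 := by
        linear_combination -h2
      exact pow_eq_zero_iff (two_ne_zero) |>.mp this
    exact h5
  refine ⟨hC, ?_⟩
  have hinvC : cB g⁻¹ = 0 := by
    ext k j
    show ((g⁻¹ : Sp m K) : M K m) (Sum.inr k) (Sum.inl j) = 0
    rw [inv_apply]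
    have h9 : (g : M K m) (Sum.inr j) (Sum.inl k) = 0 := congrFun (congrFun hC j) k
    rw [h9, neg_zero]
  have hgB' : aB g * aB g⁻¹ = 1 := by
    rw [← aB_mul_of_C0 _ hinvC, mul_inv_cancel, aB_one]
  have hgB'' : aB g⁻¹ * aB g = 1 := mul_eq_one_comm.mp hgB'
  apply UT_of_rank_one hgB''
  intro i j hij k l hlk
  obtain ⟨z, v, hv, he⟩ := H _ (xE_mem_Uc hij (1 : K))
  have h1 : aB (g * xE i j hij.ne 1 * g⁻¹) = aB g * (1 + Matrix.single i j 1) * aB g⁻¹ := by
    rw [aB_mul_of_C0 _ hinvC, aB_mul_of_C0 _ (cB_xE _ _ _ _), aB_xE]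
  have h2 : aB (g * xE i j hij.ne 1 * g⁻¹) = z • aB v := by
    rw [aB, he]
    ext r s
    rfl
  rw [h1] at h2
  exact rank_one_of_conj hgB' hgB'' hij.ne hv.2.1 hv.2.2 h2 k l hlk

section charp

variable (p : ℕ) [Fact p.Prime] [CharP K p]

include p in
lemma mem_Uc_of_pow {g : Sp m K} (hg : g ∈ Bc K m) {r : ℕ} (h : g ^ (p ^ r) = 1) : g ∈ Uc K m := by
  refine ⟨hg.1, hg.2, fun k => ?_⟩
  have h1 := aB_pow hg.1 (p ^ r)
  rw [h, aB_one] at h1
  have h2 := congrFun (congrFun h1 k) k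
  rw [UT.pow_diag hg.2, Matrix.one_apply_eq] at h2
  have h3 : (aB g k k - 1) ^ (p ^ r) = 0 := by
    rw [sub_pow_char_pow, ← h2, one_pow, sub_self]
  have h4 := pow_eq_zero_iff (pow_ne_zero r (Fact.out : p.Prime).ne_zero) |>.mp h3
  linear_combination h4

/-- The block `A` of an element of `U` as an element of `SL_m`. -/
def aS (u : Sp m K) (hu : u ∈ Uc K m) : Matrix.SpecialLinearGroup (Fin m) K :=
  ⟨aB u, by
    have h1 : (aB u).det = ∏ k, aB u k k := Matrix.det_of_isUpperTriangular (fun _ _ hlk => hu.2.1 _ _ hlk)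
    rw [h1]
    simp [hu.2.2]⟩

lemma coe_aS (u : Sp m K) (hu : u ∈ Uc K m) : ((aS u hu : Matrix.SpecialLinearGroup (Fin m) K) : M₀ K m) = aB u := rfl

lemma aS_mem (u : Sp m K) (hu : u ∈ Uc K m) : aS u hu ∈ U K m := ⟨hu.2.1, hu.2.2⟩

/-- An element of `U` with trivial block `A` is some `tau`. -/
lemma eq_tau_of_aB {w : Sp m K} (hC : cB w = 0) (hA : aB w = 1) :
    ∃ (S : M₀ K m) (hS : Sᵀ = S), w = tau S hS := by
  obtain ⟨h1, h2⟩ := sp_rel_C0 hC
  rw [hA, Matrix.one_mul] at h1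
  have hD : dB w = 1 := by
    have := congrArg Matrix.transpose h1
    rwa [transpose_transpose, transpose_one] at this
  rw [hD, transpose_one, Matrix.mul_one, Matrix.one_mul] at h2
  refine ⟨bB w, h2, ?_⟩
  apply Subtype.ext
  rw [eq_blocks w, hA, hC, hD]
  rfl

lemma tau_pow_char (S : M₀ K m) (hS : Sᵀ = S) : (tau S hS) ^ p = 1 := by
  have key : ∀ n : ℕ, (((tau S hS) ^ n : Sp m K) : M K m) = fromBlocks 1 (n • S) 0 1 := by
    intro n
    induction n with
    | zero =>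
      rw [pow_zero, zero_smul, Submonoid.coe_one]
      exact fromBlocks_one.symm
    | succ n ih =>
      rw [pow_succ, Submonoid.coe_mul, ih, coe_tau, fromBlocks_multiply]
      simp only [Matrix.mul_zero, Matrix.zero_mul, add_zero, zero_add, Matrix.mul_one, Matrix.one_mul]
      rw [succ_nsmul, add_comm S]
  apply Subtype.ext
  rw [key, Submonoid.coe_one]
  have h0 : p • S = 0 := by
    rw [← Nat.cast_smul_eq_nsmul K, CharP.cast_eq_zero, zero_smul]
  rw [h0]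
  exact fromBlocks_one

lemma Uc_isPGroup [NeZero m] : IsPGroup p (Uc K m) := by
  rintro ⟨u, hu⟩
  obtain ⟨k, hk⟩ := U_isPGroup (K := K) (n := m) p ⟨aS u hu, aS_mem u hu⟩
  have h1 : aB u ^ (p ^ k) = 1 := by
    have h2 : ((aS u hu) ^ (p ^ k) : Matrix.SpecialLinearGroup (Fin m) K) = 1 := congrArg Subtype.val hk
    have h3 := congrArg Subtype.val h2
    rwa [Matrix.SpecialLinearGroup.coe_pow, coe_aS, Matrix.SpecialLinearGroup.coe_one] at h3
  have hw : u ^ (p ^ k) ∈ Uc K m := (Uc K m).pow_mem hu _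
  obtain ⟨S, hS, hSe⟩ := eq_tau_of_aB hw.1 (by rw [aB_pow hu.1, h1])
  refine ⟨k + 1, ?_⟩
  apply Subtype.ext
  show u ^ (p ^ (k + 1)) = 1
  rw [pow_succ, pow_mul, hSe, tau_pow_char]

/-- `U` is a maximal `p`-subgroup. -/
lemma Uc_max [NeZero m] {Q : Subgroup (Sp m K)} (hQ : IsPGroup p Q) (hUQ : Uc K m ≤ Q) : Q = Uc K m := by
  by_contra hne
  haveI := hQ.isNilpotent
  have hlt : (Uc K m).subgroupOf Q < ⊤ := by
    rw [lt_top_iff_ne_top]
    intro h
    apply hne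
    apply le_antisymm _ hUQ
    intro x hx
    have : (⟨x, hx⟩ : Q) ∈ (Uc K m).subgroupOf Q := by rw [h]; trivial
    exact this
  have h2 := normalizerCondition_of_isNilpotent ((Uc K m).subgroupOf Q) hlt
  obtain ⟨⟨y, hyQ⟩, hyN, hyU⟩ := SetLike.exists_of_lt h2
  rw [Subgroup.mem_normalizer_iff] at hyN
  have hyB : y ∈ Bc K m := by
    apply mem_Bc_of_conj
    intro u hu
    have h3 := (hyN ⟨_, hUQ hu⟩).mp hu
    refine ⟨1, _, h3, ?_⟩
    simp
  obtain ⟨r, hr⟩ := hQ ⟨y, hyQ⟩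
  have hr' : y ^ (p ^ r) = 1 := congrArg Subtype.val hr
  exact hyU (mem_Uc_of_pow p hyB hr')

/-- `U` as a Sylow subgroup. -/
def UcSyl [NeZero m] : Sylow p (Sp m K) where
  toSubgroup := Uc K m
  isPGroup' := Uc_isPGroup p
  is_maximal' := fun hQ hle => Uc_max p hQ hle

end charp

end Cfsg.Agent.Lib.H29.SpA
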