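import Cfsg.Agent.Lib.H29.SpA

/-!
# Strongly closed subgroups of the unitriangular subgroup of `Sp_{2m}`
-/

set_option autoImplicit false

namespace Cfsg.Agent.Lib.H29.SpA

open Matrix Cfsg.Agent.Lib.H29.ParaFusion Cfsg.Agent.Lib.H29.LinA

variable {K : Type*} [Field K] {m : ℕ}

/-! ### Computations with matrix units -/

lemma diag_single (d : Fin m → K) (i j : Fin m) (c : K) :
    Matrix.diagonal d * Matrix.single i j c * (Matrix.diagonal d)ᵀ = Matrix.single i j (d i * c * d j) := by
  ext k l
  rw [Matrix.diagonal_transpose, Matrix.mul_diagonal, Matrix.diagonal_mul]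
  by_cases h : i = k ∧ j = l
  · obtain ⟨rfl, rfl⟩ := h
    simp
  · have h2 : ∀ c : K, Matrix.single i j c k l = 0 := fun c => by
      apply Matrix.single_apply_of_ne
      exact h
    rw [h2, h2]
    simp

lemma diag_mul_inv {d : Fin m → K} (hd : ∀ k, d k ≠ 0) :
    Matrix.diagonal d * Matrix.diagonal (fun k => (d k)⁻¹) = 1 := by
  rw [Matrix.diagonal_mul_diagonal, ← Matrix.diagonal_one]
  congr 1
  ext k
  exact mul_inv_cancel₀ (hd k)

lemma per_mul (s : Equiv.Perm (Fin m)) :
    mono s (fun _ => (1 : K)) * monoI s (fun _ => (1 : K)) = 1 :=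
  mono_mul_monoI (fun _ => one_ne_zero)

lemma per_transpose (s : Equiv.Perm (Fin m)) :
    (mono s (fun _ => (1 : K)))ᵀ = monoI s (fun _ => (1 : K)) := by
  ext k l
  rw [Matrix.transpose_apply, mono_apply, monoI_apply]
  simp

lemma per_single (s : Equiv.Perm (Fin m)) (i j : Fin m) (c : K) :
    mono s (fun _ => (1 : K)) * Matrix.single (s i) (s j) c * (mono s (fun _ => (1 : K)))ᵀ = Matrix.single i j c := by
  rw [per_transpose]
  ext k l
  rw [conj_apply]
  by_cases h : i = k ∧ j = l
  · obtain ⟨rfl, rfl⟩ := h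
    simp
  · rw [Matrix.single_apply_of_ne, Matrix.single_apply_of_ne]
    · simp
    · exact h
    · rintro ⟨h1, h2⟩
      exact h ⟨s.injective h1, s.injective h2⟩

lemma X_mul_inv {i j : Fin m} (hij : i ≠ j) (b : K) :
    (1 + Matrix.single i j b) * (1 + Matrix.single i j (-b)) = 1 := by
  rw [mul_add, add_mul, add_mul, Matrix.one_mul, Matrix.one_mul, Matrix.mul_one,
    Matrix.single_mul_single_of_ne _ _ _ _ hij.symm, add_zero, add_assoc, ← Matrix.single_add, add_neg_cancel]
  simp

lemma X_long {i j : Fin m} (hij : i ≠ j) (c : K) :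
    (1 + Matrix.single i j (1 : K)) * Matrix.single j j c * (1 + Matrix.single i j (1 : K))ᵀ =
      Matrix.single j j c + Matrix.single i j c + Matrix.single j i c + Matrix.single i i c := by
  rw [transpose_add, transpose_one, Matrix.transpose_single]
  simp only [add_mul, mul_add, Matrix.one_mul, Matrix.mul_one, Matrix.single_mul_single_same]
  simp only [one_mul, mul_one]
  abel

/-- The Weyl element at the pair `j`. -/
def wE (j : Fin m) : Sp m K :=
  ⟨fromBlocks (1 - Matrix.single j j 1) (-Matrix.single j j 1) (Matrix.single j j 1) (1 - Matrix.single j j 1), by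
    rw [SymplecticGroup.fromBlocks_mem_iff]
    have hE : (Matrix.single j j (1 : K)) * Matrix.single j j 1 = Matrix.single j j 1 := by simp
    simp only [transpose_sub, transpose_one, Matrix.transpose_single, transpose_neg]
    refine ⟨?_, ?_, ?_⟩
    · simp [sub_mul, mul_sub]
    · simp [sub_mul, mul_sub]
    · simp only [sub_mul, mul_sub, Matrix.one_mul, Matrix.mul_one, mul_neg, hE]
      abel⟩

lemma coe_wE (j : Fin m) : ((wE j : Sp m K) : M K m) =
    fromBlocks (1 - Matrix.single j j 1) (-Matrix.single j j 1) (Matrix.single j j 1) (1 - Matrix.single j j 1) := rfl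

lemma sym_short (i j : Fin m) (c : K) : (Matrix.single i j c + Matrix.single j i c)ᵀ = Matrix.single i j c + Matrix.single j i c := by
  rw [transpose_add, Matrix.transpose_single, Matrix.transpose_single, add_comm]

variable [Fintype K]

lemma coe_xE (i j : Fin m) (hij : i ≠ j) (c : K) : ((xE i j hij c : Sp m K) : M K m) =
    fromBlocks (1 + Matrix.single i j c) 0 0 (1 + Matrix.single j i (-c)) := by
  rw [xE, coe_phi, transpose_add, transpose_one, Matrix.transpose_single]

lemma wE_tau {i j : Fin m} (hij : i ≠ j) (b : K) :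
    wE j * tau (Matrix.single i j b + Matrix.single j i b) (sym_short i j b) * (wE j)⁻¹ = xE i j hij (-b) := by
  rw [mul_inv_eq_iff_eq_mul]
  apply Subtype.ext
  rw [Submonoid.coe_mul, Submonoid.coe_mul, coe_wE, coe_tau, coe_xE, fromBlocks_multiply, fromBlocks_multiply]
  have e1 : (Matrix.single i j b) * Matrix.single j j (1 : K) = Matrix.single i j b := by simp
  have e2 : (Matrix.single j j (1 : K)) * Matrix.single j i b = Matrix.single j i b := by simp
  have e3 : (Matrix.single j j (1 : K)) * Matrix.single i j b = 0 := Matrix.single_mul_single_of_ne _ _ _ _ hij.symm _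
  have e4 : (Matrix.single j i b) * Matrix.single j j (1 : K) = 0 := Matrix.single_mul_single_of_ne _ _ _ _ hij _
  have e5 : (Matrix.single i j (-b)) * Matrix.single j j (1 : K) = Matrix.single i j (-b) := by simp
  have e6 : Matrix.single i j (-b) = - Matrix.single i j b := by
    ext k l
    by_cases h : i = k ∧ j = l
    · obtain ⟨rfl, rfl⟩ := h
      simp
    · simp [Matrix.single_apply_of_ne _ _ _ _ _ h]
  congr 1
  · simp [sub_mul, mul_sub, add_mul, mul_add, e1, e2, e3, e4, e5]
  · simp only [sub_mul, mul_sub, add_mul, mul_add, e1, e2, e3, e4, e5, e6]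
    simp [e1, e2, e3, e4, e5, e6]
    try abel
  · simp [sub_mul, mul_sub, add_mul, mul_add, e1, e2, e3, e4, e5]
  · simp [sub_mul, mul_sub, add_mul, mul_add, e1, e2, e3, e4, e5]
    abel

/-! ### The symmetric matrices in a subgroup -/

/-- The symmetric matrices whose `tau` is in `T`. -/
def Wm (T : Subgroup (Sp m K)) (S : M₀ K m) : Prop := ∃ hS : Sᵀ = S, tau S hS ∈ T

variable {T : Subgroup (Sp m K)}

lemma Wm.add {S S' : M₀ K m} (h : Wm T S) (h' : Wm T S') : Wm T (S + S') := by
  obtain ⟨hS, h1⟩ := h
  obtain ⟨hS', h2⟩ := h'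
  refine ⟨sym_add hS hS', ?_⟩
  rw [← tau_mul S S' hS hS']
  exact T.mul_mem h1 h2

lemma Wm.zero : Wm T (0 : M₀ K m) := ⟨transpose_zero, by rw [tau_zero]; exact T.one_mem⟩

lemma Wm.neg {S : M₀ K m} (h : Wm T S) : Wm T (-S) := by
  obtain ⟨hS, h1⟩ := h
  refine ⟨sym_neg hS, ?_⟩
  rw [← tau_inv S hS]
  exact T.inv_mem h1

lemma Wm.sub {S S' : M₀ K m} (h : Wm T S) (h' : Wm T S') : Wm T (S - S') := by
  rw [sub_eq_add_neg]
  exact h.add h'.neg

lemma Wm.conj (hcl : ∀ x ∈ T, ∀ g, g * x * g⁻¹ ∈ Uc K m → g * x * g⁻¹ ∈ T) {S : M₀ K m} (h : Wm T S)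
    {A A' : M₀ K m} (hA : A * A' = 1) : Wm T (A * S * Aᵀ) := by
  obtain ⟨hS, h1⟩ := h
  refine ⟨sym_conj A S hS, ?_⟩
  rw [← phi_tau A A' S hA hS]
  apply hcl _ h1
  rw [phi_tau]
  exact tau_mem_Uc _ _

section closed

variable (hcl : ∀ x ∈ T, ∀ g, g * x * g⁻¹ ∈ Uc K m → g * x * g⁻¹ ∈ T)

include hcl

lemma W_sq {i : Fin m} {a : K} (h : Wm T (Matrix.single i i a)) (e : K) :
    Wm T (Matrix.single i i (e * e * a)) := by
  classical
  by_cases he : e = 0
  · subst he
    simpa using (Wm.zero (T := T))
  let d : Fin m → K := fun k => if k = i then e else 1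
  have hd : ∀ k, d k ≠ 0 := by
    intro k
    simp only [d]
    split_ifs
    · exact he
    · exact one_ne_zero
  have h1 := h.conj hcl (diag_mul_inv hd)
  rw [diag_single] at h1
  have e1 : d i * a * d i = e * e * a := by
    simp only [d, if_true]
    ring
  rwa [e1] at h1

lemma W_perm {S : M₀ K m} (h : Wm T S) (s : Equiv.Perm (Fin m)) :
    Wm T (mono s (fun _ => (1 : K)) * S * (mono s (fun _ => (1 : K)))ᵀ) :=
  h.conj hcl (per_mul s)

lemma W_long_all {i₀ : Fin m} {a : K} (ha : a ≠ 0) (h : Wm T (Matrix.single i₀ i₀ a)) (j : Fin m) (c : K) :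
    Wm T (Matrix.single j j c) := by
  -- every element is a sum of two squares
  have hsq : ∀ x : K, ∃ e f : K, x = e * e + f * f := by
    intro x
    by_cases h2 : ringChar K = 2
    · obtain ⟨e, he⟩ := FiniteField.isSquare_of_char_two h2 x
      exact ⟨e, 0, by rw [he]; ring⟩
    · have hodd : Fintype.card K % 2 = 1 := FiniteField.odd_card_of_char_ne_two h2
      have h3 := FiniteField.exists_root_sum_quadratic (R := K)
        (f := Polynomial.X ^ 2) (g := Polynomial.X ^ 2 - Polynomial.C x) (Polynomial.degree_X_pow 2)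
        (Polynomial.degree_X_pow_sub_C (by decide) _) hodd
      obtain ⟨e, f, hef⟩ := h3
      simp only [Polynomial.eval_pow, Polynomial.eval_X, Polynomial.eval_sub, Polynomial.eval_C] at hef
      exact ⟨e, f, by linear_combination -hef⟩
  have h1 : ∀ c : K, Wm T (Matrix.single i₀ i₀ c) := by
    intro c
    obtain ⟨e, f, hef⟩ := hsq (c / a)
    have h2 := (W_sq hcl h e).add (W_sq hcl h f)
    rw [← Matrix.single_add] at h2
    have e1 : e * e * a + f * f * a = c := by
      rw [← add_mul, ← hef]
      field_simp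
    rwa [e1] at h2
  have h3 := W_perm hcl (h1 c) (Equiv.swap j i₀)
  have h4 := per_single (K := K) (Equiv.swap j i₀) j j c
  rw [Equiv.swap_apply_left] at h4
  rwa [h4] at h3

lemma W_short_of_long (h : ∀ j c, Wm T (Matrix.single j j c)) {i j : Fin m} (hij : i ≠ j) (c : K) :
    Wm T (Matrix.single i j c + Matrix.single j i c) := by
  have h1 := (h j c).conj hcl (X_mul_inv hij (1 : K))
  rw [X_long hij] at h1
  have h2 := (h1.sub (h j c)).sub (h i c)
  have e : Matrix.single j j c + Matrix.single i j c + Matrix.single j i c + Matrix.single i i c - Matrix.single j j c -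
      Matrix.single i i c = Matrix.single i j c + Matrix.single j i c := by abel
  rwa [e] at h2

lemma W_short_all {i₀ j₀ : Fin m} (hij₀ : i₀ ≠ j₀) {b : K} (hb : b ≠ 0)
    (h : Wm T (Matrix.single i₀ j₀ b + Matrix.single j₀ i₀ b)) {i j : Fin m} (hij : i ≠ j) (c : K) :
    Wm T (Matrix.single i j c + Matrix.single j i c) := by
  classical
  have h1 : ∀ c : K, Wm T (Matrix.single i₀ j₀ c + Matrix.single j₀ i₀ c) := by
    intro c
    by_cases hc : c = 0
    · subst hc
      simpa using (Wm.zero (T := T))
    let d : Fin m → K := fun k => if k = i₀ then c / b else 1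
    have hd : ∀ k, d k ≠ 0 := by
      intro k
      simp only [d]
      split_ifs
      · exact div_ne_zero hc hb
      · exact one_ne_zero
    have h2 := h.conj hcl (diag_mul_inv hd)
    rw [mul_add, add_mul, diag_single, diag_single] at h2
    have e1 : d i₀ * b * d j₀ = c := by
      simp only [d, if_true, if_neg hij₀.symm]
      field_simp
    have e2 : d j₀ * b * d i₀ = c := by
      simp only [d, if_true, if_neg hij₀.symm]
      field_simp
    rwa [e1, e2] at h2
  obtain ⟨s, hs1, hs2⟩ := exists_perm hij hij₀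
  have h3 := W_perm hcl (h1 c) s
  rw [mul_add, add_mul, ← hs1, ← hs2, per_single, per_single] at h3
  exact h3

lemma W_all (hl : ∀ j c, Wm T (Matrix.single j j c))
    (hs : ∀ i j, i ≠ j → ∀ c, Wm T (Matrix.single i j c + Matrix.single j i c)) {S : M₀ K m} (hS : Sᵀ = S) :
    Wm T S := by
  classical
  have hsum : S = ∑ p ∈ (Finset.univ : Finset (Fin m × Fin m)).filter (fun p => p.1 ≤ p.2),
      (if p.1 = p.2 then Matrix.single p.1 p.1 (S p.1 p.1) else
        Matrix.single p.1 p.2 (S p.1 p.2) + Matrix.single p.2 p.1 (S p.1 p.2)) := by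
    ext r s
    rw [Matrix.sum_apply]
    have hrs : S r s = S s r := congrFun (congrFun hS s) r
    rcases lt_trichotomy r s with h1 | h1 | h1
    · rw [Finset.sum_eq_single (r, s)]
      · simp [h1.ne, h1.le, Matrix.add_apply, h1.ne', Matrix.single_apply]
      · rintro ⟨x, y⟩ hxy hne
        have hxy' : x ≤ y := (Finset.mem_filter.mp hxy).2
        by_cases h2 : x = y
        · subst h2
          simp only [if_true]
          apply Matrix.single_apply_of_ne
          rintro ⟨rfl, rfl⟩
          exact absurd h1 (lt_irrefl _)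
        · simp only [if_neg h2, Matrix.add_apply]
          rw [Matrix.single_apply_of_ne, Matrix.single_apply_of_ne, add_zero]
          · rintro ⟨rfl, rfl⟩
            exact absurd (lt_of_le_of_lt hxy' h1) (lt_irrefl _)
          · rintro ⟨rfl, rfl⟩
            exact hne rfl
      · intro h2
        exfalso
        apply h2
        simp [h1.le]
    · subst h1
      rw [Finset.sum_eq_single (r, r)]
      · simp
      · rintro ⟨x, y⟩ hxy hne
        by_cases h2 : x = y
        · subst h2
          simp only [if_true]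
          apply Matrix.single_apply_of_ne
          rintro ⟨rfl, -⟩
          exact hne rfl
        · simp only [if_neg h2, Matrix.add_apply]
          rw [Matrix.single_apply_of_ne, Matrix.single_apply_of_ne, add_zero]
          · rintro ⟨rfl, rfl⟩
            exact h2 rfl
          · rintro ⟨rfl, rfl⟩
            exact h2 rfl
      · intro h2
        exfalso
        apply h2
        simp
    · rw [Finset.sum_eq_single (s, r)]
      · simp [h1.ne, h1.le, Matrix.add_apply, h1.ne', Matrix.single_apply, hrs]
      · rintro ⟨x, y⟩ hxy hne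
        have hxy' : x ≤ y := (Finset.mem_filter.mp hxy).2
        by_cases h2 : x = y
        · subst h2
          simp only [if_true]
          apply Matrix.single_apply_of_ne
          rintro ⟨rfl, rfl⟩
          exact absurd h1 (lt_irrefl _)
        · simp only [if_neg h2, Matrix.add_apply]
          rw [Matrix.single_apply_of_ne, Matrix.single_apply_of_ne, add_zero]
          · rintro ⟨rfl, rfl⟩
            exact hne rfl
          · rintro ⟨rfl, rfl⟩
            exact absurd (lt_of_le_of_lt hxy' h1) (lt_irrefl _)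
      · intro h2
        exfalso
        apply h2
        simp [h1.le]
  rw [hsum]
  apply Finset.sum_induction _ (Wm T) (fun a b ha hb => ha.add hb) Wm.zero
  rintro ⟨x, y⟩ -
  by_cases h2 : x = y
  · subst h2
    simp only [if_true]
    exact hl x _
  · simp only [if_neg h2]
    exact hs x y h2 _

end closed

end Cfsg.Agent.Lib.H29.SpA
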