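import Cfsg.Agent.Lib.H29.SpB

/-!
# Strongly closed subgroups of the unitriangular subgroup of `Sp_{2m}`: the end of the proof
-/

set_option autoImplicit false

namespace Cfsg.Agent.Lib.H29.SpA

open Matrix Cfsg.Agent.Lib.H29.ParaFusion Cfsg.Agent.Lib.H29.LinA

variable {K : Type*} [Field K] [Fintype K] {m : ℕ}

/-- The embedding `SL_m → Sp`. -/
def phiS : Matrix.SpecialLinearGroup (Fin m) K →* Sp m K where
  toFun A := phi (A : M₀ K m) ((A⁻¹ : Matrix.SpecialLinearGroup (Fin m) K) : M₀ K m) (by
    rw [← Matrix.SpecialLinearGroup.coe_mul, mul_inv_cancel, Matrix.SpecialLinearGroup.coe_one])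
  map_one' := by
    apply Subtype.ext
    rw [coe_phi, inv_one, Matrix.SpecialLinearGroup.coe_one, transpose_one, Submonoid.coe_one]
    exact fromBlocks_one
  map_mul' A B := by
    rw [phi_mul]
    apply Subtype.ext
    rw [coe_phi, coe_phi, _root_.mul_inv_rev, Matrix.SpecialLinearGroup.coe_mul, Matrix.SpecialLinearGroup.coe_mul]

lemma phiS_def (A : Matrix.SpecialLinearGroup (Fin m) K) :
    phiS A = phi (A : M₀ K m) ((A⁻¹ : Matrix.SpecialLinearGroup (Fin m) K) : M₀ K m) (by
      rw [← Matrix.SpecialLinearGroup.coe_mul, mul_inv_cancel, Matrix.SpecialLinearGroup.coe_one]) := rfl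

lemma aB_phiS (A : Matrix.SpecialLinearGroup (Fin m) K) : aB (phiS A) = (A : M₀ K m) := toBlocks_fromBlocks₁₁ _ _ _ _
lemma bB_phiS (A : Matrix.SpecialLinearGroup (Fin m) K) : bB (phiS A) = 0 := toBlocks_fromBlocks₁₂ _ _ _ _
lemma cB_phiS (A : Matrix.SpecialLinearGroup (Fin m) K) : cB (phiS A) = 0 := toBlocks_fromBlocks₂₁ _ _ _ _

lemma X_inv {i j : Fin m} (h : i ≠ j) (c : K) : (X i j h c)⁻¹ = X i j h (-c) := by
  apply inv_eq_of_mul_eq_one_right
  apply Subtype.ext
  rw [Matrix.SpecialLinearGroup.coe_mul, coe_X, coe_X, X_mul_inv h c, Matrix.SpecialLinearGroup.coe_one]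

lemma phiS_X {i j : Fin m} (h : i ≠ j) (c : K) : phiS (X i j h c) = xE i j h c := by
  apply Subtype.ext
  rw [phiS_def, coe_phi, X_inv, coe_X, coe_X, xE, coe_phi]

/-- The commutation with `tau`. -/
lemma aB_mul_eq_of_comm {g : Sp m K} {S : M₀ K m} {hS : Sᵀ = S} (h : g * tau S hS = tau S hS * g) :
    aB g * S = S * dB g := by
  have h1 := congrArg bB h
  rw [bB_mul, bB_mul, aB_tau, bB_tau, dB_tau, Matrix.mul_one, Matrix.one_mul, add_comm] at h1
  exact add_left_cancel h1

/-- A central element of `U` is some `tau`. -/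
lemma exists_tau_of_central {z : Sp m K} (hz : z ∈ Uc K m) (hc : ∀ u ∈ Uc K m, z * u = u * z) :
    ∃ (S : M₀ K m) (hS : Sᵀ = S), z = tau S hS := by
  classical
  apply eq_tau_of_aB hz.1
  ext r j
  have h1 := aB_mul_eq_of_comm (hc _ (tau_mem_Uc (Matrix.single j j (1 : K)) (by simp)))
  by_cases hrj : r = j
  · subst hrj
    rw [hz.2.2, Matrix.one_apply_eq]
  · have h2 := congrFun (congrFun h1 r) j
    rw [Matrix.mul_single_apply_same, mul_one, Matrix.single_mul_apply_of_ne _ _ _ _ _ hrj] at h2
    rw [h2, Matrix.one_apply_ne hrj]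

omit [Fintype K] in
lemma X_conj_apply (i j : Fin m) (S : M₀ K m) (r s : Fin m) :
    (((1 + Matrix.single i j (1 : K)) * S * (1 + Matrix.single i j (1 : K))ᵀ : M₀ K m)) r s =
      S r s + (if r = i then S j s else 0) + (if s = i then S r j + (if r = i then S j j else 0) else 0) := by
  classical
  have e1 : ∀ r s, (((1 + Matrix.single i j (1 : K)) * S : M₀ K m)) r s = S r s + (if r = i then S j s else 0) := by
    intro r s
    rw [add_mul, Matrix.one_mul, Matrix.add_apply]
    congr 1
    by_cases h : r = i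
    · subst h
      simp
    · rw [if_neg h, Matrix.single_mul_apply_of_ne _ _ _ _ _ h]
  rw [transpose_add, transpose_one, Matrix.transpose_single, mul_add, Matrix.mul_one, Matrix.add_apply, e1]
  by_cases h : s = i
  · subst h
    rw [Matrix.mul_single_apply_same, e1, mul_one, if_pos rfl]
  · rw [if_neg h, Matrix.mul_single_apply_of_ne _ _ _ _ _ h]

lemma conj_eq_of_comm {A A' S : M₀ K m} {h : A * A' = 1} {hS : Sᵀ = S}
    (hc : phi A A' h * tau S hS = tau S hS * phi A A' h) : A * S * Aᵀ = S := by
  have h1 := phi_tau A A' S h hS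
  rw [hc, mul_inv_cancel_right] at h1
  have h2 := congrArg bB h1
  rwa [bB_tau, bB_tau, eq_comm] at h2

/-- The shape of a central element. -/
lemma shape_of_central {S : M₀ K m} (hS : Sᵀ = S)
    (hc : ∀ u ∈ Uc K m, tau S hS * u = u * tau S hS) {f0 f1 : Fin m} (h01 : f0 < f1)
    (hf0 : ∀ r, f0 ≤ r) (hf1 : ∀ r, r ≠ f0 → f1 ≤ r) :
    S = Matrix.single f0 f0 (S f0 f0) + (Matrix.single f0 f1 (S f0 f1) + Matrix.single f1 f0 (S f0 f1)) ∧
      S f0 f1 + S f0 f1 = 0 := by
  classical
  have hkey : ∀ i j (hij : i < j), (1 + Matrix.single i j (1 : K)) * S * (1 + Matrix.single i j (1 : K))ᵀ = S := by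
    intro i j hij
    have h1 := hc _ (xE_mem_Uc hij (1 : K))
    rw [xE] at h1
    have h2 := conj_eq_of_comm h1.symm
    exact h2
  have hE : ∀ i j (hij : i < j) s, s ≠ i → S j s = 0 := by
    intro i j hij s hs
    have h1 := congrFun (congrFun (hkey i j hij) i) s
    rw [X_conj_apply, if_pos rfl, if_neg hs, add_zero] at h1
    exact add_left_cancel (a := S i s) (by rw [h1, add_zero])
  have hD : ∀ i j (hij : i < j), S j i + (S i j + S j j) = 0 := by
    intro i j hij
    have h1 := congrFun (congrFun (hkey i j hij) i) i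
    rw [X_conj_apply, if_pos rfl, if_pos rfl, if_pos rfl, add_assoc] at h1
    exact add_left_cancel (a := S i i) (by rw [h1, add_zero])
  have hsym : ∀ r s, S r s = S s r := fun r s => congrFun (congrFun hS s) r
  have h0pos : ∀ r, r ≠ f0 → f0 < r := fun r hr => lt_of_le_of_ne (hf0 r) (Ne.symm hr)
  have H1 : ∀ r s, r ≠ f0 → s ≠ f0 → S r s = 0 := fun r s hr hs => hE f0 r (h0pos r hr) s hs
  have H2 : ∀ r, r ≠ f0 → r ≠ f1 → S r f0 = 0 := fun r hr hr1 =>
    hE f1 r (lt_of_le_of_ne (hf1 r hr) (Ne.symm hr1)) f0 h01.ne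
  have h11 : S f1 f1 = 0 := H1 f1 f1 h01.ne' h01.ne'
  constructor
  · ext r s
    simp only [Matrix.add_apply]
    by_cases hr : r = f0
    · rw [hr]
      by_cases hs : s = f0
      · rw [hs]; simp [Matrix.single_apply, h01.ne, h01.ne']
      · by_cases hs1 : s = f1
        · rw [hs1]; simp [Matrix.single_apply, h01.ne, h01.ne']
        · have e : S f0 s = 0 := by rw [hsym]; exact H2 s hs hs1
          rw [e]; simp [Matrix.single_apply, h01.ne, h01.ne', Ne.symm hs, Ne.symm hs1]
    · by_cases hs : s = f0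
      · rw [hs]
        by_cases hr1 : r = f1
        · rw [hr1, hsym]; simp [Matrix.single_apply, h01.ne, h01.ne']
        · rw [H2 r hr hr1]; simp [Matrix.single_apply, Ne.symm hr, Ne.symm hr1]
      · rw [H1 r s hr hs]; simp [Matrix.single_apply, Ne.symm hr, Ne.symm hs]
  · have h1 := hD f0 f1 h01
    rw [hsym f1 f0, h11, add_zero] at h1
    exact h1

section closed

variable {T : Subgroup (Sp m K)} (hcl : ∀ x ∈ T, ∀ g, g * x * g⁻¹ ∈ Uc K m → g * x * g⁻¹ ∈ T)

include hcl

lemma Wm_xE {i j : Fin m} (hij : i < j) {c : K} (h : Wm T (Matrix.single i j c + Matrix.single j i c)) :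
    xE i j hij.ne (-c) ∈ T := by
  obtain ⟨hS, h1⟩ := h
  have h2 := wE_tau hij.ne c
  rw [← h2]
  apply hcl _ h1
  rw [h2]
  exact xE_mem_Uc hij _

/-- Short root elements give long root elements. -/
lemma long_of_short (hT : T ≤ Uc K m) {f0 f1 : Fin m} (h01 : f0 < f1)
    (hs : ∀ i j, i ≠ j → ∀ c, Wm T (Matrix.single i j c + Matrix.single j i c)) :
    ∀ j c, Wm T (Matrix.single j j c) := by
  have hnorm : ∀ s ∈ Uc K m, ∀ x ∈ T, s * x * s⁻¹ ∈ T := fun s hs x hx =>
    hcl x hx s ((Uc K m).mul_mem ((Uc K m).mul_mem hs (hT hx)) ((Uc K m).inv_mem hs))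
  have hx : xE f0 f1 h01.ne (1 : K) ∈ T := by
    have h1 := Wm_xE hcl h01 (hs f0 f1 h01.ne (-1))
    rwa [neg_neg] at h1
  have hE11 : (Matrix.single f1 f1 (1 : K))ᵀ = Matrix.single f1 f1 (1 : K) := by simp
  set t := tau (Matrix.single f1 f1 (1 : K)) hE11 with ht
  have htU : t ∈ Uc K m := tau_mem_Uc _ _
  have h2 : xE f0 f1 h01.ne (1 : K) * (t * (xE f0 f1 h01.ne (1 : K))⁻¹ * t⁻¹) ∈ T :=
    T.mul_mem hx (hnorm t htU _ (T.inv_mem hx))
  have h3 : xE f0 f1 h01.ne (1 : K) * (t * (xE f0 f1 h01.ne (1 : K))⁻¹ * t⁻¹) =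
      (xE f0 f1 h01.ne (1 : K) * t * (xE f0 f1 h01.ne (1 : K))⁻¹) * t⁻¹ := by group
  rw [h3, xE, phi_tau, ht, tau_inv, tau_mul] at h2
  have h4 : Wm T ((1 + Matrix.single f0 f1 (1 : K)) * Matrix.single f1 f1 1 * (1 + Matrix.single f0 f1 (1 : K))ᵀ +
      -Matrix.single f1 f1 1) := ⟨_, h2⟩
  rw [X_long h01.ne] at h4
  have h5 := h4.sub (hs f0 f1 h01.ne 1)
  have e : Matrix.single f1 f1 (1 : K) + Matrix.single f0 f1 1 + Matrix.single f1 f0 1 + Matrix.single f0 f0 1 +
      -Matrix.single f1 f1 1 - (Matrix.single f0 f1 1 + Matrix.single f1 f0 1) = Matrix.single f0 f0 1 := by abel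
  rw [e] at h5
  exact W_long_all hcl one_ne_zero h5

end closed

section charp

variable (p : ℕ) [Fact p.Prime] [CharP K p]

include p in
/-- Strongly closed subgroups of `U`. -/
theorem closed_eq_Uc (hm : 2 ≤ m) (hex : m = 2 → 3 ≤ Fintype.card K) {T : Subgroup (Sp m K)} (hT : T ≤ Uc K m)
    (hne : T ≠ ⊥) (hcl : ∀ x ∈ T, ∀ g, g * x * g⁻¹ ∈ Uc K m → g * x * g⁻¹ ∈ T) : T = Uc K m := by
  classical
  haveI : NeZero m := ⟨by omega⟩
  have hnorm : ∀ s ∈ Uc K m, ∀ x ∈ T, s * x * s⁻¹ ∈ T := fun s hs x hx =>
    hcl x hx s ((Uc K m).mul_mem ((Uc K m).mul_mem hs (hT hx)) ((Uc K m).inv_mem hs))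
  -- a central element
  let N : Subgroup (Uc K m) := T.subgroupOf (Uc K m)
  haveI hNn : N.Normal := by
    constructor
    intro x hx g
    exact hnorm g g.2 x hx
  have hN1 : N ≠ ⊥ := by
    intro h
    apply hne
    rw [eq_bot_iff]
    intro x hx
    have h1 : (⟨x, hT hx⟩ : Uc K m) ∈ N := hx
    rw [h, Subgroup.mem_bot] at h1
    have := congrArg Subtype.val h1
    exact this
  obtain ⟨z, hzN, hzc, hzo⟩ := Cfsg.Agent.Lib.PGroups.Basic.exists_central_orderOf_eq (Uc_isPGroup (K := K) (m := m) p) N hN1
  have hz1 : z ≠ 1 := by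
    rintro rfl
    rw [orderOf_one] at hzo
    exact (Fact.out : p.Prime).one_lt.ne hzo
  have hzU : (z : Sp m K) ∈ Uc K m := z.2
  have hzT : (z : Sp m K) ∈ T := hzN
  have hzcomm : ∀ u ∈ Uc K m, (z : Sp m K) * u = u * z := by
    intro u hu
    have h1 := Subgroup.mem_center_iff.mp hzc ⟨u, hu⟩
    exact (congrArg Subtype.val h1).symm
  obtain ⟨B, hB, hzB⟩ := exists_tau_of_central hzU hzcomm
  rw [hzB] at hzT hzcomm
  have hB0 : B ≠ 0 := by
    rintro rfl
    apply hz1
    apply Subtype.ext
    rw [hzB]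
    exact tau_zero
  -- the positions
  let f0 : Fin m := ⟨0, by omega⟩
  let f1 : Fin m := ⟨1, by omega⟩
  have h01 : f0 < f1 := by
    rw [Fin.lt_def]
    show 0 < 1
    omega
  have hf0 : ∀ r : Fin m, f0 ≤ r := by
    intro r
    rw [Fin.le_def]
    show 0 ≤ (r : ℕ)
    omega
  have hf1 : ∀ r : Fin m, r ≠ f0 → f1 ≤ r := by
    intro r hr
    rw [Fin.le_def]
    show 1 ≤ (r : ℕ)
    by_contra h0
    apply hr
    apply Fin.ext
    show (r : ℕ) = 0
    omega
  obtain ⟨hshape, h2b⟩ := shape_of_central hB hzcomm h01 hf0 hf1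
  set a := B f0 f0 with ha_def
  set b := B f0 f1 with hb_def
  have hWB : Wm T B := ⟨hB, hzT⟩
  -- the long root elements
  have hlong : ∀ j c, Wm T (Matrix.single j j c) := by
    by_cases hb : b = 0
    · -- long
      rw [hb] at hshape
      have ha : a ≠ 0 := by
        intro h0
        apply hB0
        rw [hshape, h0]
        simp
      rw [hshape] at hWB
      have h1 : Wm T (Matrix.single f0 f0 a) := by
        simpa using hWB
      exact W_long_all hcl ha h1
    · by_cases ha : a = 0
      · rw [ha] at hshape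
        rw [hshape] at hWB
        have h1 : Wm T (Matrix.single f0 f1 b + Matrix.single f1 f0 b) := by
          simpa using hWB
        exact long_of_short hcl hT h01 (fun i j hij c => W_short_all hcl h01.ne hb h1 hij c)
      · -- characteristic two
        have h2 : (2 : K) = 0 := by
          have : (2 : K) * b = 0 := by rw [two_mul]; exact h2b
          exact (mul_eq_zero.mp this).resolve_right hb
        by_cases hm2 : m = 2
        · -- conjugate by a diagonal matrix
          have hc3 := hex hm2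
          obtain ⟨d, hd⟩ : ∃ d : K, d ∉ ({0, 1} : Finset K) := by
            by_contra hcon
            push Not at hcon
            have h3 : (Finset.univ : Finset K) ⊆ {0, 1} := fun x _ => hcon x
            have h4 := Finset.card_le_card h3
            rw [Finset.card_univ] at h4
            have h5 : ({0, 1} : Finset K).card ≤ 2 := Finset.card_le_two
            omega
          simp only [Finset.mem_insert, Finset.mem_singleton, not_or] at hd
          obtain ⟨hd0, hd1⟩ := hd
          let D : Fin m → K := fun k => if k = f0 then d else d⁻¹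
          have hDne : ∀ k, D k ≠ 0 := by
            intro k
            simp only [D]
            split_ifs
            · exact hd0
            · exact inv_ne_zero hd0
          have h3 := hWB.conj hcl (diag_mul_inv hDne)
          rw [hshape, mul_add, mul_add, add_mul, add_mul, diag_single, diag_single, diag_single] at h3
          have hD0 : D f0 = d := by simp [D]
          have hD1 : D f1 = d⁻¹ := by simp [D, h01.ne']
          rw [hD0, hD1] at h3
          have e1 : d * b * d⁻¹ = b := by field_simp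
          have e2 : d⁻¹ * b * d = b := by field_simp
          rw [e1, e2] at h3
          rw [hshape] at hWB
          have h4 := h3.sub hWB
          have e3 : Matrix.single f0 f0 (d * a * d) + (Matrix.single f0 f1 b + Matrix.single f1 f0 b) -
              (Matrix.single f0 f0 a + (Matrix.single f0 f1 b + Matrix.single f1 f0 b)) =
              Matrix.single f0 f0 ((d * d - 1) * a) := by
            have : (d * d - 1) * a = d * a * d + -a := by ring
            rw [this, Matrix.single_add, ← Matrix.single_neg]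
            abel
          rw [e3] at h4
          refine W_long_all hcl (mul_ne_zero ?_ ha) h4
          have e4 : d * d - 1 = (d - 1) * (d - 1) := by
            linear_combination (d - 1) * h2
          rw [e4]
          exact mul_ne_zero (sub_ne_zero.mpr hd1) (sub_ne_zero.mpr hd1)
        · -- a third position
          have hm3 : 3 ≤ m := by omega
          let t : Fin m := ⟨2, by omega⟩
          have ht1 : t ≠ f1 := by
            intro h
            have := congrArg Fin.val h
            simp [t, f1] at this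
          have ht0 : t ≠ f0 := by
            intro h
            have := congrArg Fin.val h
            simp [t, f0] at this
          have h3 := hWB.conj hcl (X_mul_inv ht1 (1 : K))
          have e1 : (1 + Matrix.single t f1 (1 : K)) * B * (1 + Matrix.single t f1 (1 : K))ᵀ =
              B + (Matrix.single t f0 b + Matrix.single f0 t b) := by
            conv_lhs => rw [hshape]
            rw [transpose_add, transpose_one, Matrix.transpose_single]
            simp only [mul_add, add_mul, Matrix.one_mul, Matrix.mul_one, Matrix.single_mul_single_same,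
              Matrix.single_mul_single_of_ne _ _ _ _ h01.ne', Matrix.single_mul_single_of_ne _ _ _ _ h01.ne,
              add_zero, zero_add, one_mul, mul_one]
            conv_rhs => rw [hshape]
            abel
          rw [e1] at h3
          have h4 := h3.sub hWB
          rw [add_sub_cancel_left] at h4
          exact long_of_short hcl hT h01 (fun i j hij c => W_short_all hcl ht0 hb h4 hij c)
  have hshort := fun i j (hij : i ≠ j) c => W_short_of_long hcl hlong hij c
  -- all transvections
  have hxE : ∀ i j (hij : i < j) (c : K), xE i j hij.ne c ∈ T := by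
    intro i j hij c
    have h1 := Wm_xE hcl hij (hshort i j hij.ne (-c))
    rwa [neg_neg] at h1
  have hS : U K m ≤ T.comap phiS := by
    apply U_le_of_X
    intro i j h e
    show phiS _ ∈ T
    rw [phiS_X]
    exact hxE i j h e
  apply le_antisymm hT
  intro u hu
  have h1 : phiS (aS u hu) ∈ T := hS (aS_mem u hu)
  have h2 : u * (phiS (aS u hu))⁻¹ ∈ T := by
    have h3 : cB (u * (phiS (aS u hu))⁻¹) = 0 := by
      rw [← map_inv, cB_mul, cB_phiS, hu.1]
      simp
    have h4 : aB (u * (phiS (aS u hu))⁻¹) = 1 := by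
      rw [← map_inv, aB_mul_of_C0 _ (cB_phiS _), aB_phiS, ← coe_aS u hu, ← Matrix.SpecialLinearGroup.coe_mul,
        mul_inv_cancel, Matrix.SpecialLinearGroup.coe_one]
    obtain ⟨S, hS', he⟩ := eq_tau_of_aB h3 h4
    rw [he]
    exact (W_all hcl hlong hshort hS').choose_spec
  have h3 := T.mul_mem h2 h1
  simpa using h3

end charp

end Cfsg.Agent.Lib.H29.SpA
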