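import Cfsg.Agent.Lib.H29.SpC

/-!
# The normalizer of the Sylow subgroup of `PSp_{2m}` and the short simple roots
-/

set_option autoImplicit false

namespace Cfsg.Agent.Lib.H29.SpA

open Matrix Cfsg.Agent.Lib.H29.ParaFusion Cfsg.Agent.Lib.H29.LinA Cfsg.Agent.Lib.Classical.SympSimple

variable {K : Type*} [Field K] [Fintype K] {m : ℕ}

/-- The projection onto `PSp`. -/
abbrev toP : Sp m K →* Cfsg.PSp m K := QuotientGroup.mk' _

lemma nz_map_hom {G H : Type*} [Group G] [Group H] (f : G →* H) {A : Subgroup G} {g : G} (h : Nz A g) :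
    Nz (A.map f) (f g) := by
  rintro _ ⟨a, ha, rfl⟩
  exact ⟨_, h a ha, by simp only [map_mul, map_inv]⟩

lemma toP_eq (hm : 1 ≤ m) {x y : Sp m K} (h : toP x = toP y) : ∃ c : K, (x : M K m) = c • (y : M K m) := by
  have h1 : x⁻¹ * y ∈ Subgroup.center (Sp m K) := QuotientGroup.eq.mp h
  rcases (mem_center_symplecticGroup_iff hm _).mp h1 with h2 | h2
  · refine ⟨1, ?_⟩
    rw [one_smul]
    have : y = x := by
      rw [inv_mul_eq_one] at h2
      exact h2.symm
    rw [this]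
  · refine ⟨-1, ?_⟩
    have h3 : y = x * negOne m K := by
      rw [← h2]
      group
    rw [h3, Submonoid.coe_mul]
    show (x : M K m) = (-1 : K) • ((x : M K m) * (-1 : M K m))
    simp

lemma toP_negOne (hm : 1 ≤ m) : toP (negOne m K) = 1 := by
  rw [QuotientGroup.mk'_apply, QuotientGroup.eq_one_iff]
  exact (mem_center_symplecticGroup_iff hm _).mpr (Or.inr rfl)

/-- Normalizing the projected `U` gives `B`. -/
lemma mem_Bc_of_nz (hm : 1 ≤ m) {g : Sp m K} (hg : Nz ((Uc K m).map toP) (toP g)) : g ∈ Bc K m := by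
  apply mem_Bc_of_conj
  intro u hu
  obtain ⟨v, hv, hve⟩ := hg _ ⟨u, hu, rfl⟩
  have h1 : toP (g * u * g⁻¹) = toP v := by
    rw [hve]
    simp only [map_mul, map_inv]
  obtain ⟨c, hc⟩ := toP_eq hm h1
  exact ⟨c, v, hv, hc⟩

lemma diag_inv {g : Sp m K} (hg : g ∈ Bc K m) (k : Fin m) : aB g k k * aB g⁻¹ k k = 1 := by
  rw [← UT.mul_diag hg.2 ((Bc K m).inv_mem hg).2, aB_mul_inv hg, Matrix.one_apply_eq]

lemma dB_eq {g : Sp m K} (hg : g ∈ Bc K m) : dB g = (aB g⁻¹)ᵀ := by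
  have h1 := (sp_rel_C0 hg.1).1
  have h2 : (dB g)ᵀ = aB g⁻¹ := by
    calc (dB g)ᵀ = (aB g⁻¹ * aB g) * (dB g)ᵀ := by rw [aB_inv_mul hg, Matrix.one_mul]
      _ = aB g⁻¹ := by rw [Matrix.mul_assoc, h1, Matrix.mul_one]
  rw [← h2, transpose_transpose]

/-- `B` normalizes `U`. -/
lemma Bc_conj {g x : Sp m K} (hg : g ∈ Bc K m) (hx : x ∈ Uc K m) : g * x * g⁻¹ ∈ Uc K m := by
  have hg' : g⁻¹ ∈ Bc K m := (Bc K m).inv_mem hg
  have h1 : g * x ∈ Bc K m := (Bc K m).mul_mem hg (Uc_le_Bc hx)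
  have h2 : g * x * g⁻¹ ∈ Bc K m := (Bc K m).mul_mem h1 hg'
  refine ⟨h2.1, h2.2, fun k => ?_⟩
  rw [aB_mul_of_C0 _ hg'.1, aB_mul_of_C0 _ hx.1, UT.mul_diag (hg.2.mul hx.2.1) hg'.2, UT.mul_diag hg.2 hx.2.1, hx.2.2,
    mul_one, diag_inv hg]

/-- The centralizer in `PSp` lifts to the centralizer in `Sp`. -/
lemma comm_of_pi (hm : 1 ≤ m) {g x : Sp m K} (hg : g ∈ Bc K m) (hx : x ∈ Uc K m)
    (h : toP (g * x * g⁻¹) = toP x) : g * x = x * g := by
  obtain ⟨c, hc⟩ := toP_eq hm h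
  have hc1 : c = 1 := by
    have h2 : aB (g * x * g⁻¹) = c • aB x := by
      rw [aB, hc]
      ext r s
      rfl
    let k : Fin m := ⟨0, by omega⟩
    have h3 := congrFun (congrFun h2 k) k
    rw [(Bc_conj hg hx).2.2 k, Matrix.smul_apply, hx.2.2 k, smul_eq_mul, mul_one] at h3
    exact h3.symm
  subst hc1
  rw [one_smul] at hc
  have h3 : g * x * g⁻¹ = x := Subtype.ext hc
  rwa [mul_inv_eq_iff_eq_mul] at h3

lemma mem_P_of_diag (hm : 1 ≤ m) {g : Sp m K} (hg : g ∈ Bc K m) {d : K} (hd : ∀ k, aB g k k = d) (hdd : d * d = 1) :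
    toP g ∈ (Uc K m).map toP := by
  rcases mul_self_eq_one_iff.mp hdd with rfl | rfl
  · exact ⟨g, ⟨hg.1, hg.2, hd⟩, rfl⟩
  · refine ⟨negOne m K * g, ?_, ?_⟩
    · have e : ((negOne m K * g : Sp m K) : M K m) = - (g : M K m) := by
        rw [Submonoid.coe_mul]
        show (-1 : M K m) * (g : M K m) = _
        simp
      have e1 : aB (negOne m K * g) = - aB g := by
        rw [aB, e]
        ext r s
        rfl
      have e2 : cB (negOne m K * g) = - cB g := by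
        rw [cB, e]
        ext r s
        rfl
      refine ⟨by rw [e2, hg.1, neg_zero], ?_, ?_⟩
      · intro k l hlk
        rw [e1, Matrix.neg_apply, hg.2 k l hlk, neg_zero]
      · intro k
        rw [e1, Matrix.neg_apply, hd, neg_neg]
    · rw [map_mul, toP_negOne hm, one_mul]

lemma rel_long {g : Sp m K} (hg : g ∈ Bc K m) {j : Fin m}
    (h : g * tau (Matrix.single j j (1 : K)) (by simp) = tau (Matrix.single j j (1 : K)) (by simp) * g) :
    aB g j j = aB g⁻¹ j j := by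
  have h1 := aB_mul_eq_of_comm h
  have h2 := congrFun (congrFun h1 j) j
  rw [Matrix.mul_single_apply_same, mul_one, Matrix.single_mul_apply_same, one_mul, dB_eq hg, transpose_apply] at h2
  exact h2

lemma rel_short {g : Sp m K} (hg : g ∈ Bc K m) {j k : Fin m} (hjk : j ≠ k)
    (h : g * tau (Matrix.single j k (1 : K) + Matrix.single k j 1) (sym_short j k 1) =
      tau (Matrix.single j k (1 : K) + Matrix.single k j 1) (sym_short j k 1) * g) :
    aB g j j = aB g⁻¹ k k := by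
  have h1 := aB_mul_eq_of_comm h
  have h2 := congrFun (congrFun h1 j) k
  rw [mul_add, add_mul, Matrix.add_apply, Matrix.add_apply, Matrix.mul_single_apply_same, mul_one,
    Matrix.single_mul_apply_same, one_mul, Matrix.mul_single_apply_of_ne _ _ _ _ _ hjk.symm,
    Matrix.single_mul_apply_of_ne _ _ _ _ _ hjk, add_zero, add_zero, dB_eq hg, transpose_apply] at h2
  exact h2

lemma rel_xE {g : Sp m K} {j k : Fin m} (hjk : j ≠ k) (hc : cB g = 0) (h : g * xE j k hjk 1 = xE j k hjk 1 * g) :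
    aB g j j = aB g k k := by
  have h1 := congrArg aB h
  rw [aB_mul_of_C0 _ (cB_xE _ _ _ _), aB_mul_of_C0 _ hc, aB_xE, mul_add, add_mul, Matrix.mul_one, Matrix.one_mul] at h1
  have h6 : Commute (Matrix.single j k (1 : K)) (aB g) := (add_left_cancel h1).symm
  exact Matrix.diag_eq_of_commute_single h6

lemma mem_P_short (hm : 2 ≤ m) {g : Sp m K} (hg : g ∈ Bc K m) (hc : ∀ S hS, g * tau S hS = tau S hS * g) :
    toP g ∈ (Uc K m).map toP := by
  let f : Fin m := ⟨0, by omega⟩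
  have h1 : ∀ j, aB g j j = aB g⁻¹ j j := fun j => rel_long hg (hc _ _)
  have h2 : ∀ j k, j ≠ k → aB g j j = aB g⁻¹ k k := fun j k hjk => rel_short hg hjk (hc _ _)
  apply mem_P_of_diag (by omega) hg (d := aB g f f)
  · intro k
    by_cases hk : k = f
    · rw [hk]
    · rw [h2 k f hk, ← h1]
  · have := diag_inv hg f
    rwa [← h1] at this

lemma mem_P_long (hm : 2 ≤ m) {g : Sp m K} (hg : g ∈ Bc K m)
    (hx : ∀ j k (h : j < k), g * xE j k h.ne 1 = xE j k h.ne 1 * g)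
    (hs : ∀ j k (h : j ≠ k), g * tau (Matrix.single j k (1 : K) + Matrix.single k j 1) (sym_short j k 1) =
      tau (Matrix.single j k (1 : K) + Matrix.single k j 1) (sym_short j k 1) * g) :
    toP g ∈ (Uc K m).map toP := by
  let f : Fin m := ⟨0, by omega⟩
  let f' : Fin m := ⟨1, by omega⟩
  have hff : f < f' := by
    rw [Fin.lt_def]
    show 0 < 1
    omega
  have h1 : ∀ j k, j < k → aB g j j = aB g k k := fun j k h => rel_xE h.ne hg.1 (hx j k h)
  have h2 : ∀ j, aB g j j = aB g f f := by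
    intro j
    rcases lt_trichotomy j f with h | h | h
    · exact h1 _ _ h
    · rw [h]
    · exact (h1 _ _ h).symm
  apply mem_P_of_diag (by omega) hg h2
  have h3 : aB g f f = aB g⁻¹ f' f' := rel_short hg hff.ne (hs _ _ hff.ne)
  have h4 := diag_inv hg f'
  rwa [← h3, h2 f'] at h4

/-! ### The parabolic of a short simple root -/

section short

variable {i i' : Fin m} (hi : (i' : ℕ) = i + 1)

include hi

lemma coordA_mul {u v : Sp m K} (hu : u ∈ Uc K m) (hv : v ∈ Uc K m) : aB (u * v) i i' = aB u i i' + aB v i i' := by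
  rw [aB_mul_of_C0 _ hv.1]
  exact coord_mul hi (aS_mem u hu) (aS_mem v hv)

lemma coordA_inv {u : Sp m K} (hu : u ∈ Uc K m) : aB u⁻¹ i i' = - aB u i i' := by
  have h1 := coordA_mul hi hu ((Uc K m).inv_mem hu)
  rw [mul_inv_cancel, aB_one, Matrix.one_apply_ne (ne_of_succ hi)] at h1
  linear_combination -h1

omit hi in
/-- The kernel of the coordinate. -/
def Ai (i i' : Fin m) (hi : (i' : ℕ) = i + 1) : Subgroup (Sp m K) where
  carrier := {u | u ∈ Uc K m ∧ aB u i i' = 0}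
  mul_mem' := by
    rintro a b ⟨ha, ha'⟩ ⟨hb, hb'⟩
    exact ⟨(Uc K m).mul_mem ha hb, by rw [coordA_mul hi ha hb, ha', hb', add_zero]⟩
  one_mem' := ⟨(Uc K m).one_mem, by rw [aB_one, Matrix.one_apply_ne (ne_of_succ hi)]⟩
  inv_mem' := by
    rintro a ⟨ha, ha'⟩
    exact ⟨(Uc K m).inv_mem ha, by rw [coordA_inv hi ha, ha', neg_zero]⟩

lemma Ai_le : Ai (K := K) i i' hi ≤ Uc K m := fun _ h => h.1

lemma nz_Ai_of_mem {s : Sp m K} (hs : s ∈ Uc K m) : Nz (Ai (K := K) i i' hi) s := by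
  rintro u ⟨hu, hu'⟩
  refine ⟨(Uc K m).mul_mem ((Uc K m).mul_mem hs hu) ((Uc K m).inv_mem hs), ?_⟩
  rw [coordA_mul hi ((Uc K m).mul_mem hs hu) ((Uc K m).inv_mem hs), coordA_mul hi hs hu, hu', coordA_inv hi hs]
  ring

omit hi in
/-- Conjugation by `phi`. -/
lemma conj_phi (A A' : M₀ K m) (h : A * A' = 1) {u : Sp m K} (hu : cB u = 0) :
    cB (phi A A' h * u * (phi A A' h)⁻¹) = 0 ∧ aB (phi A A' h * u * (phi A A' h)⁻¹) = A * aB u * A' ∧
      bB (phi A A' h * u * (phi A A' h)⁻¹) = A * bB u * Aᵀ := by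
  rw [phi_inv]
  refine ⟨?_, ?_, ?_⟩
  · rw [cB_mul, cB_mul, cB_phi, cB_phi, hu]
    simp
  · rw [aB_mul, aB_mul, aB_phi, aB_phi, bB_phi, cB_phi]
    simp
  · rw [bB_mul, bB_mul, aB_phi, bB_phi, bB_phi, dB_phi]
    simp

omit hi in
lemma conj_phiS (g : Matrix.SpecialLinearGroup (Fin m) K) {u : Sp m K} (hu : u ∈ Uc K m) :
    cB (phiS g * u * (phiS g)⁻¹) = 0 ∧
      aB (phiS g * u * (phiS g)⁻¹) = ((g * aS u hu * g⁻¹ : Matrix.SpecialLinearGroup (Fin m) K) : M₀ K m) := by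
  rw [phiS_def]
  obtain ⟨h1, h2, -⟩ := conj_phi (g : M₀ K m) ((g⁻¹ : Matrix.SpecialLinearGroup (Fin m) K) : M₀ K m) (by
      rw [← Matrix.SpecialLinearGroup.coe_mul, mul_inv_cancel, Matrix.SpecialLinearGroup.coe_one]) hu.1
  exact ⟨h1, h2⟩

omit hi in
lemma nz_Uc_phiS {g : Matrix.SpecialLinearGroup (Fin m) K} (hg : Nz (U K m) g) : Nz (Uc K m) (phiS g) := by
  intro u hu
  obtain ⟨h1, h2⟩ := conj_phiS g hu
  have h3 := hg _ (aS_mem u hu)
  refine ⟨h1, ?_, ?_⟩
  · rw [h2]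
    exact h3.1
  · rw [h2]
    exact h3.2

lemma nz_Ai_phiS {g : Matrix.SpecialLinearGroup (Fin m) K} (hg : Nz (Ui (K := K) i i' hi) g) :
    Nz (Ai (K := K) i i' hi) (phiS g) := by
  rintro u ⟨hu, hu'⟩
  obtain ⟨h1, h2⟩ := conj_phiS g hu
  have h3 := hg (aS u hu) ⟨aS_mem u hu, hu'⟩
  refine ⟨⟨h1, ?_, ?_⟩, ?_⟩
  · rw [h2]
    exact h3.1.1
  · rw [h2]
    exact h3.1.2
  · rw [h2]
    exact h3.2

end short

/-- The torus elements of the short simple roots are good. -/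
theorem hh_good' (hm : 2 ≤ m) {i i' : Fin m} (hi : (i' : ℕ) = i + 1) {a : K} (ha : a ≠ 0) :
    ParaGood ((Uc K m).map toP) (toP (phiS (hh i i' (ne_of_succ hi) a))) := by
  have hne := ne_of_succ hi
  have hlt := lt_of_succ hi
  refine ⟨(Ai (K := K) i i' hi).map toP, Subgroup.map_mono (Ai_le hi), ?_, ?_, ?_, ?_, ?_⟩
  · rintro _ ⟨s, hs, rfl⟩
    exact nz_map_hom toP (nz_Ai_of_mem hi hs)
  · exact nz_map_hom toP (nz_Ai_phiS hi (nz_Ui_hh hi ha))
  · exact nz_map_hom toP (nz_Uc_phiS (nz_U_hh hne ha))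
  · refine ⟨_, ?_, fun _ _ => rfl⟩
    have hx : ∀ c : K, toP (phiS (X i i' hne c)) ∈
        Subgroup.closure (Gen ((Uc K m).map toP) ((Ai (K := K) i i' hi).map toP)) := by
      intro c
      apply Subgroup.subset_closure
      refine ⟨1, Nz.one _, _, ⟨phiS (X i i' hne c), ?_, rfl⟩, by simp⟩
      rw [phiS_X]
      exact xE_mem_Uc hlt c
    have hy : ∀ c : K, toP (phiS (X i' i hne.symm c)) ∈
        Subgroup.closure (Gen ((Uc K m).map toP) ((Ai (K := K) i i' hi).map toP)) := by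
      intro c
      apply Subgroup.subset_closure
      refine ⟨toP (phiS (w₀ hi)), nz_map_hom toP (nz_Ai_phiS hi (nz_Ui_w₀ hi)), toP (phiS (X i i' hne (-c))),
        ⟨_, ?_, rfl⟩, ?_⟩
      · rw [phiS_X]
        exact xE_mem_Uc hlt _
      · rw [← X_conj_w₀ hi c]
        simp only [map_mul, map_inv]
    rw [hh]
    simp only [map_mul]
    exact Subgroup.mul_mem _ (Subgroup.mul_mem _ (Subgroup.mul_mem _ (hx _) (hy _)) (hx _))
      (Subgroup.mul_mem _ (Subgroup.mul_mem _ (hx _) (hy _)) (hx _))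
  · intro n hn hna
    obtain ⟨g, rfl⟩ := QuotientGroup.mk'_surjective _ n
    have hgB := mem_Bc_of_nz (by omega) hn
    refine ⟨_, mem_P_short hm hgB ?_, fun _ _ => rfl⟩
    intro S hS
    have hmem : tau S hS ∈ Ai (K := K) i i' hi :=
      ⟨tau_mem_Uc S hS, by rw [aB_tau, Matrix.one_apply_ne hne]⟩
    have h1 := hna _ ⟨_, hmem, rfl⟩
    exact comm_of_pi (by omega) hgB (tau_mem_Uc S hS) (by simpa only [map_mul, map_inv] using h1)

end Cfsg.Agent.Lib.H29.SpA
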