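import Cfsg.Agent.Lib.H29.SpD

/-!
# The long simple root and the simplicity of the `p`-fusion system of `PSp_{2m}(K)`
-/

set_option autoImplicit false

namespace Cfsg.Agent.Lib.H29.SpA

open Matrix Cfsg.Agent.Lib.H29.ParaFusion Cfsg.Agent.Lib.H29.LinA Cfsg.Agent.Lib.Classical.SympSimple

variable {K : Type*} [Field K] {m : ℕ}

section jm

variable (ℓ : Fin m)

/-- The embedding of `2 × 2` matrices at the pair `ℓ`. -/
def jM (Q : Matrix (Fin 2) (Fin 2) K) : M K m :=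
  fromBlocks (1 + Matrix.single ℓ ℓ (Q 0 0 - 1)) (Matrix.single ℓ ℓ (Q 0 1)) (Matrix.single ℓ ℓ (Q 1 0))
    (1 + Matrix.single ℓ ℓ (Q 1 1 - 1))

lemma jM_mul (Q R : Matrix (Fin 2) (Fin 2) K) : jM ℓ Q * jM ℓ R = jM ℓ (Q * R) := by
  rw [jM, jM, jM, fromBlocks_multiply]
  simp only [add_mul, mul_add, Matrix.one_mul, Matrix.mul_one, Matrix.single_mul_single_same, Matrix.mul_apply,
    Fin.sum_univ_two]
  congr 1 <;> (ext r s; simp only [Matrix.add_apply, Matrix.one_apply, Matrix.single_apply]; split_ifs <;> ring)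

lemma coe_tau_jM (c : K) : ((tau (Matrix.single ℓ ℓ c) (by simp) : Sp m K) : M K m) = jM ℓ !![1, c; 0, 1] := by
  rw [coe_tau, jM]
  simp

lemma coe_wE_jM : ((wE ℓ : Sp m K) : M K m) = jM ℓ !![0, -1; 1, 0] := by
  rw [coe_wE, jM]
  simp [sub_eq_add_neg, Matrix.single_neg]

lemma wE_inv_eq : (wE ℓ : Sp m K)⁻¹ = wE ℓ * wE ℓ * wE ℓ := by
  apply inv_eq_of_mul_eq_one_right
  apply Subtype.ext
  simp only [Submonoid.coe_mul, coe_wE_jM, jM_mul]
  have e : (!![0, -1; 1, 0] * (!![0, -1; 1, 0] * !![0, -1; 1, 0] * !![0, -1; 1, 0]) : Matrix (Fin 2) (Fin 2) K) = 1 := by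
    ext k l
    fin_cases k <;> fin_cases l <;> simp [Matrix.mul_apply, Fin.sum_univ_two]
  rw [e, jM]
  simp

lemma coe_wE_inv_jM : (((wE ℓ : Sp m K)⁻¹ : Sp m K) : M K m) = jM ℓ !![0, 1; -1, 0] := by
  rw [wE_inv_eq]
  simp only [Submonoid.coe_mul, coe_wE_jM, jM_mul]
  congr 1
  ext k l
  fin_cases k <;> fin_cases l <;> simp [Matrix.mul_apply, Fin.sum_univ_two]

lemma coe_wE_inv : (((wE ℓ : Sp m K)⁻¹ : Sp m K) : M K m) =
    fromBlocks (1 - Matrix.single ℓ ℓ 1) (Matrix.single ℓ ℓ 1) (-Matrix.single ℓ ℓ 1) (1 - Matrix.single ℓ ℓ 1) := by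
  rw [coe_wE_inv_jM, jM]
  simp [sub_eq_add_neg, Matrix.single_neg]

/-- The negative long root element. -/
def tm (b : K) : Sp m K := wE ℓ * tau (Matrix.single ℓ ℓ (-b)) (by simp) * (wE ℓ)⁻¹

lemma coe_tm_jM (b : K) : ((tm ℓ b : Sp m K) : M K m) = jM ℓ !![1, 0; b, 1] := by
  rw [tm, Submonoid.coe_mul, Submonoid.coe_mul, coe_wE_inv_jM, coe_wE_jM, coe_tau_jM, jM_mul, jM_mul]
  congr 1
  ext k l
  fin_cases k <;> fin_cases l <;> simp [Matrix.mul_apply, Fin.sum_univ_two]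

/-- The diagonal of the long torus element. -/
def dL (a : K) : Fin m → K := fun k => if k = ℓ then a else 1

lemma dL_ne {a : K} (ha : a ≠ 0) (k : Fin m) : dL ℓ a k ≠ 0 := by
  simp only [dL]
  split_ifs
  · exact ha
  · exact one_ne_zero

/-- The torus element of the long simple root. -/
def tL (a : K) (ha : a ≠ 0) : Sp m K :=
  phi (Matrix.diagonal (dL ℓ a)) (Matrix.diagonal (fun k => (dL ℓ a k)⁻¹)) (diag_mul_inv (dL_ne ℓ ha))

lemma diag_eq_single (c : K) : Matrix.diagonal (fun k => if k = ℓ then c else 1) = 1 + Matrix.single ℓ ℓ (c - 1) := by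
  ext r s
  by_cases h : r = s
  · subst h
    by_cases h2 : r = ℓ
    · subst h2
      simp
    · simp [h2, Matrix.single_apply, Ne.symm h2]
  · simp [h, Matrix.single_apply, Matrix.one_apply]
    intro h2 h3
    exact absurd (h2.symm.trans h3) h

lemma coe_tL_jM {a : K} (ha : a ≠ 0) : ((tL ℓ a ha : Sp m K) : M K m) = jM ℓ !![a, 0; 0, a⁻¹] := by
  rw [tL, coe_phi, jM]
  have e1 : Matrix.diagonal (dL ℓ a) = 1 + Matrix.single ℓ ℓ (a - 1) := diag_eq_single ℓ a
  have e2 : (Matrix.diagonal (fun k => (dL ℓ a k)⁻¹))ᵀ = 1 + Matrix.single ℓ ℓ (a⁻¹ - 1) := by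
    rw [Matrix.diagonal_transpose, ← diag_eq_single ℓ a⁻¹]
    congr 1
    ext k
    simp only [dL]
    split_ifs <;> simp
  rw [e1, e2]
  simp

lemma tL_eq {a : K} (ha : a ≠ 0) :
    tL ℓ a ha = tau (Matrix.single ℓ ℓ a) (by simp) * tm ℓ (-a⁻¹) * tau (Matrix.single ℓ ℓ a) (by simp) *
      (tau (Matrix.single ℓ ℓ (-1)) (by simp) * tm ℓ 1 * tau (Matrix.single ℓ ℓ (-1)) (by simp)) := by
  apply Subtype.ext
  simp only [Submonoid.coe_mul, coe_tm_jM, coe_tau_jM, coe_tL_jM, jM_mul]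
  congr 1
  ext k l
  fin_cases k <;> fin_cases l <;> simp [Matrix.mul_apply, Fin.sum_univ_two, ha] <;> field_simp <;> ring

end jm

variable [Fintype K]

/-! ### The parabolic of the long simple root -/

section long

variable {ℓ : Fin m} (hℓ : (ℓ : ℕ) + 1 = m)

include hℓ

lemma row_last {u : Sp m K} (hu : u ∈ Uc K m) (s : Fin m) : aB u ℓ s = if s = ℓ then 1 else 0 := by
  by_cases h : s = ℓ
  · rw [h, if_pos rfl, hu.2.2]
  · rw [if_neg h]
    apply hu.2.1
    rw [Fin.lt_def]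
    have h1 : (s : ℕ) ≠ ℓ := fun e => h (Fin.ext e)
    have h2 := s.2
    omega

lemma col_last {u : Sp m K} (hu : u ∈ Uc K m) (r : Fin m) : dB u r ℓ = if r = ℓ then 1 else 0 := by
  rw [dB_eq (Uc_le_Bc hu), transpose_apply]
  exact row_last hℓ ((Uc K m).inv_mem hu) r

lemma coordB_mul {u v : Sp m K} (hu : u ∈ Uc K m) (hv : v ∈ Uc K m) : bB (u * v) ℓ ℓ = bB u ℓ ℓ + bB v ℓ ℓ := by
  rw [bB_mul, Matrix.add_apply, Matrix.mul_apply, Matrix.mul_apply]
  simp only [row_last hℓ hu, col_last hℓ hv]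
  simp [add_comm]

lemma coordB_inv {u : Sp m K} (hu : u ∈ Uc K m) : bB u⁻¹ ℓ ℓ = - bB u ℓ ℓ := by
  have h1 := coordB_mul hℓ hu ((Uc K m).inv_mem hu)
  rw [mul_inv_cancel, bB_one, Matrix.zero_apply] at h1
  linear_combination -h1

omit hℓ in
/-- The kernel of the long coordinate. -/
def Al (ℓ : Fin m) (hℓ : (ℓ : ℕ) + 1 = m) : Subgroup (Sp m K) where
  carrier := {u | u ∈ Uc K m ∧ bB u ℓ ℓ = 0}
  mul_mem' := by
    rintro a b ⟨ha, ha'⟩ ⟨hb, hb'⟩
    exact ⟨(Uc K m).mul_mem ha hb, by rw [coordB_mul hℓ ha hb, ha', hb', add_zero]⟩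
  one_mem' := ⟨(Uc K m).one_mem, by rw [bB_one, Matrix.zero_apply]⟩
  inv_mem' := by
    rintro a ⟨ha, ha'⟩
    exact ⟨(Uc K m).inv_mem ha, by rw [coordB_inv hℓ ha, ha', neg_zero]⟩

lemma Al_le : Al (K := K) ℓ hℓ ≤ Uc K m := fun _ h => h.1

lemma nz_Al_of_mem {s : Sp m K} (hs : s ∈ Uc K m) : Nz (Al (K := K) ℓ hℓ) s := by
  rintro u ⟨hu, hu'⟩
  refine ⟨(Uc K m).mul_mem ((Uc K m).mul_mem hs hu) ((Uc K m).inv_mem hs), ?_⟩
  rw [coordB_mul hℓ ((Uc K m).mul_mem hs hu) ((Uc K m).inv_mem hs), coordB_mul hℓ hs hu, hu', coordB_inv hℓ hs]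
  ring

omit hℓ in
lemma nz_Uc_tL {a : K} (ha : a ≠ 0) : Nz (Uc K m) (tL ℓ a ha) := by
  intro u hu
  obtain ⟨h1, h2, -⟩ := conj_phi (Matrix.diagonal (dL ℓ a)) (Matrix.diagonal (fun k => (dL ℓ a k)⁻¹))
    (diag_mul_inv (dL_ne ℓ ha)) hu.1
  refine ⟨h1, ?_, ?_⟩
  · intro k l hlk
    rw [tL, h2, Matrix.mul_diagonal, Matrix.diagonal_mul, hu.2.1 k l hlk]
    simp
  · intro k
    rw [tL, h2, Matrix.mul_diagonal, Matrix.diagonal_mul, hu.2.2 k]
    simp [dL_ne ℓ ha]

lemma nz_Al_tL {a : K} (ha : a ≠ 0) : Nz (Al (K := K) ℓ hℓ) (tL ℓ a ha) := by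
  rintro u ⟨hu, hu'⟩
  refine ⟨nz_Uc_tL ha u hu, ?_⟩
  obtain ⟨-, -, h3⟩ := conj_phi (Matrix.diagonal (dL ℓ a)) (Matrix.diagonal (fun k => (dL ℓ a k)⁻¹))
    (diag_mul_inv (dL_ne ℓ ha)) hu.1
  rw [tL, h3, Matrix.diagonal_transpose, Matrix.mul_diagonal, Matrix.diagonal_mul, hu']
  simp

omit hℓ in
lemma E_mul (X : M₀ K m) (r s : Fin m) : (Matrix.single ℓ ℓ (1 : K) * X) r s = if r = ℓ then X ℓ s else 0 := by
  by_cases h : r = ℓ
  · rw [h, if_pos rfl, Matrix.single_mul_apply_same, one_mul]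
  · rw [if_neg h, Matrix.single_mul_apply_of_ne _ _ _ _ _ h]

omit hℓ in
lemma mul_E (X : M₀ K m) (r s : Fin m) : (X * Matrix.single ℓ ℓ (1 : K)) r s = if s = ℓ then X r ℓ else 0 := by
  by_cases h : s = ℓ
  · rw [h, if_pos rfl, Matrix.mul_single_apply_same, mul_one]
  · rw [if_neg h, Matrix.mul_single_apply_of_ne _ _ _ _ _ h]

omit hℓ in
lemma cE_mul (X : M₀ K m) (r s : Fin m) : ((1 - Matrix.single ℓ ℓ (1 : K)) * X) r s = if r = ℓ then 0 else X r s := by
  rw [sub_mul, Matrix.one_mul, Matrix.sub_apply, E_mul]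
  split_ifs with h
  · rw [h, sub_self]
  · rw [sub_zero]

omit hℓ in
lemma mul_cE (X : M₀ K m) (r s : Fin m) : (X * (1 - Matrix.single ℓ ℓ (1 : K))) r s = if s = ℓ then 0 else X r s := by
  rw [mul_sub, Matrix.mul_one, Matrix.sub_apply, mul_E]
  split_ifs with h
  · rw [h, sub_self]
  · rw [sub_zero]

/-- The Weyl element normalizes the kernel of the long coordinate. -/
lemma nz_Al_wE : Nz (Al (K := K) ℓ hℓ) (wE ℓ) := by
  rintro u ⟨hu, hu'⟩
  have hC := hu.1
  have e : ((wE ℓ * u * (wE ℓ)⁻¹ : Sp m K) : M K m) =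
      fromBlocks (1 - Matrix.single ℓ ℓ 1) (-Matrix.single ℓ ℓ 1) (Matrix.single ℓ ℓ 1) (1 - Matrix.single ℓ ℓ 1) *
      fromBlocks (aB u) (bB u) 0 (dB u) *
      fromBlocks (1 - Matrix.single ℓ ℓ 1) (Matrix.single ℓ ℓ 1) (-Matrix.single ℓ ℓ 1) (1 - Matrix.single ℓ ℓ 1) := by
    rw [Submonoid.coe_mul, Submonoid.coe_mul, coe_wE, coe_wE_inv, eq_blocks u, hC]
  rw [fromBlocks_multiply, fromBlocks_multiply] at e
  simp only [Matrix.mul_zero, add_zero, Matrix.neg_mul, Matrix.mul_neg] at e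
  have hA : ∀ r s, aB (wE ℓ * u * (wE ℓ)⁻¹) r s = (if s = ℓ then 0 else if r = ℓ then 0 else aB u r s) +
      -(if s = ℓ then (if r = ℓ then 0 else bB u r ℓ) + -(if r = ℓ then dB u ℓ ℓ else 0) else 0) := fun r s => by
    rw [aB, e, toBlocks_fromBlocks₁₁]
    simp only [Matrix.add_apply, Matrix.neg_apply, mul_cE, mul_E, cE_mul, E_mul]
  have hB : ∀ r s, bB (wE ℓ * u * (wE ℓ)⁻¹) r s = (if s = ℓ then (if r = ℓ then 0 else aB u r ℓ) else 0) +
      (if s = ℓ then 0 else (if r = ℓ then 0 else bB u r s) + -(if r = ℓ then dB u ℓ s else 0)) := fun r s => by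
    rw [bB, e, toBlocks_fromBlocks₁₂]
    simp only [Matrix.add_apply, Matrix.neg_apply, mul_cE, mul_E, cE_mul, E_mul]
  have hCC : ∀ r s, cB (wE ℓ * u * (wE ℓ)⁻¹) r s = (if s = ℓ then 0 else if r = ℓ then aB u ℓ s else 0) +
      -(if s = ℓ then (if r = ℓ then bB u ℓ ℓ else 0) + (if r = ℓ then 0 else dB u r ℓ) else 0) := fun r s => by
    rw [cB, e, toBlocks_fromBlocks₂₁]
    simp only [Matrix.add_apply, Matrix.neg_apply, mul_cE, mul_E, cE_mul, E_mul]
  have hmax : ∀ k : Fin m, k ≤ ℓ := by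
    intro k
    rw [Fin.le_def]
    have := k.2
    omega
  refine ⟨⟨?_, ?_, ?_⟩, ?_⟩
  · ext r s
    rw [hCC, Matrix.zero_apply]
    by_cases hs : s = ℓ
    · rw [if_pos hs, if_pos hs]
      by_cases hr : r = ℓ
      · rw [if_pos hr, if_pos hr, hu']
        simp
      · rw [if_neg hr, if_neg hr, col_last hℓ hu, if_neg hr]
        simp
    · rw [if_neg hs, if_neg hs]
      by_cases hr : r = ℓ
      · rw [if_pos hr, row_last hℓ hu, if_neg hs]
        simp
      · rw [if_neg hr]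
        simp
  · intro k l hlk
    have hl : l ≠ ℓ := fun e => absurd (hmax k) (by rw [e] at hlk; exact not_le.mpr hlk)
    rw [hA, if_neg hl, if_neg hl]
    by_cases hk : k = ℓ
    · rw [if_pos hk]
      simp
    · rw [if_neg hk, hu.2.1 k l hlk]
      simp
  · intro k
    rw [hA]
    by_cases hk : k = ℓ
    · rw [if_pos hk, if_pos hk, if_pos hk, if_pos hk, col_last hℓ hu]
      simp
    · rw [if_neg hk, if_neg hk, if_neg hk, hu.2.2]
      simp
  · rw [hB]
    simp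

/-- The torus element of the long simple root is good. -/
theorem tL_good (hm : 2 ≤ m) {a : K} (ha : a ≠ 0) :
    ParaGood ((Uc K m).map toP) (toP (tL ℓ a ha)) := by
  have hsh : ∀ j k (h : j ≠ k), tau (Matrix.single j k (1 : K) + Matrix.single k j 1) (sym_short j k 1) ∈ Al (K := K) ℓ hℓ := by
    intro j k h
    refine ⟨tau_mem_Uc _ _, ?_⟩
    rw [bB_tau, Matrix.add_apply, Matrix.single_apply_of_ne, Matrix.single_apply_of_ne, add_zero]
    · rintro ⟨h1, h2⟩
      exact h (h2.trans h1.symm)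
    · rintro ⟨h1, h2⟩
      exact h (h1.trans h2.symm)
  refine ⟨(Al (K := K) ℓ hℓ).map toP, Subgroup.map_mono (Al_le hℓ), ?_, ?_, ?_, ?_, ?_⟩
  · rintro _ ⟨s, hs, rfl⟩
    exact nz_map_hom toP (nz_Al_of_mem hℓ hs)
  · exact nz_map_hom toP (nz_Al_tL hℓ ha)
  · exact nz_map_hom toP (nz_Uc_tL ha)
  · refine ⟨_, ?_, fun _ _ => rfl⟩
    have hx : ∀ c : K, toP (tau (Matrix.single ℓ ℓ c) (by simp)) ∈
        Subgroup.closure (Gen ((Uc K m).map toP) ((Al (K := K) ℓ hℓ).map toP)) := by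
      intro c
      apply Subgroup.subset_closure
      exact ⟨1, Nz.one _, toP (tau (Matrix.single ℓ ℓ c) (by simp)), ⟨_, tau_mem_Uc _ _, rfl⟩, by simp⟩
    have hy : ∀ c : K, toP (tm ℓ c) ∈
        Subgroup.closure (Gen ((Uc K m).map toP) ((Al (K := K) ℓ hℓ).map toP)) := by
      intro c
      apply Subgroup.subset_closure
      refine ⟨toP (wE ℓ), nz_map_hom toP (nz_Al_wE hℓ), toP (tau (Matrix.single ℓ ℓ (-c)) (by simp)),
        ⟨_, tau_mem_Uc _ _, rfl⟩, ?_⟩
      rw [tm]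
      simp only [map_mul, map_inv]
    rw [tL_eq]
    simp only [map_mul]
    exact Subgroup.mul_mem _ (Subgroup.mul_mem _ (Subgroup.mul_mem _ (hx _) (hy _)) (hx _))
      (Subgroup.mul_mem _ (Subgroup.mul_mem _ (hx _) (hy _)) (hx _))
  · intro n hn hna
    obtain ⟨g, rfl⟩ := QuotientGroup.mk'_surjective _ n
    have hgB := mem_Bc_of_nz (by omega) hn
    refine ⟨_, mem_P_long hm hgB ?_ ?_, fun _ _ => rfl⟩
    · intro j k h
      have hmem : xE j k h.ne (1 : K) ∈ Al (K := K) ℓ hℓ :=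
        ⟨xE_mem_Uc h 1, by rw [xE, bB_phi, Matrix.zero_apply]⟩
      have h1 := hna _ ⟨_, hmem, rfl⟩
      exact comm_of_pi (by omega) hgB hmem.1 (by simpa only [map_mul, map_inv] using h1)
    · intro j k h
      have hmem := hsh j k h
      have h1 := hna _ ⟨_, hmem, rfl⟩
      exact comm_of_pi (by omega) hgB hmem.1 (by simpa only [map_mul, map_inv] using h1)

end long

/-- The elements of `B` are in the group generated by `U` and the torus. -/
theorem mem_closure_of_Bc (hm : 1 ≤ m) {C : Subgroup (Cfsg.PSp m K)}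
    (hU : ∀ u ∈ Uc K m, toP u ∈ C)
    (hh' : ∀ (i i' : Fin m) (hi : (i' : ℕ) = i + 1) (a : K), a ≠ 0 → toP (phiS (hh i i' (ne_of_succ hi) a)) ∈ C)
    (hL : ∀ (ℓ : Fin m) (_ : (ℓ : ℕ) + 1 = m) (a : K) (ha : a ≠ 0), toP (tL ℓ a ha) ∈ C)
    {g : Sp m K} (hg : g ∈ Bc K m) : toP g ∈ C := by
  classical
  have hne : ∀ {g : Sp m K}, g ∈ Bc K m → ∀ k, aB g k k ≠ 0 := by
    intro g hg k h0
    have := diag_inv hg k
    rw [h0, zero_mul] at this
    exact zero_ne_one this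
  have key : ∀ t : ℕ, ∀ g ∈ Bc K m, (∀ j : Fin m, (j : ℕ) + 1 + t < m → aB g j j = 1) → toP g ∈ C := by
    intro t
    induction t with
    | zero =>
      intro g hg h1
      let ℓ : Fin m := ⟨m - 1, by omega⟩
      have hℓ : (ℓ : ℕ) + 1 = m := by
        show m - 1 + 1 = m
        omega
      set a := aB g ℓ ℓ with ha_def
      have ha : a ≠ 0 := hne hg ℓ
      have ha' : a⁻¹ ≠ 0 := inv_ne_zero ha
      have hc : cB (tL ℓ a⁻¹ ha') = 0 := cB_phi _ _ _
      have hA : aB (tL ℓ a⁻¹ ha') = Matrix.diagonal (dL ℓ a⁻¹) := aB_phi _ _ _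
      have h3 : tL ℓ a⁻¹ ha' * g ∈ Uc K m := by
        refine ⟨?_, ?_, ?_⟩
        · rw [cB_mul, hc, hg.1]
          simp
        · rw [aB_mul_of_C0 _ hg.1, hA]
          intro k l hlk
          rw [Matrix.diagonal_mul, hg.2 k l hlk, mul_zero]
        · intro k
          rw [aB_mul_of_C0 _ hg.1, hA, Matrix.diagonal_mul]
          by_cases hk : k = ℓ
          · rw [hk]
            simp only [dL, if_true]
            exact inv_mul_cancel₀ ha
          · simp only [dL, if_neg hk, one_mul]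
            apply h1
            have h5 : (k : ℕ) ≠ ℓ := fun e => hk (Fin.ext e)
            have h6 := k.2
            omega
      have h5 := C.mul_mem (C.inv_mem (hL ℓ hℓ a⁻¹ ha')) (hU _ h3)
      rw [← map_inv, ← map_mul] at h5
      simpa using h5
    | succ t ih =>
      intro g hg h1
      by_cases ht : m < t + 2
      · apply ih g hg
        intro j hj
        have := j.2
        omega
      · have hk1 : m - 2 - t < m := by omega
        have hk2 : m - 1 - t < m := by omega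
        let k : Fin m := ⟨m - 2 - t, hk1⟩
        let k' : Fin m := ⟨m - 1 - t, hk2⟩
        have hkk : (k' : ℕ) = k + 1 := by
          show m - 1 - t = m - 2 - t + 1
          omega
        have hne' := ne_of_succ hkk
        set a := aB g k k with ha_def
        have ha : a ≠ 0 := hne hg k
        have ha' : a⁻¹ ≠ 0 := inv_ne_zero ha
        have hAe : aB (phiS (hh k k' hne' a⁻¹)) = ((hh k k' hne' a⁻¹ : Matrix.SpecialLinearGroup (Fin m) K) : M₀ K m) :=
          aB_phiS _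
        have h3 : phiS (hh k k' hne' a⁻¹) * g ∈ Bc K m := by
          refine ⟨?_, ?_⟩
          · rw [cB_mul, cB_phiS, hg.1]
            simp
          · rw [aB_mul_of_C0 _ hg.1, hAe]
            exact UT.mul (hh_mem_B hne' ha') hg.2
        have h4 := ih _ h3 (by
          intro j hj
          rw [aB_mul_of_C0 _ hg.1, hAe, UT.mul_diag (hh_mem_B hne' ha') hg.2, hh_diag hne' ha']
          by_cases hjk : (j : ℕ) = m - 2 - t
          · have : j = k := Fin.ext hjk
            subst this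
            simp only [dd, if_true]
            exact inv_mul_cancel₀ ha
          · have hj1 : j ≠ k := fun e => hjk (congrArg Fin.val e)
            have hj2 : j ≠ k' := by
              intro e
              have : (j : ℕ) = m - 1 - t := congrArg Fin.val e
              omega
            simp only [dd, if_neg hj1, if_neg hj2, one_mul]
            apply h1
            omega)
        have h5 := C.mul_mem (C.inv_mem (hh' k k' hkk a⁻¹ ha')) h4
        rw [← map_inv, ← map_mul] at h5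
        simpa using h5
  apply key m g hg
  intro j hj
  omega

/-- The main theorem. -/
theorem main (p : ℕ) [Fact p.Prime] [CharP K p] (hm : 2 ≤ m) (hex : m = 2 → 3 ≤ Fintype.card K)
    (R : Sylow p (Cfsg.PSp m K)) :
    (Cfsg.groupFusionSystem (R : Subgroup (Cfsg.PSp m K))).IsSimple p := by
  classical
  haveI : NeZero m := ⟨by omega⟩
  let P : Sylow p (Cfsg.PSp m K) :=
    (UcSyl (K := K) (m := m) p).mapSurjective (QuotientGroup.mk'_surjective _)
  have hP : (P : Subgroup (Cfsg.PSp m K)) = (Uc K m).map toP :=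
    Sylow.coe_mapSurjective (QuotientGroup.mk'_surjective _) _
  have hS1 : (P : Subgroup (Cfsg.PSp m K)) ≠ ⊥ := by
    intro h
    rw [hP] at h
    let f : Fin m := ⟨0, by omega⟩
    have h1 : toP (tau (Matrix.single f f (1 : K)) (by simp)) ∈ (Uc K m).map toP := ⟨_, tau_mem_Uc _ _, rfl⟩
    rw [h, Subgroup.mem_bot, ← map_one toP] at h1
    obtain ⟨c, hc⟩ := toP_eq (by omega) h1
    have h2 := congrFun (congrFun hc (Sum.inl f)) (Sum.inr f)
    rw [coe_tau] at h2
    simp at h2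
  apply Cfsg.Agent.Lib.H29.ParaFusion.simple_of_para P hS1 _ ({h | ∃ (i i' : Fin m) (hi : (i' : ℕ) = i + 1) (a : K), a ≠ 0 ∧
    h = toP (phiS (hh i i' (ne_of_succ hi) a))} ∪ {h | ∃ (ℓ : Fin m) (_ : (ℓ : ℕ) + 1 = m) (a : K) (ha : a ≠ 0),
      h = toP (tL ℓ a ha)}) _ _ R
  · -- strongly closed subgroups
    intro T hTP hT1 hTc
    rw [hP] at hTP hTc ⊢
    have hle : T.comap toP ⊓ Uc K m ≤ Uc K m := inf_le_right
    have hne : T.comap toP ⊓ Uc K m ≠ ⊥ := by
      intro h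
      apply hT1
      rw [eq_bot_iff]
      intro t ht
      obtain ⟨u, hu, rfl⟩ := hTP ht
      have : u ∈ T.comap toP ⊓ Uc K m := ⟨ht, hu⟩
      rw [h, Subgroup.mem_bot] at this
      rw [this, map_one]
      exact Subgroup.one_mem _
    have hcl : ∀ x ∈ T.comap toP ⊓ Uc K m, ∀ g, g * x * g⁻¹ ∈ Uc K m → g * x * g⁻¹ ∈ T.comap toP ⊓ Uc K m := by
      rintro x ⟨hx, -⟩ g hg
      refine ⟨?_, hg⟩
      show toP (g * x * g⁻¹) ∈ T
      rw [map_mul, map_mul, map_inv]
      apply hTc _ hx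
      refine ⟨_, hg, ?_⟩
      simp only [map_mul, map_inv]
    have hE := closed_eq_Uc p hm hex hle hne hcl
    apply le_antisymm hTP
    rintro _ ⟨u, hu, rfl⟩
    rw [← hE] at hu
    exact hu.1
  · rintro _ (⟨i, i', hi, a, ha, rfl⟩ | ⟨ℓ, hℓ, a, ha, rfl⟩)
    · rw [hP]
      exact hh_good' hm hi ha
    · rw [hP]
      exact tL_good hℓ hm ha
  · intro g hg
    obtain ⟨ĝ, rfl⟩ := QuotientGroup.mk'_surjective _ g
    rw [hP] at hg
    have hB := mem_Bc_of_nz (by omega) hg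
    apply mem_closure_of_Bc (by omega) _ _ _ hB
    · intro u hu
      apply Subgroup.subset_closure
      left
      show toP u ∈ (P : Subgroup (Cfsg.PSp m K))
      rw [hP]
      exact ⟨u, hu, rfl⟩
    · intro i i' hi a ha
      apply Subgroup.subset_closure
      right
      left
      exact ⟨i, i', hi, a, ha, rfl⟩
    · intro ℓ hℓ a ha
      apply Subgroup.subset_closure
      right
      right
      exact ⟨ℓ, hℓ, a, ha, rfl⟩

end Cfsg.Agent.Lib.H29.SpA
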