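import Cfsg.Agent.Lib.H29.LinD

/-!
# The unitary group of the antidiagonal Hermitian form in matrices

All matrices are indexed by `Fin n`; the form is `H(u, v) = ∑ i, u i * σ (v (rev i))`.
-/

set_option autoImplicit false

namespace Cfsg.Agent.Lib.H29.SuA

open Matrix Fin Cfsg.Agent.Lib.H29.ParaFusion Cfsg.Agent.Lib.H29.LinA

variable {K : Type*} [Field K] {n : ℕ}

/-- The matrices. -/
abbrev Mt (K : Type*) (n : ℕ) := Matrix (Fin n) (Fin n) K

/-- The groups. -/
abbrev SLn (K : Type*) [Field K] (n : ℕ) := Matrix.SpecialLinearGroup (Fin n) K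

/-- The adjoint with respect to the form. -/
def adj (σ : K →+* K) (A : Mt K n) : Mt K n := Matrix.of fun k l => σ (A (rev l) (rev k))

section adj

variable (σ : K →+* K)

lemma adj_apply (A : Mt K n) (k l : Fin n) : adj σ A k l = σ (A (rev l) (rev k)) := rfl

lemma adj_mul (A B : Mt K n) : adj σ (A * B) = adj σ B * adj σ A := by
  ext k l
  rw [adj_apply, Matrix.mul_apply, Matrix.mul_apply, map_sum, ← Equiv.sum_comp Fin.revPerm]
  apply Finset.sum_congr rfl
  intro s _
  simp only [Fin.revPerm_apply, adj_apply, rev_rev, map_mul]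
  exact mul_comm _ _

lemma adj_one : adj σ (1 : Mt K n) = 1 := by
  ext k l
  rw [adj_apply]
  by_cases h : k = l
  · subst h
    simp
  · rw [Matrix.one_apply_ne h, Matrix.one_apply_ne (fun e => h (rev_inj.mp e.symm)), map_zero]

lemma adj_add (A B : Mt K n) : adj σ (A + B) = adj σ A + adj σ B := by
  ext k l
  simp [adj_apply]

lemma adj_single (a b : Fin n) (c : K) : adj σ (Matrix.single a b c) = Matrix.single (rev b) (rev a) (σ c) := by
  ext k l
  rw [adj_apply]
  by_cases h : rev b = k ∧ rev a = l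
  · obtain ⟨rfl, rfl⟩ := h
    simp
  · rw [Matrix.single_apply_of_ne _ _ _ _ _ h, Matrix.single_apply_of_ne, map_zero]
    rintro ⟨rfl, rfl⟩
    exact h ⟨rev_rev _, rev_rev _⟩

end adj

variable [Fintype K] (σ : K →+* K)

/-- The unitary group, inside `SL_n`. -/
def G (σ : K →+* K) (n : ℕ) : Subgroup (SLn K n) :=
  let S : Submonoid (SLn K n) :=
    { carrier := {A | adj σ (A : Mt K n) * (A : Mt K n) = 1}
      mul_mem' := by
        intro a b ha hb
        show adj σ ((a * b : SLn K n) : Mt K n) * ((a * b : SLn K n) : Mt K n) = 1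
        rw [Matrix.SpecialLinearGroup.coe_mul, adj_mul]
        have e : adj σ (b : Mt K n) * adj σ (a : Mt K n) * ((a : Mt K n) * (b : Mt K n)) =
            adj σ (b : Mt K n) * (adj σ (a : Mt K n) * (a : Mt K n)) * (b : Mt K n) := by
          simp only [Matrix.mul_assoc]
        rw [e, ha, Matrix.mul_one]
        exact hb
      one_mem' := by
        show adj σ ((1 : SLn K n) : Mt K n) * ((1 : SLn K n) : Mt K n) = 1
        rw [Matrix.SpecialLinearGroup.coe_one, adj_one, Matrix.mul_one] }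
  { S with
    inv_mem' := by
      intro g hg
      rw [inv_eq_pow']
      exact S.pow_mem hg _ }

variable {σ}

lemma mem_G {A : SLn K n} : A ∈ G σ n ↔ adj σ (A : Mt K n) * (A : Mt K n) = 1 := Iff.rfl

lemma adj_eq_inv {A : SLn K n} (hA : A ∈ G σ n) : adj σ (A : Mt K n) = ((A⁻¹ : SLn K n) : Mt K n) := by
  have h1 : (A : Mt K n) * ((A⁻¹ : SLn K n) : Mt K n) = 1 := by
    rw [← Matrix.SpecialLinearGroup.coe_mul, mul_inv_cancel, Matrix.SpecialLinearGroup.coe_one]
  calc adj σ (A : Mt K n) = adj σ (A : Mt K n) * ((A : Mt K n) * ((A⁻¹ : SLn K n) : Mt K n)) := by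
        rw [h1, Matrix.mul_one]
    _ = _ := by rw [← Matrix.mul_assoc, mem_G.mp hA, Matrix.one_mul]

lemma inv_apply_G {A : SLn K n} (hA : A ∈ G σ n) (k l : Fin n) :
    ((A⁻¹ : SLn K n) : Mt K n) k l = σ ((A : Mt K n) (rev l) (rev k)) := by
  rw [← adj_eq_inv hA, adj_apply]

/-- The unitriangular subgroup. -/
def UJ (σ : K →+* K) (n : ℕ) : Subgroup (SLn K n) := U K n ⊓ G σ n

/-- The Borel subgroup. -/
def BJ (σ : K →+* K) (n : ℕ) : Subgroup (SLn K n) := B K n ⊓ G σ n

lemma UJ_le_BJ : UJ σ n ≤ BJ σ n := fun _ h => ⟨U_le_B h.1, h.2⟩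

/-- Vanishing below a given distance gives the mirror relation. -/
lemma mirror_of_vanish {u : SLn K n} (hu : u ∈ UJ σ n) {k l : Fin n} (hkl : k < l)
    (hv : ∀ t : Fin n, k < t → t < l → (u : Mt K n) t l = 0) :
    (u : Mt K n) k l + σ ((u : Mt K n) (rev l) (rev k)) = 0 := by
  classical
  have h1 := congrFun (congrFun (mem_G.mp hu.2) k) l
  rw [Matrix.mul_apply, Matrix.one_apply_ne hkl.ne, Finset.sum_eq_add k l hkl.ne] at h1
  · rw [adj_apply, adj_apply, hu.1.2, map_one, one_mul, hu.1.2, mul_one] at h1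
    exact h1
  · intro t _ ht
    by_cases h2 : t < k
    · rw [adj_apply, hu.1.1 _ _ (rev_lt_rev.mpr h2), map_zero, zero_mul]
    · by_cases h3 : l < t
      · rw [hu.1.1 _ _ h3, mul_zero]
      · have h4 : k < t := lt_of_le_of_ne (not_lt.mp h2) (Ne.symm ht.1)
        have h5 : t < l := lt_of_le_of_ne (not_lt.mp h3) ht.2
        rw [hv t h4 h5, mul_zero]
  · simp
  · simp

/-- An element normalizing a subgroup of `U` hitting every superdiagonal position is upper triangular. -/
theorem mem_B_of_normalizes {Q : Subgroup (SLn K n)} (hQ : Q ≤ U K n)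
    (hsup : ∀ i j : Fin n, (j : ℕ) = i + 1 → ∃ u ∈ Q, (u : Mt K n) i j ≠ 0) {g : SLn K n}
    (hg : ∀ u ∈ Q, g⁻¹ * u * g ∈ Q) : g ∈ B K n := by
  classical
  have key : ∀ L : ℕ, ∀ l : Fin n, (l : ℕ) = L → ∀ k, l < k → (g : Mt K n) k l = 0 := by
    intro L
    induction L using Nat.strong_induction_on with
    | _ L ihL =>
      intro l hl
      have ih1 : ∀ t : Fin n, t < l → ∀ k, t < k → (g : Mt K n) k t = 0 := by
        intro t ht k htk
        apply ihL (t : ℕ) _ t rfl k htk
        rw [← hl]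
        exact ht
      have key2 : ∀ M : ℕ, ∀ k : Fin n, n - (k : ℕ) = M → l < k → (g : Mt K n) k l = 0 := by
        intro M
        induction M using Nat.strong_induction_on with
        | _ M ihM =>
          intro k hk hlk
          have ih2 : ∀ t : Fin n, k < t → (g : Mt K n) t l = 0 := by
            intro t ht
            apply ihM (n - (t : ℕ)) _ t rfl (lt_trans hlk ht)
            rw [← hk]
            have h1 := t.2
            have h2 : (k : ℕ) < t := ht
            omega
          have hk0 : 0 < (k : ℕ) := lt_of_le_of_lt (Nat.zero_le _) hlk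
          let i : Fin n := ⟨k - 1, by have := k.2; omega⟩
          have hik : i < k := by
            rw [Fin.lt_def]
            show (k : ℕ) - 1 < k
            omega
          have hli : l ≤ i := by
            rw [Fin.le_def]
            show (l : ℕ) ≤ k - 1
            have : (l : ℕ) < k := hlk
            omega
          obtain ⟨u, hu, hue⟩ := hsup i k (by show (k : ℕ) = k - 1 + 1; omega)
          have hu' := hg u hu
          set v := g⁻¹ * u * g with hv
          have huU := hQ hu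
          have hvU := hQ hu'
          have hgv : (u : Mt K n) * (g : Mt K n) = (g : Mt K n) * (v : Mt K n) := by
            have e : u * g = g * v := by
              rw [hv]
              group
            rw [← Matrix.SpecialLinearGroup.coe_mul, ← Matrix.SpecialLinearGroup.coe_mul, e]
          have h1 := congrFun (congrFun hgv i) l
          rw [Matrix.mul_apply, Matrix.mul_apply, Finset.sum_eq_add i k hik.ne, Finset.sum_eq_single l] at h1
          · rw [huU.2, hvU.2, one_mul, mul_one] at h1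
            have h2 : (u : Mt K n) i k * (g : Mt K n) k l = 0 := by
              linear_combination h1
            exact (mul_eq_zero.mp h2).resolve_left hue
          · intro t _ ht
            by_cases h3 : t < l
            · rw [ih1 t h3 i (lt_of_lt_of_le h3 hli), zero_mul]
            · have h4 : l < t := lt_of_le_of_ne (not_lt.mp h3) (Ne.symm ht)
              rw [hvU.1 _ _ h4, mul_zero]
          · simp
          · intro t _ ht
            by_cases h3 : t < i
            · rw [huU.1 _ _ h3, zero_mul]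
            · have h4 : i < t := lt_of_le_of_ne (not_lt.mp h3) (Ne.symm ht.1)
              have h5 : k < t := by
                rw [Fin.lt_def] at h4 ⊢
                have h6 : (t : ℕ) ≠ k := fun e => ht.2 (Fin.ext e)
                have h7 : (i : ℕ) = k - 1 := rfl
                omega
              rw [ih2 t h5, mul_zero]
          · simp
          · simp
      intro k hlk
      exact key2 _ k rfl hlk
  intro k l hlk
  exact key _ l rfl k hlk

section invol

variable (hσ : ∀ x, σ (σ x) = x)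

/-- The short root elements. -/
def xS (σ : K →+* K) (i j : Fin n) (h : i ≠ j) (c : K) : SLn K n :=
  X i j h c * X (rev j) (rev i) (fun e => h (rev_inj.mp e).symm) (-σ c)

omit [Fintype K] in
lemma rev_ne_rev {i j : Fin n} (h : i ≠ j) : rev j ≠ rev i := fun e => h (rev_inj.mp e).symm

lemma coe_xS {i j : Fin n} (h : i ≠ j) (hj : j ≠ rev j) (c : K) :
    ((xS σ i j h c : SLn K n) : Mt K n) = 1 + Matrix.single i j c + Matrix.single (rev j) (rev i) (-σ c) := by
  rw [xS, Matrix.SpecialLinearGroup.coe_mul, coe_X, coe_X, mul_add, add_mul, add_mul, Matrix.one_mul, Matrix.one_mul,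
    Matrix.mul_one, Matrix.single_mul_single_of_ne _ _ _ _ hj, add_zero, add_assoc]

include hσ in
lemma xS_mem_G {i j : Fin n} (h : i ≠ j) (hi : i ≠ rev i) (hj : j ≠ rev j) (hij : i ≠ rev j) (c : K) :
    xS σ i j h c ∈ G σ n := by
  rw [mem_G, coe_xS h hj, adj_add, adj_add, adj_one, adj_single, adj_single, rev_rev, rev_rev, map_neg, hσ]
  have h1 : rev i ≠ rev j := fun e => h (rev_inj.mp e)
  simp only [mul_add, add_mul, Matrix.one_mul, Matrix.mul_one,
    Matrix.single_mul_single_of_ne _ _ _ _ hi.symm, Matrix.single_mul_single_of_ne _ _ _ _ h1,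
    Matrix.single_mul_single_of_ne _ _ _ _ h.symm, Matrix.single_mul_single_of_ne _ _ _ _ hj, add_zero]
  simp only [← Matrix.single_neg]
  abel

lemma xS_mem_U {i j : Fin n} (h : i < j) (c : K) : xS σ i j h.ne c ∈ U K n :=
  (U K n).mul_mem (X_mem_U h c) (X_mem_U (rev_lt_rev.mpr h) _)

include hσ in
lemma xS_mem_UJ {i j : Fin n} (h : i < j) (hi : i ≠ rev i) (hj : j ≠ rev j) (hij : i ≠ rev j) (c : K) :
    xS σ i j h.ne c ∈ UJ σ n := ⟨xS_mem_U h c, xS_mem_G hσ h.ne hi hj hij c⟩

lemma xS_inv {i j : Fin n} (h : i ≠ j) (hi : i ≠ rev i) (hj : j ≠ rev j) (c : K) :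
    (xS σ i j h c)⁻¹ = xS σ i j h (-c) := by
  apply inv_eq_of_mul_eq_one_right
  apply Subtype.ext
  rw [Matrix.SpecialLinearGroup.coe_mul, coe_xS h hj, coe_xS h hj, Matrix.SpecialLinearGroup.coe_one, map_neg]
  have h1 : rev i ≠ rev j := fun e => h (rev_inj.mp e)
  simp only [mul_add, add_mul, Matrix.one_mul, Matrix.mul_one,
    Matrix.single_mul_single_of_ne _ _ _ _ hi.symm, Matrix.single_mul_single_of_ne _ _ _ _ h1,
    Matrix.single_mul_single_of_ne _ _ _ _ h.symm, Matrix.single_mul_single_of_ne _ _ _ _ hj, add_zero]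
  simp only [← Matrix.single_neg]
  abel

include hσ in
/-- The transvections. -/
lemma X_rev_mem_G {i : Fin n} (h : i ≠ rev i) {c : K} (hc : σ c = -c) : X i (rev i) h c ∈ G σ n := by
  rw [mem_G, coe_X, adj_add, adj_one, adj_single, rev_rev, hc]
  simp only [mul_add, add_mul, Matrix.one_mul, Matrix.mul_one, Matrix.single_mul_single_of_ne _ _ _ _ h.symm, add_zero]
  simp only [← Matrix.single_neg]
  abel

include hσ in
lemma X_rev_mem_UJ {i : Fin n} (h : i < rev i) {c : K} (hc : σ c = -c) : X i (rev i) h.ne c ∈ UJ σ n :=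
  ⟨X_mem_U h c, X_rev_mem_G hσ h.ne hc⟩

omit [Fintype K] in
lemma ne_rev_of {i m : Fin n} (hm : rev m = m) (him : i ≠ m) : m ≠ rev i := by
  intro e
  have h2 := hm
  rw [e, rev_rev] at h2
  exact him (h2.trans e.symm)

/-- The elements through the middle. -/
def rM (σ : K →+* K) {i m : Fin n} (hm : rev m = m) (him : i ≠ m) (hi : i ≠ rev i) (a b : K) : SLn K n :=
  X i m him a * X m (rev i) (ne_rev_of hm him) (-σ a) * X i (rev i) hi (b + a * σ a)

lemma coe_rM {i m : Fin n} (hm : rev m = m) (him : i ≠ m) (hi : i ≠ rev i) (a b : K) :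
    ((rM σ hm him hi a b : SLn K n) : Mt K n) =
      1 + Matrix.single i m a + Matrix.single m (rev i) (-σ a) + Matrix.single i (rev i) b := by
  have hm' := ne_rev_of hm him
  rw [rM, Matrix.SpecialLinearGroup.coe_mul, Matrix.SpecialLinearGroup.coe_mul, coe_X, coe_X, coe_X]
  simp only [mul_add, add_mul, Matrix.one_mul, Matrix.mul_one, Matrix.single_mul_single_same,
    Matrix.single_mul_single_of_ne _ _ _ _ hi.symm, Matrix.single_mul_single_of_ne _ _ _ _ him.symm, add_zero]
  have e3 : Matrix.single i (rev i) (a * -σ a) + Matrix.single i (rev i) (b + a * σ a) = Matrix.single i (rev i) b := by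
    rw [← Matrix.single_add]
    congr 1
    ring
  rw [← e3]
  abel

include hσ in
lemma rM_mem_G {i m : Fin n} (hm : rev m = m) (him : i ≠ m) (hi : i ≠ rev i) {a b : K} (hab : b + σ b + a * σ a = 0) :
    rM σ hm him hi a b ∈ G σ n := by
  have hm' := ne_rev_of hm him
  rw [mem_G, coe_rM, adj_add, adj_add, adj_add, adj_one, adj_single, adj_single, adj_single, rev_rev, hm, map_neg, hσ]
  simp only [mul_add, add_mul, Matrix.one_mul, Matrix.mul_one, Matrix.single_mul_single_same,
    Matrix.single_mul_single_of_ne _ _ _ _ hi.symm, Matrix.single_mul_single_of_ne _ _ _ _ him.symm,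
    Matrix.single_mul_single_of_ne _ _ _ _ hm'.symm, add_zero]
  have e : σ b = - b + - (a * σ a) := by linear_combination hab
  have e2 : -a * -σ a = a * σ a := by ring
  rw [e, e2, Matrix.single_add]
  simp only [← Matrix.single_neg]
  abel

lemma rM_mem_U {i m : Fin n} (hm : rev m = m) (him : i < m) (hi : i ≠ rev i) (a b : K) :
    rM σ hm him.ne hi a b ∈ U K n := by
  have h1 : i < rev i := by
    have h2 : rev m < rev i := rev_lt_rev.mpr him
    rw [hm] at h2
    exact lt_trans him h2
  have h2 : m < rev i := by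
    have h2 : rev m < rev i := rev_lt_rev.mpr him
    rwa [hm] at h2
  exact (U K n).mul_mem ((U K n).mul_mem (X_mem_U him a) (X_mem_U h2 _)) (X_mem_U h1 _)

include hσ in
lemma rM_mem_UJ {i m : Fin n} (hm : rev m = m) (him : i < m) (hi : i ≠ rev i) {a b : K} (hab : b + σ b + a * σ a = 0) :
    rM σ hm him.ne hi a b ∈ UJ σ n := ⟨rM_mem_U hm him hi a b, rM_mem_G hσ hm him.ne hi hab⟩

lemma rM_inv {i m : Fin n} (hm : rev m = m) (him : i ≠ m) (hi : i ≠ rev i) {a b : K} (hab : b + σ b + a * σ a = 0) :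
    (rM σ hm him hi a b)⁻¹ = rM σ hm him hi (-a) (σ b) := by
  have hm' := ne_rev_of hm him
  apply inv_eq_of_mul_eq_one_right
  apply Subtype.ext
  rw [Matrix.SpecialLinearGroup.coe_mul, coe_rM, coe_rM, Matrix.SpecialLinearGroup.coe_one, map_neg, neg_neg]
  simp only [mul_add, add_mul, Matrix.one_mul, Matrix.mul_one, Matrix.single_mul_single_same,
    Matrix.single_mul_single_of_ne _ _ _ _ hi.symm, Matrix.single_mul_single_of_ne _ _ _ _ him.symm,
    Matrix.single_mul_single_of_ne _ _ _ _ hm'.symm, add_zero]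
  have e : σ b = - b + - (a * σ a) := by linear_combination hab
  rw [e, Matrix.single_add]
  simp only [← Matrix.single_neg]
  abel

/-! ### Monomial elements -/

omit [Fintype K] in
include hσ in
lemma d_rev {d : Fin n → K} (hd : ∀ k, d k * σ (d (rev k)) = 1) (k : Fin n) : d (rev k) = (σ (d k))⁻¹ := by
  have h1 := congrArg σ (hd k)
  rw [map_mul, hσ, map_one] at h1
  exact eq_inv_of_mul_eq_one_right h1

omit [Fintype K] in
lemma d_ne {d : Fin n → K} (hd : ∀ k, d k * σ (d (rev k)) = 1) (k : Fin n) : d k ≠ 0 :=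
  left_ne_zero_of_mul_eq_one (hd k)

omit [Fintype K] in
lemma adj_mono {s : Equiv.Perm (Fin n)} {d : Fin n → K} (hs : ∀ k, s (rev k) = rev (s k))
    (hd : ∀ k, d k * σ (d (rev k)) = 1) : adj σ (mono s d) = monoI s d := by
  ext k l
  rw [adj_apply, mono_apply, monoI_apply, hs]
  by_cases h : k = s l
  · rw [if_pos (by rw [h]), if_pos h]
    exact eq_inv_of_mul_eq_one_right (hd l)
  · rw [if_neg (fun e => h (rev_inj.mp e)), if_neg h, map_zero]

lemma monoSL_mem_G {s : Equiv.Perm (Fin n)} {d : Fin n → K} (hs : ∀ k, s (rev k) = rev (s k))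
    (hd : ∀ k, d k * σ (d (rev k)) = 1) (h : (∏ k, d k) * ((Equiv.Perm.sign s : ℤˣ) : ℤ) = 1) :
    monoSL s d h ∈ G σ n := by
  rw [mem_G]
  show adj σ (mono s d) * mono s d = 1
  rw [adj_mono hs hd]
  exact mul_eq_one_comm.mp (mono_mul_monoI (d_ne hd))

include hσ in
/-- Conjugating short root elements. -/
lemma conj_xS {s : Equiv.Perm (Fin n)} {d : Fin n → K} (hs : ∀ k, s (rev k) = rev (s k))
    (hd : ∀ k, d k * σ (d (rev k)) = 1) (h : (∏ k, d k) * ((Equiv.Perm.sign s : ℤˣ) : ℤ) = 1)
    {i j : Fin n} (hij : i ≠ j) (c : K) :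
    monoSL s d h * xS σ (s i) (s j) (s.injective.ne hij) c * (monoSL s d h)⁻¹ = xS σ i j hij (d i * c * (d j)⁻¹) := by
  have e : ∀ (A B m : SLn K n), m * (A * B) * m⁻¹ = (m * A * m⁻¹) * (m * B * m⁻¹) := fun A B m => by group
  rw [xS, xS, e, conj_monoSL_X h (d_ne hd) _ hij c _ rfl rfl rfl,
    conj_monoSL_X h (d_ne hd) _ (rev_ne_rev hij) (-σ c) _ (hs j) (hs i) rfl]
  congr 2
  rw [d_rev hσ hd, inv_eq_of_mul_eq_one_left (a := σ (d i)) (b := d (rev i))]
  · simp only [map_mul, map_inv₀]
    ring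
  · have := congrArg σ (hd i)
    rwa [map_mul, hσ, map_one] at this

include hσ in
/-- Conjugating transvections. -/
lemma conj_X_rev {s : Equiv.Perm (Fin n)} {d : Fin n → K} (hs : ∀ k, s (rev k) = rev (s k))
    (hd : ∀ k, d k * σ (d (rev k)) = 1) (h : (∏ k, d k) * ((Equiv.Perm.sign s : ℤˣ) : ℤ) = 1)
    {i : Fin n} (hi : i ≠ rev i) (hi' : s i ≠ rev (s i)) (c : K) :
    monoSL s d h * X (s i) (rev (s i)) hi' c * (monoSL s d h)⁻¹ = X i (rev i) hi (d i * c * σ (d i)) := by
  apply conj_monoSL_X h (d_ne hd) _ _ c _ rfl (hs i)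
  rw [d_rev hσ hd, inv_inv]

end invol

/-! ### The hypotheses on the field -/

/-- The properties of the Frobenius map of a field with `q²` elements. -/
structure HI (σ : K →+* K) : Prop where
  invol : ∀ x, σ (σ x) = x
  exists_ne : ∃ x, σ x ≠ x
  trace : ∀ t, σ t = t → ∃ s, s + σ s = t
  norm : ∀ t, σ t = t → ∃ a, a * σ a = t

omit [Fintype K] in
lemma HI.exists_c (hI : HI σ) : ∃ c : K, c ≠ 0 ∧ σ c = -c := by
  obtain ⟨x, hx⟩ := hI.exists_ne
  refine ⟨x - σ x, sub_ne_zero.mpr (Ne.symm hx), ?_⟩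
  rw [map_sub, hI.invol]
  ring

omit [Fintype K] in
lemma HI.inj (hI : HI σ) {x : K} (hx : σ x = 0) : x = 0 := by
  have := hI.invol x
  rw [hx, map_zero] at this
  exact this.symm

/-- The positions in the lower half. -/
lemma exists_sup_low (hI : HI σ) {i j : Fin n} (hj : (j : ℕ) = i + 1) (hle : (i : ℕ) + j + 1 ≤ n) :
    ∃ u ∈ UJ σ n, (u : Mt K n) i j ≠ 0 := by
  classical
  have hij : i < j := by
    rw [Fin.lt_def]
    omega
  have hrev : ∀ x y : Fin n, x = rev y ↔ (x : ℕ) + y + 1 = n := by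
    intro x y
    have h1 := y.2
    have h2 := x.2
    rw [Fin.ext_iff, Fin.val_rev]
    omega
  rcases lt_or_eq_of_le hle with h1 | h1
  · have hi : i ≠ rev i := by
      rw [Ne, hrev]
      omega
    have hij' : i ≠ rev j := by
      rw [Ne, hrev]
      omega
    by_cases h2 : j = rev j
    · -- the middle
      have hm : rev j = j := h2.symm
      obtain ⟨s, hs⟩ := hI.trace (-1) (by simp)
      have hab : s + σ s + 1 * σ 1 = 0 := by
        rw [hs]
        simp
      refine ⟨_, rM_mem_UJ hI.invol hm hij hi hab, ?_⟩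
      rw [coe_rM]
      simp only [Matrix.add_apply]
      rw [Matrix.one_apply_ne hij.ne, Matrix.single_apply_same, Matrix.single_apply_of_ne, Matrix.single_apply_of_ne]
      · simp
      · rintro ⟨-, h3⟩
        exact (ne_rev_of hm hij.ne) h3.symm
      · rintro ⟨h3, -⟩
        exact hij.ne h3.symm
    · refine ⟨_, xS_mem_UJ hI.invol hij hi h2 hij' (1 : K), ?_⟩
      rw [coe_xS _ h2]
      simp only [Matrix.add_apply]
      rw [Matrix.one_apply_ne hij.ne, Matrix.single_apply_same, Matrix.single_apply_of_ne]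
      · simp
      · rintro ⟨h3, -⟩
        exact hij' h3.symm
  · -- the long root
    have hji : j = rev i := by
      rw [hrev]
      omega
    subst hji
    obtain ⟨c, hc, hc'⟩ := hI.exists_c
    refine ⟨_, X_rev_mem_UJ hI.invol hij hc', ?_⟩
    rw [coe_X, Matrix.add_apply, Matrix.one_apply_ne hij.ne, Matrix.single_apply_same, zero_add]
    exact hc

lemma exists_sup (hI : HI σ) {i j : Fin n} (hj : (j : ℕ) = i + 1) : ∃ u ∈ UJ σ n, (u : Mt K n) i j ≠ 0 := by
  by_cases hle : (i : ℕ) + j + 1 ≤ n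
  · exact exists_sup_low hI hj hle
  · have h1 : ((rev i : Fin n) : ℕ) = (rev j : Fin n) + 1 := by
      rw [Fin.val_rev, Fin.val_rev]
      have := j.2
      omega
    obtain ⟨u, hu, hue⟩ := exists_sup_low (σ := σ) hI h1 (by
      rw [Fin.val_rev, Fin.val_rev]
      have := j.2
      omega)
    refine ⟨u, hu, fun h0 => hue ?_⟩
    have hlt : rev j < rev i := by
      rw [Fin.lt_def]
      omega
    have h2 := mirror_of_vanish hu hlt (by
      intro t ht1 ht2
      rw [Fin.lt_def] at ht1 ht2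
      omega)
    rw [rev_rev, rev_rev, h0, map_zero, add_zero] at h2
    exact h2

/-- Normalizers of `U` are in `B`. -/
theorem mem_BJ_of_normalizes (hI : HI σ) {g : SLn K n} (hgG : g ∈ G σ n) (hg : ∀ u ∈ UJ σ n, g⁻¹ * u * g ∈ UJ σ n) :
    g ∈ BJ σ n :=
  ⟨mem_B_of_normalizes (Q := UJ σ n) inf_le_left (fun _ _ hj => exists_sup hI hj) hg, hgG⟩

section charp

variable (p : ℕ) [Fact p.Prime] [CharP K p]

include p in
lemma UJ_isPGroup [NeZero n] : IsPGroup p (UJ σ n) :=
  (U_isPGroup (K := K) (n := n) p).to_le inf_le_left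

/-- `U` is a maximal `p`-subgroup of `G`. -/
theorem UJ_max [NeZero n] (hI : HI σ) {Q : Subgroup (G σ n)} (hQ : IsPGroup p Q)
    (hUQ : (UJ σ n).subgroupOf (G σ n) ≤ Q) : Q = (UJ σ n).subgroupOf (G σ n) := by
  by_contra hne
  haveI := hQ.isNilpotent
  have hlt : ((UJ σ n).subgroupOf (G σ n)).subgroupOf Q < ⊤ := by
    rw [lt_top_iff_ne_top]
    intro h
    apply hne
    apply le_antisymm _ hUQ
    intro x hx
    have : (⟨x, hx⟩ : Q) ∈ ((UJ σ n).subgroupOf (G σ n)).subgroupOf Q := by rw [h]; trivial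
    exact this
  have h2 := Group.normalizerCondition_of_isNilpotent (((UJ σ n).subgroupOf (G σ n)).subgroupOf Q) hlt
  obtain ⟨⟨y, hyQ⟩, hyN, hyU⟩ := SetLike.exists_of_lt h2
  rw [Subgroup.mem_normalizer_iff] at hyN
  have hyB : (y : SLn K n) ∈ BJ σ n := by
    apply mem_BJ_of_normalizes hI y.2
    intro u hu
    have hu' : (⟨u, hu.2⟩ : G σ n) ∈ (UJ σ n).subgroupOf (G σ n) := hu
    let u₁ : Q := ⟨⟨u, hu.2⟩, hUQ hu'⟩
    let y₁ : Q := ⟨y, hyQ⟩
    have h3 := (hyN (y₁⁻¹ * u₁ * y₁)).mpr (by
      have e : y₁ * (y₁⁻¹ * u₁ * y₁) * y₁⁻¹ = u₁ := by group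
      rw [e]
      exact hu')
    exact h3
  obtain ⟨r, hr⟩ := hQ ⟨y, hyQ⟩
  have hr' : y ^ (p ^ r) = 1 := congrArg Subtype.val hr
  apply hyU
  show (y : SLn K n) ∈ UJ σ n
  refine ⟨⟨hyB.1, ?_⟩, y.2⟩
  have h5 : (y : SLn K n) ^ (p ^ r) = 1 := congrArg Subtype.val hr'
  exact (mem_U_of_pow p hyB.1 h5).2

end charp

end Cfsg.Agent.Lib.H29.SuA
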