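import Cfsg.Agent.Lib.H29.SuA

/-!
# Strongly closed subgroups of the unitriangular subgroup of `SU_n`
-/

set_option autoImplicit false

namespace Cfsg.Agent.Lib.H29.SuA

open Matrix Fin Cfsg.Agent.Lib.H29.ParaFusion Cfsg.Agent.Lib.H29.LinA

variable {K : Type*} [Field K] {n : ℕ}

section idx

lemma eq_rev_iff' {x y : Fin n} : x = rev y ↔ (x : ℕ) + y + 1 = n := by
  have h1 := y.2
  have h2 := x.2
  rw [Fin.ext_iff, Fin.val_rev]
  omega

lemma lt_rev_iff' {x y : Fin n} : x < rev y ↔ (x : ℕ) + y + 1 < n := by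
  have h1 := y.2
  rw [Fin.lt_def, Fin.val_rev]
  omega

lemma rev_lt_iff' {x y : Fin n} : rev x < y ↔ n < (x : ℕ) + y + 1 := by
  have h1 := x.2
  rw [Fin.lt_def, Fin.val_rev]
  omega

omit [Field K] in
lemma E_mul_apply {R : Type*} [Semiring R] (p q : Fin n) (r : R) (A : Matrix (Fin n) (Fin n) R) (x y : Fin n) :
    (Matrix.single p q r * A) x y = if x = p then r * A q y else 0 := by
  by_cases h : x = p
  · rw [h, if_pos rfl, Matrix.single_mul_apply_same]
  · rw [if_neg h, Matrix.single_mul_apply_of_ne _ _ _ _ _ h]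

omit [Field K] in
lemma mul_E_apply {R : Type*} [Semiring R] (p q : Fin n) (r : R) (A : Matrix (Fin n) (Fin n) R) (x y : Fin n) :
    (A * Matrix.single p q r) x y = if y = q then A x p * r else 0 := by
  by_cases h : y = q
  · rw [h, if_pos rfl, Matrix.mul_single_apply_same]
  · rw [if_neg h, Matrix.mul_single_apply_of_ne _ _ _ _ _ h]

end idx

variable [Fintype K] {σ : K →+* K}

/-! ### Permutations commuting with the reversal -/

lemma perS_rev {i j : Fin n} (h1 : i ≠ j) (h2 : i ≠ rev j) (h3 : i ≠ rev i) (h4 : j ≠ rev j) (k : Fin n) :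
    (Equiv.swap i j * Equiv.swap (rev i) (rev j)) (rev k) = rev ((Equiv.swap i j * Equiv.swap (rev i) (rev j)) k) := by
  have h5 : j ≠ rev i := fun e => h2 (by rw [e, rev_rev])
  have h6 : rev i ≠ rev j := fun e => h1 (rev_inj.mp e)
  simp only [Equiv.Perm.mul_apply, Equiv.swap_apply_def, rev_inj]
  by_cases e1 : k = i
  · subst e1
    simp [h1, h2, h3, h4, h5, h6, h3.symm, h1.symm, h2.symm, h4.symm, h5.symm, h6.symm]
  · by_cases e2 : k = j
    · subst e2
      simp [h1, h2, h3, h4, h5, h6, h3.symm, h1.symm, h2.symm, h4.symm, h5.symm, h6.symm]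
    · by_cases e3 : k = rev i
      · subst e3
        simp [h1, h2, h3, h4, h5, h6, h3.symm, h1.symm, h2.symm, h4.symm, h5.symm, h6.symm]
      · by_cases e4 : k = rev j
        · subst e4
          simp [h1, h2, h3, h4, h5, h6, h3.symm, h1.symm, h2.symm, h4.symm, h5.symm, h6.symm]
        · have e5 : rev k ≠ i := fun e => e3 (by rw [← e, rev_rev])
          have e6 : rev k ≠ j := fun e => e4 (by rw [← e, rev_rev])
          simp [e1, e2, e3, e4, e5, e6]

lemma perS_sign {i j : Fin n} (h1 : i ≠ j) :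
    ((Equiv.Perm.sign (Equiv.swap i j * Equiv.swap (rev i) (rev j)) : ℤˣ) : ℤ) = 1 := by
  rw [Equiv.Perm.sign_mul, Equiv.Perm.sign_swap h1, Equiv.Perm.sign_swap (fun e => h1 (rev_inj.mp e))]
  simp

lemma perS_det {i j : Fin n} (h1 : i ≠ j) :
    (∏ _k : Fin n, (1 : K)) * ((Equiv.Perm.sign (Equiv.swap i j * Equiv.swap (rev i) (rev j)) : ℤˣ) : ℤ) = 1 := by
  rw [perS_sign h1]
  simp

/-- The permutation elements. -/
def perG (i j : Fin n) (h1 : i ≠ j) : SLn K n :=
  monoSL (Equiv.swap i j * Equiv.swap (rev i) (rev j)) (fun _ => 1) (perS_det h1)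

lemma perG_mem {i j : Fin n} (h1 : i ≠ j) (h2 : i ≠ rev j) (h3 : i ≠ rev i) (h4 : j ≠ rev j) :
    perG i j h1 ∈ G σ n :=
  monoSL_mem_G (perS_rev h1 h2 h3 h4) (fun _ => by simp) _

/-! ### The torus elements -/

/-- The diagonal of the torus elements of short roots. -/
def torD (σ : K →+* K) (i j : Fin n) (e : K) : Fin n → K := fun k =>
  (if k = i then e else 1) * (if k = j then e⁻¹ else 1) * (if k = rev j then σ e else 1) *
    (if k = rev i then (σ e)⁻¹ else 1)

lemma torD_rel (hσ : ∀ x, σ (σ x) = x) (i j : Fin n) {e : K} (he : e ≠ 0) (k : Fin n) :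
    torD σ i j e k * σ (torD σ i j e (rev k)) = 1 := by
  have hse : σ e ≠ 0 := fun h0 => he (by rw [← hσ e, h0, map_zero])
  have e1 : ∀ x : Fin n, (rev k = rev x) = (k = x) := fun x => by simp
  have e2 : ∀ x : Fin n, (rev k = x) = (k = rev x) := fun x => by
    apply propext
    constructor
    · intro h
      rw [← h, rev_rev]
    · intro h
      rw [h, rev_rev]
  simp only [torD, map_mul, apply_ite σ, map_one, map_inv₀, hσ, e1, e2]
  have key : ∀ (P : Prop) [Decidable P] (a b : K), a * b = 1 → (if P then a else 1) * (if P then b else 1) = 1 := by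
    intro P _ a b hab
    by_cases h : P
    · simp [h, hab]
    · simp [h]
  have h1 := key (k = i) e e⁻¹ (mul_inv_cancel₀ he)
  have h2 := key (k = j) e⁻¹ e (inv_mul_cancel₀ he)
  have h3 := key (k = rev j) (σ e) (σ e)⁻¹ (mul_inv_cancel₀ hse)
  have h4 := key (k = rev i) (σ e)⁻¹ (σ e) (inv_mul_cancel₀ hse)
  generalize (if k = i then e else 1) = a1 at *
  generalize (if k = i then e⁻¹ else 1) = a2 at *
  generalize (if k = j then e⁻¹ else 1) = b1 at *
  generalize (if k = j then e else 1) = b2 at *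
  generalize (if k = rev j then σ e else 1) = c1 at *
  generalize (if k = rev j then (σ e)⁻¹ else 1) = c2 at *
  generalize (if k = rev i then (σ e)⁻¹ else 1) = d1 at *
  generalize (if k = rev i then σ e else 1) = d2 at *
  linear_combination (b1 * b2 * c1 * c2 * d1 * d2) * h1 + (c1 * c2 * d1 * d2) * h2 + (d1 * d2) * h3 + h4

lemma torD_prod (i j : Fin n) {e : K} (he : e ≠ 0) (hse : σ e ≠ 0) : ∏ k, torD σ i j e k = 1 := by
  simp only [torD, Finset.prod_mul_distrib]
  simp [Finset.prod_ite_eq', he, hse]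

lemma torD_det (i j : Fin n) {e : K} (he : e ≠ 0) (hse : σ e ≠ 0) :
    (∏ k, torD σ i j e k) * ((Equiv.Perm.sign (1 : Equiv.Perm (Fin n)) : ℤˣ) : ℤ) = 1 := by
  rw [torD_prod i j he hse]
  simp

/-! ### Conjugation with explicit targets -/

lemma conj_xS' (hσ : ∀ x, σ (σ x) = x) {s : Equiv.Perm (Fin n)} {d : Fin n → K} (hs : ∀ k, s (rev k) = rev (s k))
    (hd : ∀ k, d k * σ (d (rev k)) = 1) (h : (∏ k, d k) * ((Equiv.Perm.sign s : ℤˣ) : ℤ) = 1)
    {i j a b : Fin n} (hij : i ≠ j) (hab : a ≠ b) (hsi : s i = a) (hsj : s j = b) (c : K) :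
    monoSL s d h * xS σ a b hab c * (monoSL s d h)⁻¹ = xS σ i j hij (d i * c * (d j)⁻¹) := by
  subst hsi hsj
  exact conj_xS hσ hs hd h hij c

lemma conj_X_rev' (hσ : ∀ x, σ (σ x) = x) {s : Equiv.Perm (Fin n)} {d : Fin n → K} (hs : ∀ k, s (rev k) = rev (s k))
    (hd : ∀ k, d k * σ (d (rev k)) = 1) (h : (∏ k, d k) * ((Equiv.Perm.sign s : ℤˣ) : ℤ) = 1)
    {i a : Fin n} (hi : i ≠ rev i) (ha : a ≠ rev a) (hsi : s i = a) (c : K) :
    monoSL s d h * X a (rev a) ha c * (monoSL s d h)⁻¹ = X i (rev i) hi (d i * c * σ (d i)) := by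
  subst hsi
  exact conj_X_rev hσ hs hd h hi ha c

lemma X_inv' {i j : Fin n} (h : i ≠ j) (c : K) : (X i j h c)⁻¹ = X i j h (-c) := by
  apply inv_eq_of_mul_eq_one_right
  apply Subtype.ext
  rw [Matrix.SpecialLinearGroup.coe_mul, coe_X, coe_X, Matrix.SpecialLinearGroup.coe_one, mul_add, add_mul, add_mul,
    Matrix.one_mul, Matrix.one_mul, Matrix.mul_one, Matrix.single_mul_single_of_ne _ _ _ _ h.symm, add_zero, add_assoc,
    ← Matrix.single_add, add_neg_cancel]
  simp

/-! ### The central elements of `U` -/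

lemma comm_row {z : SLn K n} {i j : Fin n} (h : i ≠ j) (hj : j ≠ rev j) (hij : i ≠ rev j) (c : K)
    (hc : z * xS σ i j h c = xS σ i j h c * z) (b : Fin n) :
    c * (z : Mt K n) j b = (if b = j then (z : Mt K n) i i * c else 0) +
      (if b = rev i then (z : Mt K n) i (rev j) * (-σ c) else 0) := by
  have h1 := congrArg (fun x : SLn K n => (x : Mt K n)) hc
  simp only [Matrix.SpecialLinearGroup.coe_mul, coe_xS h hj] at h1
  have h2 := congrFun (congrFun h1 i) b
  simp only [mul_add, add_mul, Matrix.mul_one, Matrix.one_mul, Matrix.add_apply, E_mul_apply, mul_E_apply, if_true,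
    if_neg hij] at h2
  linear_combination -h2

lemma comm_col {z : SLn K n} {i j x : Fin n} (h : i ≠ j) (hj : j ≠ rev j) (hne : j ≠ rev i) (c : K)
    (hc : z * xS σ i j h c = xS σ i j h c * z) (hx1 : x ≠ i) (hx2 : x ≠ rev j) : (z : Mt K n) x i * c = 0 := by
  have h1 := congrArg (fun x : SLn K n => (x : Mt K n)) hc
  simp only [Matrix.SpecialLinearGroup.coe_mul, coe_xS h hj] at h1
  have h2 := congrFun (congrFun h1 x) j
  simp only [mul_add, add_mul, Matrix.mul_one, Matrix.one_mul, Matrix.add_apply, E_mul_apply, mul_E_apply, if_true,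
    if_neg hne, if_neg hx1, if_neg hx2] at h2
  linear_combination h2

/-- The shape of a central element of `U`. -/
theorem central_shape (hI : HI σ) (hn : 4 ≤ n) {z : SLn K n} (hz : z ∈ UJ σ n) (hc : ∀ u ∈ UJ σ n, z * u = u * z)
    {f0 : Fin n} (hf0 : (f0 : ℕ) = 0) : ∃ (c : K) (h : f0 ≠ rev f0), σ c = -c ∧ z = X f0 (rev f0) h c := by
  classical
  have hσ := hI.invol
  have hlow : ∀ t : Fin n, f0 ≤ t := by
    intro t
    rw [Fin.le_def, hf0]
    omega
  have hhigh : ∀ t : Fin n, t ≤ rev f0 := by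
    intro t
    rw [Fin.le_def, Fin.val_rev, hf0]
    have := t.2
    omega
  have hff : f0 < rev f0 := by
    rw [lt_rev_iff', hf0]
    omega
  obtain ⟨x, hx⟩ := hI.exists_ne
  have hkey : ∀ {w v y : K}, y = v * (-σ 1) → x * y = v * (-σ x) → y = 0 := by
    intro w v y h1 h2
    rw [map_one] at h1
    have h3 : (x - σ x) * y = 0 := by
      rw [sub_mul, h2, h1]
      ring
    exact (mul_eq_zero.mp h3).resolve_left (sub_ne_zero.mpr (Ne.symm hx))
  have hrow : ∀ k : Fin n, f0 < k → k < rev f0 → k ≠ rev k →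
      (∀ b, k < b → (z : Mt K n) k b = 0) ∧ (z : Mt K n) f0 (rev k) = 0 := by
    intro k hk0 hk1 hk2
    have hij : f0 ≠ rev k := fun e => hk1.ne (by rw [e, rev_rev])
    have hmem : ∀ c : K, xS σ f0 k hk0.ne c ∈ UJ σ n := fun c => xS_mem_UJ hσ hk0 hff.ne hk2 hij c
    have E := fun (c : K) (b : Fin n) => comm_row hk0.ne hk2 hij c (hc _ (hmem c)) b
    have e1 := E 1 (rev f0)
    have e2 := E x (rev f0)
    rw [if_neg hk1.ne', if_pos rfl, zero_add] at e1 e2
    rw [one_mul] at e1
    have hw := hkey (w := 0) e1 e2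
    constructor
    · intro b hb
      by_cases hb1 : b = rev f0
      · rw [hb1]
        exact hw
      · have e3 := E 1 b
        rw [if_neg hb.ne', if_neg hb1, add_zero, one_mul] at e3
        exact e3
    · rw [hw, map_one] at e1
      have : (z : Mt K n) f0 (rev k) * (-1) = 0 := e1.symm
      simpa using this
  have hmid : ∀ m : Fin n, rev m = m → (z : Mt K n) f0 m = 0 ∧ ∀ b, m < b → (z : Mt K n) m b = 0 := by
    intro m hm
    have hm2 : (m : ℕ) + m + 1 = n := eq_rev_iff'.mp hm.symm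
    let f1 : Fin n := ⟨1, by omega⟩
    have hf1m : f1 < m := by
      rw [Fin.lt_def]
      show 1 < (m : ℕ)
      omega
    have hf0f1 : f0 < f1 := by
      rw [Fin.lt_def, hf0]
      show 0 < 1
      omega
    have hf1r : f1 ≠ rev f1 := by
      rw [Ne, eq_rev_iff']
      show ¬ (1 + 1 + 1 = n)
      omega
    have hk1 : rev f1 < rev f0 := rev_lt_rev.mpr hf0f1
    have hk0 : f0 < rev f1 := by
      rw [lt_rev_iff', hf0]
      show 0 + 1 + 1 < n
      omega
    have hR := hrow (rev f1) hk0 hk1 (by rw [rev_rev]; exact hf1r.symm)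
    rw [rev_rev] at hR
    obtain ⟨s, hs⟩ := hI.trace (-1) (by simp)
    have hab : s + σ s + 1 * σ 1 = 0 := by
      rw [hs]
      simp
    have hf1i : f1 ≠ rev f1 := hf1r
    have hmem := rM_mem_UJ hσ hm hf1m hf1i hab
    have h1 := congrArg (fun x : SLn K n => (x : Mt K n)) (hc _ hmem)
    simp only [Matrix.SpecialLinearGroup.coe_mul, coe_rM] at h1
    have hm1 : m ≠ rev f1 := ne_rev_of hm hf1m.ne
    have hm3 : rev f0 ≠ m := fun e => (ne_rev_of hm (lt_of_le_of_lt (hlow f1) hf1m).ne) e.symm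
    have hl1 : rev f0 ≠ rev f1 := fun e => hf0f1.ne (rev_inj.mp e)
    have e1 := congrFun (congrFun h1 f1) (rev f0)
    simp only [mul_add, add_mul, Matrix.mul_one, Matrix.one_mul, Matrix.add_apply, E_mul_apply, mul_E_apply, if_true,
      if_neg hm3, if_neg hl1, if_neg hf1m.ne] at e1
    have e2 := congrFun (congrFun h1 f0) (rev f1)
    have hf0m : f0 ≠ m := (lt_trans hf0f1 hf1m).ne
    simp only [mul_add, add_mul, Matrix.mul_one, Matrix.one_mul, Matrix.add_apply, E_mul_apply, mul_E_apply, if_true,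
      if_neg hf0f1.ne, if_neg hf0m, if_neg hm1.symm] at e2
    have h2 := hR.1 (rev f0) hk1
    have h3 := hR.2
    rw [h2] at e1
    rw [h3] at e2
    have hz1 : (z : Mt K n) m (rev f0) = 0 := by
      linear_combination -e1
    have hz2 : (z : Mt K n) f0 m = 0 := by
      rw [map_one] at e2
      linear_combination -e2
    refine ⟨hz2, ?_⟩
    intro b hb
    by_cases hb1 : b = rev f0
    · rw [hb1]
      exact hz1
    · -- the columns
      have hb2 : b < rev f0 := lt_of_le_of_ne (hhigh b) hb1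
      have hb3 : b ≠ rev b := by
        rw [Ne, eq_rev_iff']
        have : (m : ℕ) < b := hb
        omega
      have hb4 : b ≠ rev (rev f0) := by
        rw [rev_rev]
        exact (lt_of_le_of_lt (hlow m) hb).ne'
      have hb5 : rev f0 ≠ rev (rev f0) := by
        rw [rev_rev]
        exact hff.ne'
      have hmem2 := xS_mem_UJ hσ hb2 hb3 hb5 hb4 (1 : K)
      have e3 := comm_col hb2.ne hb5 (fun e => (lt_of_le_of_lt (hlow m) hb).ne (rev_inj.mp e)) 1 (hc _ hmem2)
        (x := m) hb.ne (by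
          rw [rev_rev]
          exact hf0m.symm)
      simpa using e3
  have hall : ∀ a b : Fin n, a < b → ¬(a = f0 ∧ b = rev f0) → (z : Mt K n) a b = 0 := by
    intro a b hab hne
    by_cases ha : a = f0
    · subst ha
      have hb : b ≠ rev a := fun e => hne ⟨rfl, e⟩
      by_cases hb1 : rev b = b
      · exact (hmid b hb1).1
      · have h2 := (hrow (rev b) (by
          rw [lt_rev_iff']
          have h3 : (a : ℕ) < b := hab
          have h4 := b.2
          have hb' : ¬ ((b : ℕ) + a + 1 = n) := fun e => hb (eq_rev_iff'.mpr e)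
          omega) (rev_lt_rev.mpr hab) (by rw [rev_rev]; exact hb1)).2
        rwa [rev_rev] at h2
    · have ha1 : f0 < a := lt_of_le_of_ne (hlow a) (Ne.symm ha)
      by_cases ha2 : rev a = a
      · exact (hmid a ha2).2 b hab
      · exact (hrow a ha1 (lt_of_lt_of_le hab (hhigh b)) (Ne.symm ha2)).1 b hab
  refine ⟨(z : Mt K n) f0 (rev f0), hff.ne, ?_, ?_⟩
  · have h1 := mirror_of_vanish hz hff (fun t ht1 ht2 => hall t _ ht2 (fun e => ht1.ne e.1.symm))
    rw [rev_rev] at h1
    linear_combination h1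
  · apply Subtype.ext
    ext a b
    rw [coe_X, Matrix.add_apply]
    rcases lt_trichotomy a b with h1 | h1 | h1
    · rw [Matrix.one_apply_ne h1.ne, zero_add]
      by_cases h2 : a = f0 ∧ b = rev f0
      · obtain ⟨rfl, rfl⟩ := h2
        rw [Matrix.single_apply_same]
      · rw [hall a b h1 h2, Matrix.single_apply_of_ne]
        rintro ⟨h3, h4⟩
        exact h2 ⟨h3.symm, h4.symm⟩
    · subst h1
      rw [hz.1.2, Matrix.one_apply_eq, Matrix.single_apply_of_ne, add_zero]
      rintro ⟨h3, h4⟩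
      exact hff.ne (h3.trans h4.symm)
    · rw [hz.1.1 a b h1, Matrix.one_apply_ne h1.ne', zero_add, Matrix.single_apply_of_ne]
      rintro ⟨rfl, rfl⟩
      exact absurd hff (not_lt.mpr (le_of_lt h1))

end Cfsg.Agent.Lib.H29.SuA
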