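import Cfsg.Agent.Lib.H29.SuB

/-!
# Strongly closed subgroups of the unitriangular subgroup of `SU_n`: the proof
-/

set_option autoImplicit false
set_option linter.unusedSimpArgs false

namespace Cfsg.Agent.Lib.H29.SuA

open Matrix Fin Cfsg.Agent.Lib.H29.ParaFusion Cfsg.Agent.Lib.H29.LinA

variable {K : Type*} [Field K] [Fintype K] {n : ℕ} {σ : K →+* K}

/-- The matrix identity producing the far short root elements. -/
lemma far_identity {i j : Fin n} (hij : i < j) (hj : j < rev j) {b : K} (hb : σ b = -b) (c : K) :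
    have hj' : i < rev j := lt_trans hij hj
    have hi' : i < rev i := lt_trans hj' (rev_lt_rev.mpr hij)
    xS σ i j hij.ne c * X j (rev j) hj.ne b * (xS σ i j hij.ne c)⁻¹ * X j (rev j) hj.ne (-b) *
      X i (rev i) hi'.ne (-(b * c * σ c)) = xS σ i (rev j) hj'.ne (b * c) := by
  intro hj' hi'
  have h1 : rev j < rev i := rev_lt_rev.mpr hij
  have n1 := hij.ne
  have n2 := hj'.ne
  have n3 := hi'.ne
  have n4 := hj.ne
  have n5 := (lt_trans hj h1).ne
  have n6 := h1.ne
  have hrr : rev j ≠ rev (rev j) := by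
    rw [rev_rev]
    exact n4.symm
  rw [xS_inv _ n3 n4]
  apply Subtype.ext
  simp only [Matrix.SpecialLinearGroup.coe_mul, coe_xS _ n4, coe_xS _ hrr, coe_X, rev_rev, map_neg, map_mul, hb, neg_neg]
  simp only [mul_add, add_mul, Matrix.one_mul, Matrix.mul_one, Matrix.single_mul_single_same,
    Matrix.single_mul_single_of_ne _ _ _ _ n1, Matrix.single_mul_single_of_ne _ _ _ _ n2,
    Matrix.single_mul_single_of_ne _ _ _ _ n3, Matrix.single_mul_single_of_ne _ _ _ _ n4,
    Matrix.single_mul_single_of_ne _ _ _ _ n5, Matrix.single_mul_single_of_ne _ _ _ _ n6,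
    Matrix.single_mul_single_of_ne _ _ _ _ n1.symm, Matrix.single_mul_single_of_ne _ _ _ _ n2.symm,
    Matrix.single_mul_single_of_ne _ _ _ _ n3.symm, Matrix.single_mul_single_of_ne _ _ _ _ n4.symm,
    Matrix.single_mul_single_of_ne _ _ _ _ n5.symm, Matrix.single_mul_single_of_ne _ _ _ _ n6.symm,
    add_zero, zero_add, mul_one, one_mul, mul_neg, neg_mul, neg_neg]
  simp only [← Matrix.single_neg]
  rw [mul_comm c b]
  abel

/-- The matrix identity for the elements through the middle. -/
lemma mid_identity {i j m : Fin n} (hm : rev m = m) (hij : i < j) (hjm : j < m) {a b : K} (hab : b + σ b + a * σ a = 0)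
    (hσ : ∀ x, σ (σ x) = x) :
    have him : i < m := lt_trans hij hjm
    have hmj : m < rev j := by
      have := rev_lt_rev.mpr hjm
      rwa [hm] at this
    have hj' : j < rev j := lt_trans hjm hmj
    have hi' : i < rev i := lt_trans him (lt_trans hmj (rev_lt_rev.mpr hij))
    xS σ i j hij.ne 1 * rM σ hm hjm.ne hj'.ne a b * (xS σ i j hij.ne 1)⁻¹ * (rM σ hm hjm.ne hj'.ne a b)⁻¹ =
      rM σ hm him.ne hi'.ne a b * xS σ i (rev j) (lt_trans him hmj).ne (-σ b) := by
  intro him hmj hj' hi'
  have h1 : rev j < rev i := rev_lt_rev.mpr hij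
  have hi2 : i < rev j := lt_trans him hmj
  have hm2 : m < rev i := lt_trans hmj h1
  have hj2 : j < rev i := lt_trans hj' h1
  have n1 := hij.ne
  have n2 := him.ne
  have n3 := hi2.ne
  have n4 := hi'.ne
  have n5 := hjm.ne
  have n6 := hj'.ne
  have n7 := hj2.ne
  have n8 := hmj.ne
  have n9 := hm2.ne
  have n10 := h1.ne
  have hrr : rev j ≠ rev (rev j) := by
    rw [rev_rev]
    exact n6.symm
  rw [xS_inv _ n4 n6, rM_inv hm _ _ hab]
  apply Subtype.ext
  simp only [Matrix.SpecialLinearGroup.coe_mul, coe_xS _ n6, coe_xS _ hrr, coe_rM, rev_rev, map_neg, map_one, hσ, neg_neg]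
  simp only [mul_add, add_mul, Matrix.one_mul, Matrix.mul_one, Matrix.single_mul_single_same,
    Matrix.single_mul_single_of_ne _ _ _ _ n1, Matrix.single_mul_single_of_ne _ _ _ _ n2,
    Matrix.single_mul_single_of_ne _ _ _ _ n3, Matrix.single_mul_single_of_ne _ _ _ _ n4,
    Matrix.single_mul_single_of_ne _ _ _ _ n5, Matrix.single_mul_single_of_ne _ _ _ _ n6,
    Matrix.single_mul_single_of_ne _ _ _ _ n7, Matrix.single_mul_single_of_ne _ _ _ _ n8,
    Matrix.single_mul_single_of_ne _ _ _ _ n9, Matrix.single_mul_single_of_ne _ _ _ _ n10,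
    Matrix.single_mul_single_of_ne _ _ _ _ n1.symm, Matrix.single_mul_single_of_ne _ _ _ _ n2.symm,
    Matrix.single_mul_single_of_ne _ _ _ _ n3.symm, Matrix.single_mul_single_of_ne _ _ _ _ n4.symm,
    Matrix.single_mul_single_of_ne _ _ _ _ n5.symm, Matrix.single_mul_single_of_ne _ _ _ _ n6.symm,
    Matrix.single_mul_single_of_ne _ _ _ _ n7.symm, Matrix.single_mul_single_of_ne _ _ _ _ n8.symm,
    Matrix.single_mul_single_of_ne _ _ _ _ n9.symm, Matrix.single_mul_single_of_ne _ _ _ _ n10.symm,
    add_zero, zero_add, mul_one, one_mul, mul_neg, neg_mul, neg_neg]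
  simp only [← Matrix.single_neg]
  have e : a * σ a = -b + -σ b := by linear_combination hab
  rw [e, Matrix.single_add, Matrix.single_add]
  simp only [← Matrix.single_neg]
  abel

/-- The diagonal of the Weyl elements at a pair. -/
def dJ (c₀ : K) (j : Fin n) : Fin n → K := fun k => (if k = j then c₀ else 1) * (if k = rev j then -c₀⁻¹ else 1)

lemma dJ_rel (hσ : ∀ x, σ (σ x) = x) {c₀ : K} (hc0 : c₀ ≠ 0) (hc : σ c₀ = -c₀) {j : Fin n} (hj : j ≠ rev j) (k : Fin n) :
    dJ c₀ j k * σ (dJ c₀ j (rev k)) = 1 := by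
  simp only [dJ, rev_inj, map_mul, apply_ite σ, map_one, map_neg, map_inv₀, hc, inv_neg, neg_neg]
  have e1 : (rev k = j) = (k = rev j) := by
    apply propext
    constructor
    · intro h
      rw [← h, rev_rev]
    · intro h
      rw [h, rev_rev]
  simp only [e1]
  by_cases h1 : k = j
  · subst h1
    simp [hj, hc0]
  · by_cases h2 : k = rev j
    · subst h2
      simp [hj.symm, hc0]
    · simp [h1, h2]

lemma dJ_det {c₀ : K} (hc0 : c₀ ≠ 0) {j : Fin n} (hj : j ≠ rev j) :
    (∏ k, dJ c₀ j k) * ((Equiv.Perm.sign (Equiv.swap j (rev j)) : ℤˣ) : ℤ) = 1 := by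
  simp only [dJ, Finset.prod_mul_distrib, Equiv.Perm.sign_swap hj]
  simp [Finset.prod_ite_eq', hc0]

lemma swapJ_rev {j : Fin n} (hj : j ≠ rev j) (k : Fin n) :
    Equiv.swap j (rev j) (rev k) = rev (Equiv.swap j (rev j) k) := by
  simp only [Equiv.swap_apply_def, rev_inj, rev_rev]
  by_cases h1 : k = j
  · subst h1
    simp [hj, hj.symm]
  · by_cases h2 : k = rev j
    · subst h2
      simp [hj.symm]
    · have h3 : rev k ≠ j := fun e => h2 (by rw [← e, rev_rev])
      simp [h1, h2, h3]

/-- The Weyl element at a pair. -/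
def wJ {c₀ : K} (hc0 : c₀ ≠ 0) {j : Fin n} (hj : j ≠ rev j) : SLn K n :=
  monoSL (Equiv.swap j (rev j)) (dJ c₀ j) (dJ_det hc0 hj)

lemma wJ_mem (hσ : ∀ x, σ (σ x) = x) {c₀ : K} (hc0 : c₀ ≠ 0) (hc : σ c₀ = -c₀) {j : Fin n} (hj : j ≠ rev j) :
    wJ hc0 hj ∈ G σ n :=
  monoSL_mem_G (swapJ_rev hj) (dJ_rel hσ hc0 hc hj) _

/-- Conjugating the elements through the middle. -/
lemma conj_rM (hσ : ∀ x, σ (σ x) = x) {s : Equiv.Perm (Fin n)} {d : Fin n → K} (hs : ∀ k, s (rev k) = rev (s k))
    (hd : ∀ k, d k * σ (d (rev k)) = 1) (h : (∏ k, d k) * ((Equiv.Perm.sign s : ℤˣ) : ℤ) = 1)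
    {i i₀ m m' : Fin n} (hm : rev m = m) (hm' : rev m' = m') (him : i ≠ m) (him' : i₀ ≠ m') (hi : i ≠ rev i)
    (hi₀ : i₀ ≠ rev i₀) (hsi : s i = i₀) (hsm : s m = m') (a b : K) :
    monoSL s d h * rM σ hm' him' hi₀ a b * (monoSL s d h)⁻¹ =
      rM σ hm him hi (d i * a * (d m)⁻¹) (d i * b * σ (d i)) := by
  have e : ∀ (A B C g : SLn K n), g * (A * B * C) * g⁻¹ = (g * A * g⁻¹) * (g * B * g⁻¹) * (g * C * g⁻¹) :=
    fun A B C g => by group
  have hne := d_ne hd
  have h1 : d m * σ (d m) = 1 := by
    have := hd m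
    rwa [hm] at this
  have h2 : (d m)⁻¹ = σ (d m) := (eq_inv_of_mul_eq_one_right h1).symm
  have h4 : (σ (d m))⁻¹ = d m := (eq_inv_of_mul_eq_one_left h1).symm
  have hri : (d (rev i))⁻¹ = σ (d i) := by
    rw [d_rev hσ hd, inv_inv]
  rw [rM, rM, e, conj_monoSL_X h hne _ him a _ hsi hsm rfl,
    conj_monoSL_X h hne _ (ne_rev_of hm him) (-σ a) _ hsm (by rw [hs, hsi]) rfl,
    conj_monoSL_X h hne _ hi (b + a * σ a) _ hsi (by rw [hs, hsi]) rfl]
  congr 2
  · congr 1
    rw [hri, map_mul, map_mul, map_inv₀, h4]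
    ring
  · rw [hri, h2]
    simp only [map_mul, hσ]
    linear_combination (-(d i * a * σ a * σ (d i))) * h1

section closed

variable {T : Subgroup (SLn K n)} (hT : T ≤ UJ σ n)
  (hcl : ∀ x ∈ T, ∀ g ∈ G σ n, g * x * g⁻¹ ∈ UJ σ n → g * x * g⁻¹ ∈ T)

include hT hcl

lemma T_norm {s x : SLn K n} (hs : s ∈ UJ σ n) (hx : x ∈ T) : s * x * s⁻¹ ∈ T :=
  hcl x hx s hs.2 ((UJ σ n).mul_mem ((UJ σ n).mul_mem hs (hT hx)) ((UJ σ n).inv_mem hs))

omit hT in
/-- All transvections in `U` from one. -/
lemma X_all (hI : HI σ) (hn : 4 ≤ n) {f0 : Fin n} (hf0 : (f0 : ℕ) = 0) (hff : f0 ≠ rev f0) {a : K} (ha : a ≠ 0)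
    (haσ : σ a = -a) (hz : X f0 (rev f0) hff a ∈ T) (i : Fin n) (hi : i < rev i) {b : K} (hb : σ b = -b) :
    X i (rev i) hi.ne b ∈ T := by
  classical
  have hσ := hI.invol
  have hff' : f0 < rev f0 := by
    rw [lt_rev_iff', hf0]
    omega
  by_cases hb0 : b = 0
  · have : X i (rev i) hi.ne b = 1 := by
      apply Subtype.ext
      rw [coe_X, hb0]
      simp
    rw [this]
    exact T.one_mem
  -- first scale
  have h1 : X f0 (rev f0) hff b ∈ T := by
    obtain ⟨e, he⟩ := hI.norm (b / a) (by
      rw [map_div₀, hb, haσ, neg_div_neg_eq])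
    have he0 : e ≠ 0 := by
      rintro rfl
      rw [zero_mul] at he
      exact (div_ne_zero hb0 ha) he.symm
    have hse : σ e ≠ 0 := fun h0 => he0 (hI.inj h0)
    let f1 : Fin n := ⟨1, by omega⟩
    have h01 : f0 ≠ f1 := by
      intro e
      have := congrArg Fin.val e
      simp [f1, hf0] at this
    have h02 : f0 ≠ rev f1 := by
      rw [Ne, eq_rev_iff', hf0]
      show ¬ (0 + 1 + 1 = n)
      omega
    have hd0 : torD σ f0 f1 e f0 = e := by
      simp [torD, h01, h02, hff]
    have hconj := conj_X_rev' hσ (s := 1) (fun _ => rfl) (torD_rel hσ f0 f1 he0) (torD_det f0 f1 he0 hse) hff hff rfl a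
    rw [hd0] at hconj
    have hbb : e * a * σ e = b := by
      have : e * σ e * a = b / a * a := by rw [he]
      rw [div_mul_cancel₀ _ ha] at this
      rw [← this]
      ring
    rw [hbb] at hconj
    rw [← hconj]
    apply hcl _ hz
    · exact monoSL_mem_G (fun _ => rfl) (torD_rel hσ f0 f1 he0) _
    · rw [hconj]
      exact X_rev_mem_UJ hσ hff' hb
  by_cases hi0 : i = f0
  · subst hi0
    exact h1
  -- then permute
  have hi1 : i ≠ rev f0 := by
    intro e
    have h2 := hi
    rw [e, rev_rev, Fin.lt_def, hf0] at h2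
    omega
  have hs := perS_rev hi0 hi1 hi.ne hff
  have hsi : (Equiv.swap i f0 * Equiv.swap (rev i) (rev f0)) i = f0 := by
    rw [Equiv.Perm.mul_apply, Equiv.swap_apply_of_ne_of_ne hi.ne hi1, Equiv.swap_apply_left]
  have hconj := conj_X_rev' hσ hs (fun _ => by simp) (perS_det hi0) hi.ne hff hsi b
  simp only [one_mul, map_one, mul_one] at hconj
  have h5 : perG i f0 hi0 * X f0 (rev f0) hff b * (perG i f0 hi0)⁻¹ = X i (rev i) hi.ne b := hconj
  rw [← h5]
  apply hcl _ h1
  · exact perG_mem hi0 hi1 hi.ne hff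
  · rw [h5]
    exact X_rev_mem_UJ hσ hi hb

/-- The far short root elements. -/
lemma xS_far (hI : HI σ) (hX : ∀ (i : Fin n) (hi : i < rev i) (b : K), σ b = -b → X i (rev i) hi.ne b ∈ T)
    {i j : Fin n} (hij : i < j) (hj : j < rev j) (d : K) : xS σ i (rev j) (lt_trans hij hj).ne d ∈ T := by
  obtain ⟨b, hb0, hb⟩ := hI.exists_c
  have hσ := hI.invol
  have hj' : i < rev j := lt_trans hij hj
  have hi' : i < rev i := lt_trans hj' (rev_lt_rev.mpr hij)
  have hid := far_identity (σ := σ) hij hj hb (d / b)
  have e : b * (d / b) = d := by field_simp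
  have e2 : xS σ i (rev j) (lt_trans hij hj).ne d = xS σ i (rev j) (lt_trans hij hj).ne (b * (d / b)) := by rw [e]
  rw [e2, ← hid]
  have hA : xS σ i j hij.ne (d / b) ∈ UJ σ n := xS_mem_UJ hσ hij hi'.ne hj.ne hj'.ne _
  refine T.mul_mem (T.mul_mem (T_norm hT hcl hA (hX j hj b hb)) (hX j hj _ (by rw [map_neg, hb]))) (hX i hi' _ ?_)
  rw [map_neg, map_mul, map_mul, hσ, hb]
  ring

/-- The near short root elements. -/
lemma xS_near (hI : HI σ) (hX : ∀ (i : Fin n) (hi : i < rev i) (b : K), σ b = -b → X i (rev i) hi.ne b ∈ T)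
    {i j : Fin n} (hij : i < j) (hj : j < rev j) (c : K) : xS σ i j hij.ne c ∈ T := by
  classical
  obtain ⟨c₀, hc0, hc⟩ := hI.exists_c
  have hσ := hI.invol
  have hj' : i < rev j := lt_trans hij hj
  have hi' : i < rev i := lt_trans hj' (rev_lt_rev.mpr hij)
  have hsi : Equiv.swap j (rev j) i = i := Equiv.swap_apply_of_ne_of_ne hij.ne hj'.ne
  have hconj := conj_xS' hσ (swapJ_rev hj.ne) (dJ_rel hσ hc0 hc hj.ne) (dJ_det hc0 hj.ne) hij.ne hj'.ne hsi
    (Equiv.swap_apply_left _ _) (c * c₀)
  have hd1 : dJ c₀ j i = 1 := by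
    simp [dJ, hij.ne, hj'.ne]
  have hd2 : dJ c₀ j j = c₀ := by
    simp [dJ, hj.ne]
  rw [hd1, hd2] at hconj
  have e : 1 * (c * c₀) * c₀⁻¹ = c := by field_simp
  rw [e] at hconj
  have h5 : wJ hc0 hj.ne * xS σ i (rev j) hj'.ne (c * c₀) * (wJ hc0 hj.ne)⁻¹ = xS σ i j hij.ne c := hconj
  rw [← h5]
  apply hcl _ (xS_far hT hcl hI hX hij hj _) _ (wJ_mem hσ hc0 hc hj.ne)
  rw [h5]
  exact xS_mem_UJ hσ hij hi'.ne hj.ne hj'.ne c

/-- The elements through the middle. -/
lemma rM_all (hI : HI σ) (hX : ∀ (i : Fin n) (hi : i < rev i) (b : K), σ b = -b → X i (rev i) hi.ne b ∈ T)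
    {f0 f1 m : Fin n} (hm : rev m = m) (hf0 : (f0 : ℕ) = 0) (h01 : f0 < f1) (h1m : f1 < m) {i : Fin n} (him : i < m)
    (hi : i ≠ rev i) {a b : K} (hab : b + σ b + a * σ a = 0) : rM σ hm him.ne hi a b ∈ T := by
  classical
  have hσ := hI.invol
  have h0m := lt_trans h01 h1m
  have hmr : m < rev f1 := by
    have := rev_lt_rev.mpr h1m
    rwa [hm] at this
  have h1r : f1 < rev f1 := lt_trans h1m hmr
  have h0r : f0 < rev f1 := lt_trans h01 h1r
  have h00 : f0 < rev f0 := lt_trans h0r (rev_lt_rev.mpr h01)
  have hid := mid_identity hm h01 h1m hab hσ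
  have hy : xS σ f0 f1 h01.ne 1 ∈ T := xS_near hT hcl hI hX h01 h1r 1
  have hv := rM_mem_UJ hσ hm h1m h1r.ne hab
  have h3 : xS σ f0 f1 h01.ne 1 * rM σ hm h1m.ne h1r.ne a b * (xS σ f0 f1 h01.ne 1)⁻¹ *
      (rM σ hm h1m.ne h1r.ne a b)⁻¹ ∈ T := by
    have e : ∀ y v : SLn K n, y * v * y⁻¹ * v⁻¹ = y * (v * y⁻¹ * v⁻¹) := fun y v => by group
    rw [e]
    exact T.mul_mem hy (T_norm hT hcl hv (T.inv_mem hy))
  have h4 : rM σ hm h0m.ne h00.ne a b ∈ T := by
    rw [hid] at h3
    have h5 := xS_far hT hcl hI hX h01 h1r (-σ b)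
    have h6 := T.mul_mem h3 (T.inv_mem h5)
    simpa using h6
  by_cases hi0 : i = f0
  · subst hi0
    exact h4
  -- permute
  have hif0 : i ≠ rev f0 := by
    intro e
    have h2 : m < rev f0 := by
      have := rev_lt_rev.mpr h0m
      rwa [hm] at this
    rw [e] at him
    exact absurd him (not_lt.mpr h2.le)
  have hs := perS_rev hi0 hif0 hi h00.ne
  have hrm : rev f0 ≠ m := fun e => h0m.ne (by rw [← hm] at e; exact rev_inj.mp e)
  have hri : rev i ≠ m := fun e => him.ne (by rw [← hm] at e; exact rev_inj.mp e)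
  have hsi : (Equiv.swap i f0 * Equiv.swap (rev i) (rev f0)) i = f0 := by
    rw [Equiv.Perm.mul_apply, Equiv.swap_apply_of_ne_of_ne hi hif0, Equiv.swap_apply_left]
  have hsm : (Equiv.swap i f0 * Equiv.swap (rev i) (rev f0)) m = m := by
    rw [Equiv.Perm.mul_apply, Equiv.swap_apply_of_ne_of_ne hri.symm hrm.symm,
      Equiv.swap_apply_of_ne_of_ne him.ne' h0m.ne']
  have hconj := conj_rM hσ hs (d := fun _ => 1) (fun _ => by simp) (perS_det hi0) hm hm him.ne h0m.ne hi h00.ne hsi hsm a b
  simp only [one_mul, map_one, mul_one, inv_one] at hconj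
  have h5 : perG i f0 hi0 * rM σ hm h0m.ne h00.ne a b * (perG i f0 hi0)⁻¹ = rM σ hm him.ne hi a b := hconj
  rw [← h5]
  apply hcl _ h4 _ (perG_mem hi0 hif0 hi h00.ne)
  rw [h5]
  exact rM_mem_UJ hσ hm him hi hab

end closed

/-- Clearing one entry. -/
lemma clear_entry {u v : SLn K n} (hu : u ∈ U K n) (hv : v ∈ U K n) {d k : ℕ} {k' l' : Fin n}
    (hk : (k' : ℕ) = k) (hl : (l' : ℕ) = k + d)
    (hvan : ∀ x y : Fin n, x < y → ((y : ℕ) - x < d ∨ ((y : ℕ) - x = d ∧ (x : ℕ) < k)) → (u : Mt K n) x y = 0)
    (hR : ∀ x y : Fin n, x < y → ((y : ℕ) - x < d ∨ ((y : ℕ) - x = d ∧ (x : ℕ) < k + 1)) → ¬(x = k' ∧ y = l') →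
      (v : Mt K n) x y = 0)
    (hRk : (v : Mt K n) k' l' = -(u : Mt K n) k' l') :
    ∀ x y : Fin n, x < y → ((y : ℕ) - x < d ∨ ((y : ℕ) - x = d ∧ (x : ℕ) < k + 1)) →
      ((u * v : SLn K n) : Mt K n) x y = 0 := by
  intro x y hxy hcase
  have hle : (y : ℕ) - x ≤ d := by
    rcases hcase with h | h <;> omega
  have e : ((u * v : SLn K n) : Mt K n) x y = (v : Mt K n) x y + (u : Mt K n) x y := by
    rw [Matrix.SpecialLinearGroup.coe_mul, Matrix.mul_apply, Finset.sum_eq_add x y hxy.ne, hu.2, hv.2, one_mul, mul_one]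
    · intro t _ ht
      by_cases h1 : t < x
      · rw [hu.1 _ _ h1, zero_mul]
      · by_cases h2 : y < t
        · rw [hv.1 _ _ h2, mul_zero]
        · have h3 : x < t := lt_of_le_of_ne (not_lt.mp h1) (Ne.symm ht.1)
          have h4 : t < y := lt_of_le_of_ne (not_lt.mp h2) ht.2
          rw [hvan x t h3 (Or.inl (by
            rw [Fin.lt_def] at h3 h4 hxy
            omega)), zero_mul]
    · simp
    · simp
  rw [e]
  by_cases h5 : x = k' ∧ y = l'
  · obtain ⟨rfl, rfl⟩ := h5
    rw [hRk]
    ring
  · rw [hR x y hxy hcase h5, hvan x y hxy, add_zero]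
    rcases hcase with h | ⟨h, h'⟩
    · exact Or.inl h
    · right
      refine ⟨h, ?_⟩
      by_contra hcon
      apply h5
      have h6 : (x : ℕ) = k := by omega
      rw [Fin.lt_def] at hxy
      exact ⟨Fin.ext (by omega), Fin.ext (by omega)⟩

/-- Generation of `U` by root elements. -/
theorem UJ_le_of_root (hI : HI σ) {T : Subgroup (SLn K n)}
    (hX : ∀ (i : Fin n) (hi : i < rev i) (b : K), σ b = -b → X i (rev i) hi.ne b ∈ T)
    (hS : ∀ (i j : Fin n) (h : i < j), (i : ℕ) + j + 1 < n → j ≠ rev j → ∀ c, xS σ i j h.ne c ∈ T)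
    (hM : ∀ (i m : Fin n) (hm : rev m = m) (h : i < m) (hi : i ≠ rev i) (a b : K), b + σ b + a * σ a = 0 →
      rM σ hm h.ne hi a b ∈ T) : UJ σ n ≤ T := by
  classical
  have hσ := hI.invol
  have key : ∀ e d : ℕ, n - d = e → 1 ≤ d → ∀ f k : ℕ, n - k = f → ∀ u ∈ UJ σ n,
      (∀ x y : Fin n, x < y → ((y : ℕ) - x < d ∨ ((y : ℕ) - x = d ∧ (x : ℕ) < k)) → (u : Mt K n) x y = 0) → u ∈ T := by
    intro e
    induction e with
    | zero =>
      intro d hd _ f k _ u hu hvan
      have h1 : u = 1 := by
        apply Subtype.ext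
        ext x y
        rw [Matrix.SpecialLinearGroup.coe_one]
        rcases lt_trichotomy x y with h | h | h
        · rw [Matrix.one_apply_ne h.ne]
          exact hvan x y h (Or.inl (by have := y.2; rw [Fin.lt_def] at h; omega))
        · subst h
          rw [hu.1.2, Matrix.one_apply_eq]
        · rw [Matrix.one_apply_ne h.ne', hu.1.1 _ _ h]
      rw [h1]
      exact T.one_mem
    | succ e ihe =>
      intro d hd hd1 f
      induction f with
      | zero =>
        intro k hk u hu hvan
        apply ihe (d + 1) (by omega) (by omega) _ 0 rfl u hu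
        intro x y hxy hcase
        apply hvan x y hxy
        have hx := x.2
        rcases hcase with h | ⟨h, h'⟩
        · by_cases h2 : (y : ℕ) - x = d
          · exact Or.inr ⟨h2, by omega⟩
          · exact Or.inl (by omega)
        · omega
      | succ f ihf =>
        intro k hk u hu hvan
        have hkn : k < n := by omega
        by_cases hl : k + d < n
        · let k' : Fin n := ⟨k, hkn⟩
          let l' : Fin n := ⟨k + d, hl⟩
          have hkl : k' < l' := by
            rw [Fin.lt_def]
            show k < k + d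
            omega
          have hkv : (k' : ℕ) = k := rfl
          have hlv : (l' : ℕ) = k + d := rfl
          set c := (u : Mt K n) k' l' with hc
          have hmv : ∀ t : Fin n, k' < t → t < l' → (u : Mt K n) t l' = 0 := by
            intro t h1 h2
            apply hvan t l' h2
            left
            rw [Fin.lt_def] at h1 h2
            omega
          have hmir := mirror_of_vanish hu hkl hmv
          rcases lt_trichotomy (k + (k + d) + 1) n with h1 | h1 | h1
          · by_cases hlr : l' = rev l'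
            · -- through the middle
              have hm : rev l' = l' := hlr.symm
              have hm2 : (l' : ℕ) + l' + 1 = n := eq_rev_iff'.mp hlr
              have hk2 : k' ≠ rev k' := by
                rw [Ne, eq_rev_iff']
                rw [hkv]
                omega
              obtain ⟨b, hb⟩ := hI.trace (-(c * σ c)) (by
                rw [map_neg, map_mul, hσ]
                ring)
              have hab : b + σ b + c * σ c = 0 := by
                rw [hb]
                ring
              have hr := hM k' l' hm hkl hk2 c b hab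
              have hrU := rM_mem_U (σ := σ) hm hkl hk2 c b
              have hab' : σ b + σ (σ b) + (-c) * σ (-c) = 0 := by
                rw [hσ, map_neg]
                linear_combination hab
              have h3 := ihf (k + 1) (by omega) (u * (rM σ hm hkl.ne hk2 c b)⁻¹)
                ((UJ σ n).mul_mem hu ((UJ σ n).inv_mem (rM_mem_UJ hσ hm hkl hk2 hab)))
                (clear_entry hu.1 ((U K n).inv_mem hrU) hkv hlv hvan (by
                  intro x y hxy hle hne
                  rw [rM_inv hm hkl.ne hk2 hab, coe_rM]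
                  simp only [Matrix.add_apply]
                  rw [Matrix.one_apply_ne hxy.ne, Matrix.single_apply_of_ne, Matrix.single_apply_of_ne,
                    Matrix.single_apply_of_ne]
                  · simp
                  · rintro ⟨h6, h7⟩
                    rw [← h6, ← h7, Fin.val_rev, hkv] at hle
                    omega
                  · rintro ⟨h6, h7⟩
                    rw [← h6, ← h7, Fin.val_rev, hkv, hlv] at hle
                    omega
                  · rintro ⟨h6, h7⟩
                    exact hne ⟨h6.symm, h7.symm⟩) (by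
                  rw [rM_inv hm hkl.ne hk2 hab, coe_rM]
                  simp only [Matrix.add_apply]
                  rw [Matrix.one_apply_ne hkl.ne, Matrix.single_apply_same, Matrix.single_apply_of_ne,
                    Matrix.single_apply_of_ne]
                  · simp [hc]
                  · rintro ⟨-, h6⟩
                    exact (ne_rev_of hm hkl.ne) h6.symm
                  · rintro ⟨h6, -⟩
                    exact hkl.ne h6.symm))
              have h4 := T.mul_mem h3 hr
              simpa using h4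
            · -- short
              have hk2 : k' ≠ rev k' := by
                rw [Ne, eq_rev_iff']
                rw [hkv]
                omega
              have hk3 : k' ≠ rev l' := by
                rw [Ne, eq_rev_iff']
                rw [hkv, hlv]
                omega
              have hr := hS k' l' hkl h1 hlr c
              have h3 := ihf (k + 1) (by omega) (u * (xS σ k' l' hkl.ne c)⁻¹)
                ((UJ σ n).mul_mem hu ((UJ σ n).inv_mem (xS_mem_UJ hσ hkl hk2 hlr hk3 c)))
                (clear_entry hu.1 ((U K n).inv_mem (xS_mem_U hkl c)) hkv hlv hvan (by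
                  intro x y hxy hle hne
                  rw [xS_inv _ hk2 hlr, coe_xS _ hlr]
                  simp only [Matrix.add_apply]
                  rw [Matrix.one_apply_ne hxy.ne, Matrix.single_apply_of_ne, Matrix.single_apply_of_ne]
                  · simp
                  · rintro ⟨h6, h7⟩
                    rw [← h6, ← h7, Fin.val_rev, Fin.val_rev, hkv, hlv] at hle
                    omega
                  · rintro ⟨h6, h7⟩
                    exact hne ⟨h6.symm, h7.symm⟩) (by
                  rw [xS_inv _ hk2 hlr, coe_xS _ hlr]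
                  simp only [Matrix.add_apply]
                  rw [Matrix.one_apply_ne hkl.ne, Matrix.single_apply_same, Matrix.single_apply_of_ne]
                  · simp [hc]
                  · rintro ⟨h6, -⟩
                    exact hk3 h6.symm))
              have h4 := T.mul_mem h3 hr
              simpa using h4
          · -- the long root
            have hlr : l' = rev k' := by
              rw [eq_rev_iff', hlv, hkv]
              omega
            have hc' : σ c = -c := by
              have h2 := hmir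
              rw [hlr, rev_rev] at h2
              rw [← hlr] at h2
              linear_combination h2
            have hkl' : k' < rev k' := by
              rw [← hlr]
              exact hkl
            have hr := hX k' hkl' c hc'
            have h3 := ihf (k + 1) (by omega) (u * (X k' (rev k') hkl'.ne c)⁻¹)
              ((UJ σ n).mul_mem hu ((UJ σ n).inv_mem (X_rev_mem_UJ hσ hkl' hc')))
              (clear_entry hu.1 ((U K n).inv_mem (X_mem_U hkl' c)) hkv hlv hvan (by
                intro x y hxy hle hne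
                rw [X_inv', coe_X, Matrix.add_apply, Matrix.one_apply_ne hxy.ne, Matrix.single_apply_of_ne, add_zero]
                rintro ⟨h6, h7⟩
                exact hne ⟨h6.symm, by rw [hlr, h7]⟩) (by
                rw [X_inv', coe_X, Matrix.add_apply, Matrix.one_apply_ne hkl.ne, ← hc, hlr, Matrix.single_apply_same,
                  zero_add]))
            have h4 := T.mul_mem h3 hr
            simpa using h4
          · -- the upper half: nothing to do
            apply ihf (k + 1) (by omega) u hu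
            intro x y hxy hcase
            rcases hcase with h | ⟨h, h'⟩
            · exact hvan x y hxy (Or.inl h)
            · by_cases h6 : (x : ℕ) = k
              · have h7 : x = k' := Fin.ext h6
                have h8 : y = l' := Fin.ext (by
                  rw [hlv]
                  rw [Fin.lt_def] at hxy
                  omega)
                rw [h7, h8, ← hc]
                have h9 : rev l' < rev k' := rev_lt_rev.mpr hkl
                have h10 : (u : Mt K n) (rev l') (rev k') = 0 := by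
                  apply hvan _ _ h9
                  right
                  rw [Fin.val_rev, Fin.val_rev, hkv, hlv]
                  omega
                rw [h10, map_zero, add_zero] at hmir
                exact hmir
              · exact hvan x y hxy (Or.inr ⟨h, by omega⟩)
        · -- no such entry
          apply ihf (k + 1) (by omega) u hu
          intro x y hxy hcase
          rcases hcase with h | ⟨h, h'⟩
          · exact hvan x y hxy (Or.inl h)
          · apply hvan x y hxy
            right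
            refine ⟨h, ?_⟩
            have := y.2
            rw [Fin.lt_def] at hxy
            omega
  intro u hu
  apply key _ 1 rfl le_rfl _ 0 rfl u hu
  intro x y hxy hcase
  rw [Fin.lt_def] at hxy
  omega

section charp

variable (p : ℕ) [Fact p.Prime] [CharP K p]

include p in
/-- Strongly closed subgroups of `U`. -/
theorem closed_eq_UJ (hI : HI σ) (hn : 4 ≤ n) {T : Subgroup (SLn K n)} (hT : T ≤ UJ σ n) (hne : T ≠ ⊥)
    (hcl : ∀ x ∈ T, ∀ g ∈ G σ n, g * x * g⁻¹ ∈ UJ σ n → g * x * g⁻¹ ∈ T) : T = UJ σ n := by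
  classical
  haveI : NeZero n := ⟨by omega⟩
  let N : Subgroup (UJ σ n) := T.subgroupOf (UJ σ n)
  haveI hNn : N.Normal := by
    constructor
    intro x hx g
    exact T_norm hT hcl g.2 hx
  have hN1 : N ≠ ⊥ := by
    intro h
    apply hne
    rw [eq_bot_iff]
    intro x hx
    have h1 : (⟨x, hT hx⟩ : UJ σ n) ∈ N := hx
    rw [h, Subgroup.mem_bot] at h1
    have := congrArg Subtype.val h1
    exact this
  obtain ⟨z, hzN, hzc, hzo⟩ := Cfsg.Agent.Lib.PGroups.Basic.exists_central_orderOf_eq (UJ_isPGroup (σ := σ) (n := n) p) N hN1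
  have hz1 : z ≠ 1 := by
    rintro rfl
    rw [orderOf_one] at hzo
    exact (Fact.out : p.Prime).one_lt.ne hzo
  have hzU : (z : SLn K n) ∈ UJ σ n := z.2
  have hzT : (z : SLn K n) ∈ T := hzN
  have hzcomm : ∀ u ∈ UJ σ n, (z : SLn K n) * u = u * z := by
    intro u hu
    have h1 := Subgroup.mem_center_iff.mp hzc ⟨u, hu⟩
    exact (congrArg Subtype.val h1).symm
  let f0 : Fin n := ⟨0, by omega⟩
  have hf0 : (f0 : ℕ) = 0 := rfl
  obtain ⟨a, hff, haσ, hza⟩ := central_shape hI hn hzU hzcomm hf0
  have ha : a ≠ 0 := by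
    rintro rfl
    apply hz1
    apply Subtype.ext
    rw [hza]
    apply Subtype.ext
    rw [coe_X]
    simp
  rw [hza] at hzT
  have hX : ∀ (i : Fin n) (hi : i < rev i) (b : K), σ b = -b → X i (rev i) hi.ne b ∈ T :=
    fun i hi b hb => X_all hcl hI hn hf0 hff ha haσ hzT i hi hb
  apply le_antisymm hT
  apply UJ_le_of_root hI hX
  · intro i j h hlt hj c
    by_cases h2 : j < rev j
    · exact xS_near hT hcl hI hX h h2 c
    · obtain ⟨k, rfl⟩ : ∃ k, j = rev k := ⟨rev j, (rev_rev j).symm⟩
      rw [rev_rev] at h2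
      have h3 : k < rev k := lt_of_le_of_ne (not_lt.mp h2) (fun e => hj (by rw [rev_rev]; exact e.symm))
      have h4 : i < k := by
        rw [Fin.lt_def]
        rw [Fin.val_rev] at hlt
        have := k.2
        omega
      exact xS_far hT hcl hI hX h4 h3 c
  · intro i m hm h hi a' b hab
    have hm2 : (m : ℕ) + m + 1 = n := eq_rev_iff'.mp hm.symm
    let f1 : Fin n := ⟨1, by omega⟩
    exact rM_all hT hcl hI hX hm hf0 (f1 := f1) (by
      rw [Fin.lt_def]
      show 0 < 1
      omega) (by
      rw [Fin.lt_def]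
      show 1 < (m : ℕ)
      omega) h hi hab

end charp

end Cfsg.Agent.Lib.H29.SuA
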