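import Cfsg.Agent.Lib.H29.SuC

/-!
# The block subgroups of `U`, and the projective group
-/

set_option autoImplicit false
set_option linter.unusedSimpArgs false

namespace Cfsg.Agent.Lib.H29.SuA

open Matrix Fin Cfsg.Agent.Lib.H29.ParaFusion Cfsg.Agent.Lib.H29.LinA

variable {K : Type*} [Field K] [Fintype K] {n : ℕ} {σ : K →+* K}

/-! ### Elements of `B` -/

lemma BJ_conj {g x : SLn K n} (hg : g ∈ BJ σ n) (hx : x ∈ UJ σ n) : g * x * g⁻¹ ∈ UJ σ n := by
  have hg' : g⁻¹ ∈ B K n := (B K n).inv_mem hg.1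
  refine ⟨⟨?_, fun k => ?_⟩, (G σ n).mul_mem ((G σ n).mul_mem hg.2 hx.2) ((G σ n).inv_mem hg.2)⟩
  · exact (B K n).mul_mem ((B K n).mul_mem hg.1 (U_le_B hx.1)) hg'
  · rw [Matrix.SpecialLinearGroup.coe_mul, Matrix.SpecialLinearGroup.coe_mul,
      UT.mul_diag (UT.mul hg.1 hx.1.1) hg', UT.mul_diag hg.1 hx.1.1, hx.1.2, mul_one, ← UT.mul_diag hg.1 hg',
      ← Matrix.SpecialLinearGroup.coe_mul, mul_inv_cancel, Matrix.SpecialLinearGroup.coe_one, Matrix.one_apply_eq]

lemma diag_rel {g : SLn K n} (hg : g ∈ BJ σ n) (k : Fin n) : σ ((g : Mt K n) (rev k) (rev k)) * (g : Mt K n) k k = 1 := by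
  have h1 := congrFun (congrFun (mem_G.mp hg.2) k) k
  have hU : UT (adj σ (g : Mt K n)) := by
    intro a b hba
    rw [adj_apply, hg.1 _ _ (rev_lt_rev.mpr hba), map_zero]
  rw [UT.mul_diag hU hg.1, adj_apply, Matrix.one_apply_eq] at h1
  exact h1

lemma diag_prod {g : SLn K n} (hg : g ∈ B K n) : ∏ k, (g : Mt K n) k k = 1 := by
  have h9 : (g : Mt K n).det = ∏ k, (g : Mt K n) k k := Matrix.det_of_isUpperTriangular (fun _ _ hlk => hg _ _ hlk)
  rw [← h9, g.2]

lemma diag_ne {g : SLn K n} (hg : g ∈ B K n) (k : Fin n) : (g : Mt K n) k k ≠ 0 := by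
  intro h0
  have h1 := diag_prod hg
  rw [Finset.prod_eq_zero (f := fun l => (g : Mt K n) l l) (Finset.mem_univ k) h0] at h1
  exact zero_ne_one h1

/-! ### Block subgroups -/

/-- The elements of `U` trivial on an interval. -/
def Ub (K : Type*) [Field K] [Fintype K] (n : ℕ) (a b : Fin n) : Subgroup (SLn K n) :=
  let S : Submonoid (SLn K n) :=
    { carrier := {u | u ∈ U K n ∧ ∀ x y, a ≤ x → x < y → y ≤ b → (u : Mt K n) x y = 0}
      mul_mem' := by
        rintro u v ⟨hu, hu'⟩ ⟨hv, hv'⟩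
        refine ⟨(U K n).mul_mem hu hv, ?_⟩
        intro x y hx hxy hy
        rw [Matrix.SpecialLinearGroup.coe_mul, Matrix.mul_apply]
        apply Finset.sum_eq_zero
        intro t _
        by_cases h1 : t < x
        · rw [hu.1 _ _ h1, zero_mul]
        · by_cases h2 : t = x
          · rw [h2, hv' x y hx hxy hy, mul_zero]
          · have h3 : x < t := lt_of_le_of_ne (not_lt.mp h1) (Ne.symm h2)
            by_cases h4 : y < t
            · rw [hv.1 _ _ h4, mul_zero]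
            · rw [hu' x t hx h3 (le_trans (not_lt.mp h4) hy), zero_mul]
      one_mem' := ⟨(U K n).one_mem, fun x y _ hxy _ => by
        rw [Matrix.SpecialLinearGroup.coe_one, Matrix.one_apply_ne hxy.ne]⟩ }
  { S with
    inv_mem' := by
      intro g hg
      rw [inv_eq_pow']
      exact S.pow_mem hg _ }

lemma mem_Ub {a b : Fin n} {u : SLn K n} :
    u ∈ Ub K n a b ↔ u ∈ U K n ∧ ∀ x y, a ≤ x → x < y → y ≤ b → (u : Mt K n) x y = 0 := Iff.rfl

/-- `U` normalizes the block subgroups. -/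
lemma nz_Ub_of_mem {a b : Fin n} {s : SLn K n} (hs : s ∈ U K n) : Nz (Ub K n a b) s := by
  rintro u ⟨hu, hu'⟩
  refine ⟨(U K n).mul_mem ((U K n).mul_mem hs hu) ((U K n).inv_mem hs), ?_⟩
  intro x y hx hxy hy
  have hsu : ∀ t, x ≤ t → t ≤ y → ((s * u : SLn K n) : Mt K n) x t = (s : Mt K n) x t := by
    intro t ht1 ht2
    rw [Matrix.SpecialLinearGroup.coe_mul, Matrix.mul_apply, Finset.sum_eq_single t, hu.2, mul_one]
    · intro r _ hr
      by_cases h1 : r < x
      · rw [hs.1 _ _ h1, zero_mul]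
      · by_cases h2 : t < r
        · rw [hu.1 _ _ h2, mul_zero]
        · have h3 : r < t := lt_of_le_of_ne (not_lt.mp h2) hr
          rw [hu' r t (le_trans hx (not_lt.mp h1)) h3 (le_trans ht2 hy), mul_zero]
    · simp
  have hsi := (U K n).inv_mem hs
  have hsuU := (U K n).mul_mem hs hu
  have h1 : ((s * u * s⁻¹ : SLn K n) : Mt K n) x y = ((s * s⁻¹ : SLn K n) : Mt K n) x y := by
    rw [Matrix.SpecialLinearGroup.coe_mul (s * u) s⁻¹, Matrix.SpecialLinearGroup.coe_mul s s⁻¹, Matrix.mul_apply, Matrix.mul_apply]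
    apply Finset.sum_congr rfl
    intro t _
    by_cases h2 : t < x
    · rw [hsuU.1 _ _ h2, hs.1 _ _ h2]
    · by_cases h3 : y < t
      · rw [hsi.1 _ _ h3, mul_zero, mul_zero]
      · rw [hsu t (not_lt.mp h2) (not_lt.mp h3)]
  rw [h1, mul_inv_cancel, Matrix.SpecialLinearGroup.coe_one, Matrix.one_apply_ne hxy.ne]

/-- The block subgroups of the unitary group. -/
def Ab (σ : K →+* K) (a b : Fin n) : Subgroup (SLn K n) := Ub K n a b ⊓ G σ n

lemma Ab_le_UJ {a b : Fin n} : Ab σ a b ≤ UJ σ n := fun _ h => ⟨h.1.1, h.2⟩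

lemma Ab_le_G {a b : Fin n} : Ab σ a b ≤ G σ n := fun _ h => h.2

lemma nz_Ab_of_mem {a b : Fin n} {s : SLn K n} (hs : s ∈ UJ σ n) : Nz (Ab σ a b) s := fun _ hu =>
  ⟨nz_Ub_of_mem hs.1 _ hu.1, (G σ n).mul_mem ((G σ n).mul_mem hs.2 hu.2) ((G σ n).inv_mem hs.2)⟩

/-- Monomial elements normalizing `U`. -/
lemma nz_UJ_of_torus {d : Fin n → K} (hd : ∀ k, d k * σ (d (rev k)) = 1)
    (h : (∏ k, d k) * ((Equiv.Perm.sign (1 : Equiv.Perm (Fin n)) : ℤˣ) : ℤ) = 1) :
    Nz (UJ σ n) (monoSL 1 d h) := by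
  have hm := monoSL_mem_G (σ := σ) (s := 1) (fun _ => rfl) hd h
  rintro u ⟨⟨hu, hu'⟩, hu''⟩
  refine ⟨⟨?_, ?_⟩, (G σ n).mul_mem ((G σ n).mul_mem hm hu'') ((G σ n).inv_mem hm)⟩
  · intro k l hlk
    rw [conj_monoSL _ (d_ne hd)]
    simp only [Equiv.Perm.one_apply]
    rw [hu k l hlk]
    simp
  · intro k
    rw [conj_monoSL _ (d_ne hd)]
    simp only [Equiv.Perm.one_apply]
    rw [hu']
    simp [d_ne hd k]

/-- A monomial element normalizing a block subgroup. -/
lemma nz_Ab_mono {a b : Fin n} {s : Equiv.Perm (Fin n)} {d : Fin n → K} (hs : ∀ k, s (rev k) = rev (s k))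
    (hd : ∀ k, d k * σ (d (rev k)) = 1) (h : (∏ k, d k) * ((Equiv.Perm.sign s : ℤˣ) : ℤ) = 1)
    (hO : ∀ u ∈ Ab σ a b, ∀ k l, l < k → (u : Mt K n) (s k) (s l) = 0)
    (hO2 : ∀ u ∈ Ab σ a b, ∀ x y, a ≤ x → x < y → y ≤ b → (u : Mt K n) (s x) (s y) = 0) :
    Nz (Ab σ a b) (monoSL s d h) := by
  have hm := monoSL_mem_G (σ := σ) hs hd h
  intro u hu
  refine ⟨⟨⟨?_, ?_⟩, ?_⟩, (G σ n).mul_mem ((G σ n).mul_mem hm hu.2) ((G σ n).inv_mem hm)⟩
  · intro k l hlk
    rw [conj_monoSL _ (d_ne hd), hO u hu k l hlk]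
    simp
  · intro k
    rw [conj_monoSL _ (d_ne hd), hu.1.1.2]
    simp [d_ne hd k]
  · intro x y hx hxy hy
    rw [conj_monoSL _ (d_ne hd), hO2 u hu x y hx hxy hy]
    simp

/-- The torus normalizes the block subgroups. -/
lemma nz_Ab_torus {a b : Fin n} {d : Fin n → K} (hd : ∀ k, d k * σ (d (rev k)) = 1)
    (h : (∏ k, d k) * ((Equiv.Perm.sign (1 : Equiv.Perm (Fin n)) : ℤˣ) : ℤ) = 1) :
    Nz (Ab σ a b) (monoSL 1 d h) :=
  nz_Ab_mono (fun _ => rfl) hd h (fun _ hu k l hlk => hu.1.1.1 k l hlk) (fun _ hu x y hx hxy hy => hu.1.2 x y hx hxy hy)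

/-! ### Consequences of commuting -/

lemma diag_of_comm_xS {g : SLn K n} {i j : Fin n} (h : i ≠ j) (hj : j ≠ rev j) (hij : i ≠ rev j) {c : K} (hc : c ≠ 0)
    (hcomm : g * xS σ i j h c = xS σ i j h c * g) : (g : Mt K n) i i = (g : Mt K n) j j := by
  have h1 := comm_row h hj hij c hcomm j
  have hne : j ≠ rev i := fun e => hij (by rw [e, rev_rev])
  rw [if_pos rfl, if_neg hne, add_zero] at h1
  exact (mul_right_cancel₀ hc (by linear_combination -h1 : (g : Mt K n) i i * c = (g : Mt K n) j j * c))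

lemma diag_of_comm_X {g : SLn K n} {i j : Fin n} (h : i ≠ j) {c : K} (hc : c ≠ 0)
    (hcomm : g * X i j h c = X i j h c * g) : (g : Mt K n) i i = (g : Mt K n) j j := by
  have h1 := congrArg (fun x : SLn K n => (x : Mt K n)) hcomm
  simp only [Matrix.SpecialLinearGroup.coe_mul, coe_X] at h1
  have h2 := congrFun (congrFun h1 i) j
  simp only [mul_add, add_mul, Matrix.mul_one, Matrix.one_mul, Matrix.add_apply, E_mul_apply, mul_E_apply, if_true] at h2
  exact (mul_right_cancel₀ hc (by linear_combination h2 : (g : Mt K n) i i * c = (g : Mt K n) j j * c))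

lemma diag_of_comm_rM {g : SLn K n} (hg : g ∈ B K n) {i m : Fin n} (hm : rev m = m) (him : i < m) (hi : i ≠ rev i) {a b : K}
    (ha : a ≠ 0) (hcomm : g * rM σ hm him.ne hi a b = rM σ hm him.ne hi a b * g) :
    (g : Mt K n) i i = (g : Mt K n) m m := by
  have h1 := congrArg (fun x : SLn K n => (x : Mt K n)) hcomm
  simp only [Matrix.SpecialLinearGroup.coe_mul, coe_rM] at h1
  have h2 := congrFun (congrFun h1 i) m
  have hm1 : m ≠ rev i := ne_rev_of hm him.ne
  have hlt : m < rev i := by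
    have := rev_lt_rev.mpr him
    rwa [hm] at this
  simp only [mul_add, add_mul, Matrix.mul_one, Matrix.one_mul, Matrix.add_apply, E_mul_apply, mul_E_apply, if_true,
    if_neg him.ne, if_neg hm1] at h2
  rw [hg _ _ hlt] at h2
  exact (mul_right_cancel₀ ha (by linear_combination h2 : (g : Mt K n) i i * a = (g : Mt K n) m m * a))

end Cfsg.Agent.Lib.H29.SuA
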