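import Cfsg.Agent.Lib.H29.SuD

/-!
# An abstract projective quotient of the unitary group
-/

set_option autoImplicit false
set_option linter.unusedSimpArgs false

namespace Cfsg.Agent.Lib.H29.SuA

open Matrix Fin Cfsg.Agent.Lib.H29.ParaFusion Cfsg.Agent.Lib.H29.LinA

variable {K : Type*} [Field K] [Fintype K] {n : ℕ} {σ : K →+* K}
variable {Γ : Type*} [Group Γ]

/-- The data of the projective quotient. -/
structure PQ (π : G σ n →* Γ) : Prop where
  surj : Function.Surjective π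
  ker : ∀ x y : G σ n, π x = π y → ∃ c : K, ((x : SLn K n) : Mt K n) = c • ((y : SLn K n) : Mt K n)
  sc : ∀ (z : G σ n) (c : K), ((z : SLn K n) : Mt K n) = c • (1 : Mt K n) → π z = 1

/-- Projection of a subgroup of `SL_n`. -/
def P1 (π : G σ n →* Γ) (A : Subgroup (SLn K n)) : Subgroup Γ := (A.subgroupOf (G σ n)).map π

lemma mem_P1 (π : G σ n →* Γ) {A : Subgroup (SLn K n)} {u : G σ n} (hu : (u : SLn K n) ∈ A) : π u ∈ P1 π A :=
  ⟨u, Subgroup.mem_subgroupOf.mpr hu, rfl⟩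

lemma P1_mono (π : G σ n →* Γ) {A B : Subgroup (SLn K n)} (h : A ≤ B) : P1 π A ≤ P1 π B := by
  rintro _ ⟨a, ha, rfl⟩
  exact mem_P1 π (h (Subgroup.mem_subgroupOf.mp ha))

lemma nzP (π : G σ n →* Γ) {A : Subgroup (SLn K n)} {g : G σ n} (h : Nz A (g : SLn K n)) : Nz (P1 π A) (π g) := by
  rintro _ ⟨a, ha, rfl⟩
  refine ⟨g * a * g⁻¹, ?_, by simp only [map_mul, map_inv]⟩
  apply Subgroup.mem_subgroupOf.mpr
  have := h _ (Subgroup.mem_subgroupOf.mp ha)
  simpa using this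

section charp

variable (p : ℕ) [Fact p.Prime] [CharP K p] [NeZero n] {π : G σ n →* Γ}

include p in
/-- Conjugates inside the preimage of the Sylow subgroup. -/
lemma conj_mem_UJ_of_nzP (hπ : PQ π) {g : G σ n} (hg : Nz (P1 π (UJ σ n)) (π g)) {u : SLn K n} (hu : u ∈ UJ σ n) :
    (g : SLn K n) * u * (g : SLn K n)⁻¹ ∈ UJ σ n := by
  let u' : G σ n := ⟨u, hu.2⟩
  obtain ⟨v, hv, hve⟩ := hg (π u') (mem_P1 π hu)
  have hv' : (v : SLn K n) ∈ UJ σ n := Subgroup.mem_subgroupOf.mp hv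
  have h1 : π (g * u' * g⁻¹) = π v := by
    rw [hve]
    simp only [map_mul, map_inv]
  obtain ⟨c, hc⟩ := hπ.ker _ _ h1
  have hc' : (((g : SLn K n) * u * (g : SLn K n)⁻¹ : SLn K n) : Mt K n) = c • ((v : SLn K n) : Mt K n) := hc
  obtain ⟨k₁, hk₁⟩ := UJ_isPGroup (σ := σ) (n := n) p ⟨u, hu⟩
  obtain ⟨k₂, hk₂⟩ := UJ_isPGroup (σ := σ) (n := n) p ⟨(v : SLn K n), hv'⟩
  have hk₁' : u ^ (p ^ k₁) = 1 := congrArg Subtype.val hk₁
  have hk₂' : (v : SLn K n) ^ (p ^ k₂) = 1 := congrArg Subtype.val hk₂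
  have h2 : ((g : SLn K n) * u * (g : SLn K n)⁻¹) ^ (p ^ (k₁ + k₂)) = 1 := by
    rw [conj_pow, pow_add, pow_mul, hk₁']
    simp
  have h3 : (v : SLn K n) ^ (p ^ (k₁ + k₂)) = 1 := by
    rw [pow_add, pow_mul', hk₂', one_pow]
  have h4 : c ^ (p ^ (k₁ + k₂)) = 1 := by
    have h5 := congrArg (fun x : SLn K n => (x : Mt K n)) h2
    simp only [Matrix.SpecialLinearGroup.coe_pow, Matrix.SpecialLinearGroup.coe_one] at h5
    rw [hc', smul_pow, ← Matrix.SpecialLinearGroup.coe_pow, h3, Matrix.SpecialLinearGroup.coe_one] at h5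
    let k : Fin n := ⟨0, Nat.pos_of_ne_zero (NeZero.ne n)⟩
    have h6 := congrFun (congrFun h5 k) k
    simpa using h6
  have h5 : c = 1 := by
    have h6 : (c - 1) ^ (p ^ (k₁ + k₂)) = 0 := by
      rw [sub_pow_char_pow, h4, one_pow, sub_self]
    exact sub_eq_zero.mp (pow_eq_zero_iff (pow_ne_zero _ (Fact.out (p := p.Prime)).ne_zero) |>.mp h6)
  have h6 : (g : SLn K n) * u * (g : SLn K n)⁻¹ = v := by
    apply Subtype.ext
    rw [hc', h5, one_smul]
  rw [h6]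
  exact hv'

include p in
/-- Normalizing the projected `U` gives `B`. -/
lemma mem_BJ_of_nzP (hI : HI σ) (hπ : PQ π) {g : G σ n} (hg : Nz (P1 π (UJ σ n)) (π g)) : (g : SLn K n) ∈ BJ σ n := by
  have h1 : (g : SLn K n)⁻¹ ∈ BJ σ n := by
    apply mem_BJ_of_normalizes hI ((G σ n).inv_mem g.2)
    intro u hu
    rw [inv_inv]
    exact conj_mem_UJ_of_nzP p hπ hg hu
  have := (BJ σ n).inv_mem h1
  rwa [inv_inv] at this

omit [CharP K p] in
/-- The centralizer in the quotient lifts. -/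
lemma comm_of_pi (hπ : PQ π) {g x : G σ n} (hg : (g : SLn K n) ∈ BJ σ n) (hx : (x : SLn K n) ∈ UJ σ n)
    (h : π (g * x * g⁻¹) = π x) : (g : SLn K n) * x = x * g := by
  obtain ⟨c, hc⟩ := hπ.ker _ _ h
  have hc' : (((g : SLn K n) * x * (g : SLn K n)⁻¹ : SLn K n) : Mt K n) = c • ((x : SLn K n) : Mt K n) := hc
  let k : Fin n := ⟨0, Nat.pos_of_ne_zero (NeZero.ne n)⟩
  have h1 := congrFun (congrFun hc' k) k
  rw [(BJ_conj hg hx).1.2 k, Matrix.smul_apply, hx.1.2 k, smul_eq_mul, mul_one] at h1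
  subst h1
  rw [one_smul] at hc'
  have h3 : (g : SLn K n) * x * (g : SLn K n)⁻¹ = x := Subtype.ext hc'
  rwa [mul_inv_eq_iff_eq_mul] at h3

omit [CharP K p] in
/-- Elements of `B` with constant diagonal lie in the projected `U`. -/
lemma mem_P_of_diag (hI : HI σ) (hπ : PQ π) {g : G σ n} (hg : (g : SLn K n) ∈ BJ σ n) {d : K}
    (hd : ∀ k, ((g : SLn K n) : Mt K n) k k = d) : π g ∈ P1 π (UJ σ n) := by
  classical
  have hσ := hI.invol
  let k₀ : Fin n := ⟨0, Nat.pos_of_ne_zero (NeZero.ne n)⟩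
  have h1 : σ d * d = 1 := by
    have := diag_rel hg k₀
    rwa [hd, hd] at this
  have hd0 : d ≠ 0 := right_ne_zero_of_mul_eq_one h1
  have h2 : d ^ n = 1 := by
    have := diag_prod hg.1
    simp only [hd] at this
    simpa using this
  have hdet : (∏ _k : Fin n, d⁻¹) * ((Equiv.Perm.sign (1 : Equiv.Perm (Fin n)) : ℤˣ) : ℤ) = 1 := by
    simp [h2]
  have hrel : ∀ k : Fin n, (fun _ => d⁻¹) k * σ ((fun _ => d⁻¹) (rev k)) = 1 := by
    intro k
    simp only [map_inv₀]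
    have hsd : σ d ≠ 0 := left_ne_zero_of_mul_eq_one h1
    field_simp
    linear_combination -h1
  have hzG := monoSL_mem_G (σ := σ) (s := 1) (d := fun _ => d⁻¹) (fun _ => rfl) hrel hdet
  let z : G σ n := ⟨monoSL 1 (fun _ => d⁻¹) hdet, hzG⟩
  have hz1 : π z = 1 := by
    apply hπ.sc z d⁻¹
    show mono 1 (fun _ => d⁻¹) = _
    rw [mono_one]
    ext k l
    by_cases hkl : k = l
    · subst hkl
      simp
    · simp [hkl]
  have hzg : ((z * g : G σ n) : SLn K n) ∈ UJ σ n := by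
    refine ⟨⟨?_, ?_⟩, (G σ n).mul_mem hzG hg.2⟩
    · intro k l hlk
      show ((monoSL 1 (fun _ => d⁻¹) hdet * (g : SLn K n) : SLn K n) : Mt K n) k l = 0
      rw [Matrix.SpecialLinearGroup.coe_mul]
      show (mono 1 (fun _ => d⁻¹) * ((g : SLn K n) : Mt K n) : Mt K n) k l = 0
      rw [mono_mul_apply]
      simp only [Equiv.Perm.one_apply]
      rw [hg.1 k l hlk, mul_zero]
    · intro k
      show ((monoSL 1 (fun _ => d⁻¹) hdet * (g : SLn K n) : SLn K n) : Mt K n) k k = 1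
      rw [Matrix.SpecialLinearGroup.coe_mul]
      show (mono 1 (fun _ => d⁻¹) * ((g : SLn K n) : Mt K n) : Mt K n) k k = 1
      rw [mono_mul_apply]
      simp only [Equiv.Perm.one_apply]
      rw [hd]
      exact inv_mul_cancel₀ hd0
  have h3 := mem_P1 π hzg
  rwa [map_mul, hz1, one_mul] at h3

include p in
/-- The goodness criterion. -/
theorem good_of (hI : HI σ) (hπ : PQ π) {a b : Fin n} {h : G σ n} (hU : Nz (UJ σ n) (h : SLn K n))
    (hA : Nz (Ab σ a b) (h : SLn K n))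
    (hD : π h ∈ Subgroup.closure (Gen (P1 π (UJ σ n)) (P1 π (Ab σ a b))))
    (hC : ∀ g ∈ BJ σ n, (∀ x ∈ Ab σ a b, g * x = x * g) → ∃ d, ∀ k, (g : Mt K n) k k = d) :
    ParaGood (P1 π (UJ σ n)) (π h) := by
  refine ⟨⟨P1 π (Ab σ a b), P1_mono π Ab_le_UJ, ?_, nzP π hA, nzP π hU, ⟨π h, hD, fun _ _ => rfl⟩, ?_⟩⟩
  · rintro _ ⟨s, hs, rfl⟩
    exact nzP π (nz_Ab_of_mem (Subgroup.mem_subgroupOf.mp hs))
  · intro m hm hma
    obtain ⟨g, rfl⟩ := hπ.surj m
    have hgB := mem_BJ_of_nzP p hI hπ hm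
    obtain ⟨d, hd⟩ := hC _ hgB (by
      intro x hx
      have hx' := hma (π ⟨x, Ab_le_G hx⟩) (mem_P1 π hx)
      exact comm_of_pi hπ hgB (x := ⟨x, Ab_le_G hx⟩) (Ab_le_UJ hx) (by simpa only [map_mul, map_inv] using hx'))
    exact ⟨_, mem_P_of_diag hI hπ hgB hd, fun _ _ => rfl⟩

end charp

/-! ### Membership in the generated subgroup -/

section gens

variable {π : G σ n →* Γ}

/-- Elements of `U` are generators. -/
lemma gen_of_UJ {a b : Fin n} {u : G σ n} (hu : (u : SLn K n) ∈ UJ σ n) :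
    π u ∈ Subgroup.closure (Gen (P1 π (UJ σ n)) (P1 π (Ab σ a b))) := by
  apply Subgroup.subset_closure
  exact ⟨1, Nz.one _, π u, mem_P1 π hu, by simp⟩

/-- Conjugates of elements of `U` by elements of `N(A)` are generators. -/
lemma gen_of_conj {a b : Fin n} {w u v : G σ n} (hw : Nz (Ab σ a b) (w : SLn K n)) (hu : (u : SLn K n) ∈ UJ σ n)
    (hv : (v : SLn K n) = w * u * (w : SLn K n)⁻¹) :
    π v ∈ Subgroup.closure (Gen (P1 π (UJ σ n)) (P1 π (Ab σ a b))) := by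
  apply Subgroup.subset_closure
  refine ⟨π w, nzP π hw, π u, mem_P1 π hu, ?_⟩
  have : v = w * u * w⁻¹ := Subtype.ext hv
  rw [this]
  simp only [map_mul, map_inv]

end gens

end Cfsg.Agent.Lib.H29.SuA
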