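import Cfsg.Agent.Lib.H29.SuE

/-!
# The diagonal of centralizers of block subgroups
-/

set_option autoImplicit false
set_option linter.unusedSimpArgs false

namespace Cfsg.Agent.Lib.H29.SuA

open Matrix Fin Cfsg.Agent.Lib.H29.ParaFusion Cfsg.Agent.Lib.H29.LinA

variable {K : Type*} [Field K] [Fintype K] {n : ℕ} {σ : K →+* K}

section members

variable {a b : Fin n}

lemma xS_mem_Ab (hσ : ∀ x, σ (σ x) = x) {i j : Fin n} (h : i < j) (hi : i ≠ rev i) (hj : j ≠ rev j) (hij : i ≠ rev j) (c : K)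
    (hz : ∀ x y : Fin n, a ≤ x → x < y → y ≤ b → ¬(i = x ∧ j = y) ∧ ¬(rev j = x ∧ rev i = y)) :
    xS σ i j h.ne c ∈ Ab σ a b := by
  have h1 := xS_mem_UJ hσ h hi hj hij c
  refine ⟨⟨h1.1, ?_⟩, h1.2⟩
  intro x y hx hxy hy
  obtain ⟨e1, e2⟩ := hz x y hx hxy hy
  rw [coe_xS h.ne hj, Matrix.add_apply, Matrix.add_apply, Matrix.one_apply_ne hxy.ne, Matrix.single_apply_of_ne _ _ _ _ _ e1,
    Matrix.single_apply_of_ne _ _ _ _ _ e2]
  simp

lemma X_mem_Ab (hσ : ∀ x, σ (σ x) = x) {i : Fin n} (h : i < rev i) {c : K} (hc : σ c = -c)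
    (hz : ∀ x y : Fin n, a ≤ x → x < y → y ≤ b → ¬(i = x ∧ rev i = y)) : X i (rev i) h.ne c ∈ Ab σ a b := by
  have h1 := X_rev_mem_UJ hσ h hc
  refine ⟨⟨h1.1, ?_⟩, h1.2⟩
  intro x y hx hxy hy
  rw [coe_X, Matrix.add_apply, Matrix.one_apply_ne hxy.ne, Matrix.single_apply_of_ne _ _ _ _ _ (hz x y hx hxy hy)]
  simp

lemma rM_mem_Ab (hσ : ∀ x, σ (σ x) = x) {i m : Fin n} (hm : rev m = m) (him : i < m) (hi : i ≠ rev i) {c d : K}
    (hab : d + σ d + c * σ c = 0)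
    (hz : ∀ x y : Fin n, a ≤ x → x < y → y ≤ b → ¬(i = x ∧ m = y) ∧ ¬(m = x ∧ rev i = y) ∧ ¬(i = x ∧ rev i = y)) :
    rM σ hm him.ne hi c d ∈ Ab σ a b := by
  have h1 := rM_mem_UJ hσ hm him hi hab
  refine ⟨⟨h1.1, ?_⟩, h1.2⟩
  intro x y hx hxy hy
  obtain ⟨e1, e2, e3⟩ := hz x y hx hxy hy
  rw [coe_rM, Matrix.add_apply, Matrix.add_apply, Matrix.add_apply, Matrix.one_apply_ne hxy.ne,
    Matrix.single_apply_of_ne _ _ _ _ _ e1, Matrix.single_apply_of_ne _ _ _ _ _ e2, Matrix.single_apply_of_ne _ _ _ _ _ e3]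
  simp

end members

/-- Constant diagonal from commuting with the root elements at the first position. -/
lemma diag_core (hI : HI σ) (hn : 4 ≤ n) {g : SLn K n} (hg : g ∈ B K n) {f0 f1 : Fin n} (hf0 : (f0 : ℕ) = 0)
    (hf1 : (f1 : ℕ) = 1) (A : Subgroup (SLn K n)) (hcomm : ∀ x ∈ A, g * x = x * g)
    (hk : ∀ k (h : f0 < k), k < rev f0 → k ≠ rev k → k ≠ f1 → xS σ f0 k h.ne 1 ∈ A)
    (hX : ∀ (c₀ : K) (_ : σ c₀ = -c₀) (hh : f0 < rev f0), X f0 (rev f0) hh.ne c₀ ∈ A)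
    (hM : ∀ (m : Fin n) (hm : rev m = m) (hh : f0 < m) (hi : f0 ≠ rev f0) (s : K), s + σ s + 1 = 0 →
      rM σ hm hh.ne hi 1 s ∈ A)
    (h1 : (g : Mt K n) f1 f1 = (g : Mt K n) f0 f0) (k : Fin n) : (g : Mt K n) k k = (g : Mt K n) f0 f0 := by
  by_cases hk0 : k = f0
  · rw [hk0]
  have hlt : f0 < k := by
    rw [Fin.lt_def, hf0]
    have : (k : ℕ) ≠ 0 := fun e => hk0 (Fin.ext (e.trans hf0.symm))
    omega
  by_cases hk1 : k = f1
  · rw [hk1, h1]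
  have hr : f0 < rev f0 := by
    rw [Fin.lt_def, val_rev, hf0]
    omega
  obtain ⟨c₀, hc0, hc⟩ := hI.exists_c
  by_cases hk2 : k = rev f0
  · have := diag_of_comm_X hr.ne hc0 (hcomm _ (hX c₀ hc hr))
    rw [hk2, this]
  have hk3 : k < rev f0 := by
    rw [Fin.lt_def, val_rev, hf0]
    have h2 : (k : ℕ) ≠ n - (0 + 1) := fun e => hk2 (Fin.ext (by rw [val_rev, hf0, e]))
    have h3 := k.2
    omega
  by_cases hk4 : k = rev k
  · obtain ⟨s, hs⟩ := hI.trace (-1) (by simp)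
    have hs' : s + σ s + 1 = 0 := by rw [hs]; ring
    have := diag_of_comm_rM (σ := σ) hg hk4.symm hlt hr.ne (one_ne_zero) (hcomm _ (hM k hk4.symm hlt hr.ne s hs'))
    exact this.symm
  · have hne : f0 ≠ rev k := by
      intro e
      apply hk3.ne
      rw [e, rev_rev]
    have := diag_of_comm_xS (σ := σ) hlt.ne hk4 hne one_ne_zero (hcomm _ (hk k hlt hk3 hk4 hk1))
    exact this.symm

/-- Blocks away from the first position. -/
lemma hC_typeI (hI : HI σ) (hn : 4 ≤ n) {a b : Fin n} (h1 : 0 < (a : ℕ)) (h2 : (b : ℕ) + 1 < n) (g : SLn K n)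
    (hg : g ∈ BJ σ n) (hcomm : ∀ x ∈ Ab σ a b, g * x = x * g) : ∃ d, ∀ k, (g : Mt K n) k k = d := by
  have hσ := hI.invol
  let f0 : Fin n := ⟨0, by omega⟩
  let f1 : Fin n := ⟨1, by omega⟩
  have hf0 : (f0 : ℕ) = 0 := rfl
  have hf1 : (f1 : ℕ) = 1 := rfl
  have hxa : ∀ x : Fin n, a ≤ x → f0 ≠ x := by
    intro x hx e
    rw [← e, Fin.le_def, hf0] at hx
    omega
  have hyb : ∀ y : Fin n, y ≤ b → rev f0 ≠ y := by
    intro y hy e
    rw [← e, Fin.le_def, val_rev, hf0] at hy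
    omega
  have hk : ∀ k (h : f0 < k), k < rev f0 → k ≠ rev k → f0 ≠ rev k → xS σ f0 k h.ne 1 ∈ Ab σ a b := by
    intro k h hk1 hk2 hk3
    have hr : f0 ≠ rev f0 := (lt_trans h hk1).ne
    exact xS_mem_Ab hσ h hr hk2 hk3 1 (fun x y hx _ hy =>
      ⟨fun e => hxa x hx e.1, fun e => hyb y hy e.2⟩)
  have hnr : ∀ k : Fin n, k < rev f0 → f0 ≠ rev k := by
    intro k hk e
    apply hk.ne
    rw [e, rev_rev]
  refine ⟨_, diag_core hI hn hg.1 (f0 := f0) (f1 := f1) hf0 hf1 (Ab σ a b) hcomm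
    (fun k h hk1 hk2 _ => hk k h hk1 hk2 (hnr k hk1))
    (fun c₀ hc hh => X_mem_Ab hσ hh hc (fun x y hx _ _ e => hxa x hx e.1))
    (fun m hm hh hi s hs => rM_mem_Ab hσ hm hh hi (by simpa using hs) (fun x y hx _ hy =>
      ⟨fun e => hxa x hx e.1, fun e => hyb y hy e.2, fun e => hxa x hx e.1⟩)) ?_⟩
  have h01 : f0 < f1 := by
    rw [Fin.lt_def, hf0, hf1]
    omega
  have h1r : f1 < rev f0 := by
    rw [Fin.lt_def, hf1, val_rev, hf0]
    omega
  have h1rr : f1 ≠ rev f1 := by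
    intro e
    have := congrArg Fin.val e
    rw [hf1, val_rev, hf1] at this
    omega
  exact (diag_of_comm_xS (σ := σ) h01.ne h1rr (hnr f1 h1r) one_ne_zero (hcomm _ (hk f1 h01 h1r h1rr (hnr f1 h1r)))).symm

/-- The block at the first two positions. -/
lemma hC_zero (hI : HI σ) (hn : 4 ≤ n) {a b : Fin n} (h1 : (a : ℕ) = 0) (h2 : (b : ℕ) = 1) (g : SLn K n)
    (hg : g ∈ BJ σ n) (hcomm : ∀ x ∈ Ab σ a b, g * x = x * g) : ∃ d, ∀ k, (g : Mt K n) k k = d := by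
  have hσ := hI.invol
  let f0 : Fin n := ⟨0, by omega⟩
  let f1 : Fin n := ⟨1, by omega⟩
  have hf0 : (f0 : ℕ) = 0 := rfl
  have hf1 : (f1 : ℕ) = 1 := rfl
  have hblock : ∀ x y : Fin n, a ≤ x → x < y → y ≤ b → x = f0 ∧ y = f1 := by
    intro x y hx hxy hy
    rw [Fin.le_def] at hx hy
    rw [Fin.lt_def] at hxy
    constructor <;> apply Fin.ext <;> simp only [f0, f1] <;> omega
  have hr0 : rev f0 ≠ f1 := by
    intro e
    have := congrArg Fin.val e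
    rw [hf1, val_rev, hf0] at this
    omega
  have hk : ∀ k (h : f0 < k), k < rev f0 → k ≠ rev k → f0 ≠ rev k → k ≠ f1 → xS σ f0 k h.ne 1 ∈ Ab σ a b := by
    intro k h hk1 hk2 hk3 hk4
    have hr : f0 ≠ rev f0 := (lt_trans h hk1).ne
    refine xS_mem_Ab hσ h hr hk2 hk3 1 (fun x y hx hxy hy => ?_)
    obtain ⟨rfl, rfl⟩ := hblock x y hx hxy hy
    exact ⟨fun e => hk4 e.2, fun e => hr0 e.2⟩
  have hnr : ∀ k : Fin n, k < rev f0 → f0 ≠ rev k := by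
    intro k hk e
    apply hk.ne
    rw [e, rev_rev]
  have h1r : rev f1 ≠ f1 := by
    intro e
    have := congrArg Fin.val e
    rw [hf1, val_rev, hf1] at this
    omega
  have h01' : f0 < rev f1 := by
    rw [Fin.lt_def, hf0, val_rev, hf1]
    omega
  have h02 : rev f1 < rev f0 := by
    rw [Fin.lt_def, val_rev, val_rev, hf0, hf1]
    omega
  have h11 : f1 < rev f1 := by
    rw [Fin.lt_def, hf1, val_rev, hf1]
    omega
  have hrr : rev f1 ≠ rev (rev f1) := by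
    rw [rev_rev]
    exact h1r
  refine ⟨_, diag_core hI hn hg.1 (f0 := f0) (f1 := f1) hf0 hf1 (Ab σ a b) hcomm
    (fun k h hk1 hk2 hk3 => hk k h hk1 hk2 (hnr k hk1) hk3)
    (fun c₀ hc hh => X_mem_Ab hσ hh hc (fun x y hx hxy hy e => by
      obtain ⟨rfl, rfl⟩ := hblock x y hx hxy hy
      exact hr0 e.2))
    (fun m hm hh hi s hs => rM_mem_Ab hσ hm hh hi (by simpa using hs) (fun x y hx hxy hy => by
      obtain ⟨rfl, rfl⟩ := hblock x y hx hxy hy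
      have hm1 : m ≠ f1 := by
        intro e
        rw [e] at hm
        exact h1r hm
      exact ⟨fun e => hm1 e.2, fun e => hr0 e.2, fun e => hr0 e.2⟩)) ?_⟩
  obtain ⟨c₀, hc0, hc⟩ := hI.exists_c
  have e1 := diag_of_comm_X h11.ne hc0 (hcomm _ (X_mem_Ab hσ h11 hc (fun x y hx hxy hy e => by
    obtain ⟨rfl, rfl⟩ := hblock x y hx hxy hy
    exact h1r e.2)))
  have e2 := diag_of_comm_xS (σ := σ) h01'.ne hrr (hnr _ h02) one_ne_zero
    (hcomm _ (hk _ h01' h02 hrr (hnr _ h02) h1r))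
  rw [e1, e2]

end Cfsg.Agent.Lib.H29.SuA
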