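import Cfsg.Agent.Lib.H29.SuF

/-!
# The short simple roots of the unitary group
-/

set_option autoImplicit false
set_option linter.unusedSimpArgs false

namespace Cfsg.Agent.Lib.H29.SuA

open Matrix Fin Cfsg.Agent.Lib.H29.ParaFusion Cfsg.Agent.Lib.H29.LinA

section iota

variable {K : Type*} [Field K] {n : ℕ} {a b c d : Fin n}

lemma ι_comm (hac : a ≠ c) (had : a ≠ d) (hbc : b ≠ c) (hbd : b ≠ d) (Q R : Matrix (Fin 2) (Fin 2) K) :
    ι a b Q * ι c d R = ι c d R * ι a b Q := by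
  simp only [ι, add_mul, mul_add, one_mul, mul_one, Matrix.single_mul_single_of_ne _ _ _ _ hac,
    Matrix.single_mul_single_of_ne _ _ _ _ had, Matrix.single_mul_single_of_ne _ _ _ _ hbc,
    Matrix.single_mul_single_of_ne _ _ _ _ hbd, Matrix.single_mul_single_of_ne _ _ _ _ hac.symm,
    Matrix.single_mul_single_of_ne _ _ _ _ had.symm, Matrix.single_mul_single_of_ne _ _ _ _ hbc.symm,
    Matrix.single_mul_single_of_ne _ _ _ _ hbd.symm, add_zero, zero_add]
  abel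

lemma ιι_mul (hab : a ≠ b) (hcd : c ≠ d) (hac : a ≠ c) (had : a ≠ d) (hbc : b ≠ c) (hbd : b ≠ d)
    (Q R Q' R' : Matrix (Fin 2) (Fin 2) K) :
    (ι a b Q * ι c d R) * (ι a b Q' * ι c d R') = ι a b (Q * Q') * ι c d (R * R') := by
  rw [mul_assoc, ← mul_assoc (ι c d R), ← ι_comm hac had hbc hbd Q' R, mul_assoc, ι_mul c d hcd, ← mul_assoc,
    ι_mul a b hab]

lemma ι_up (x : K) : ι a b !![1, x; 0, 1] = 1 + Matrix.single a b x := by
  simp [ι]

lemma ι_lo (x : K) : ι a b !![1, 0; x, 1] = 1 + Matrix.single b a x := by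
  simp [ι]

end iota

variable {K : Type*} [Field K] [Fintype K] {n : ℕ} {σ : K →+* K}

section short

variable {i i' : Fin n}

omit [Fintype K] in
lemma sh_facts (hi : (i' : ℕ) = i + 1) (hn : 2 * (i : ℕ) + 4 ≤ n) :
    i ≠ i' ∧ i ≠ rev i ∧ i ≠ rev i' ∧ i' ≠ rev i ∧ i' ≠ rev i' := by
  refine ⟨ne_of_succ hi, ?_, ?_, ?_, ?_⟩ <;> (intro e; have := eq_rev_iff'.mp e; omega)

/-- The torus element of a short simple root. -/
def tS (σ : K →+* K) (i i' : Fin n) {a : K} (ha : a ≠ 0) (hsa : σ a ≠ 0) : SLn K n :=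
  monoSL 1 (torD σ i i' a) (torD_det i i' ha hsa)

lemma tS_mem (hσ : ∀ x, σ (σ x) = x) {a : K} (ha : a ≠ 0) (hsa : σ a ≠ 0) : tS σ i i' ha hsa ∈ G σ n :=
  monoSL_mem_G (fun _ => rfl) (torD_rel hσ i i' ha) _

lemma coe_xS_fwd (h : i ≠ i') (c : K) : ((xS σ i i' h c : SLn K n) : Mt K n) =
    ι i i' !![1, c; 0, 1] * ι (rev i') (rev i) !![1, -σ c; 0, 1] := by
  rw [xS, Matrix.SpecialLinearGroup.coe_mul, coe_X, coe_X, ι_up, ι_up]

lemma coe_xS_bwd (h : i ≠ i') (c : K) : ((xS σ i' i h.symm c : SLn K n) : Mt K n) =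
    ι i i' !![1, 0; c, 1] * ι (rev i') (rev i) !![1, 0; -σ c, 1] := by
  rw [xS, Matrix.SpecialLinearGroup.coe_mul, coe_X, coe_X, ι_lo, ι_lo]

/-- The torus element is a product of root elements. -/
lemma tS_eq (hi : (i' : ℕ) = i + 1) (hn : 2 * (i : ℕ) + 4 ≤ n) {a : K} (ha : a ≠ 0) (hsa : σ a ≠ 0) :
    tS σ i i' ha hsa = xS σ i i' (ne_of_succ hi) a * xS σ i' i (ne_of_succ hi).symm (-a⁻¹) * xS σ i i' (ne_of_succ hi) a *
      (xS σ i i' (ne_of_succ hi) (-1) * xS σ i' i (ne_of_succ hi).symm 1 * xS σ i i' (ne_of_succ hi) (-1)) := by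
  obtain ⟨h1, h2, h3, h4, h5⟩ := sh_facts hi hn
  have hr : rev i' ≠ rev i := rev_ne_rev h1
  apply Subtype.ext
  simp only [Matrix.SpecialLinearGroup.coe_mul, coe_xS_fwd (ne_of_succ hi), coe_xS_bwd (ne_of_succ hi),
    ιι_mul h1 hr h3 h2 h5 h4]
  have e3 : (!![1, a; 0, 1] * !![1, 0; -a⁻¹, 1] * !![1, a; 0, 1] *
      (!![1, -1; 0, 1] * !![1, 0; 1, 1] * !![1, -1; 0, 1]) : Matrix (Fin 2) (Fin 2) K) = !![a, 0; 0, a⁻¹] := by
    ext k l
    fin_cases k <;> fin_cases l <;> simp [Matrix.mul_apply, Fin.sum_univ_two, ha] <;> field_simp <;> ring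
  have e4 : (!![1, -σ a; 0, 1] * !![1, 0; -σ (-a⁻¹), 1] * !![1, -σ a; 0, 1] *
      (!![1, -σ (-1); 0, 1] * !![1, 0; -σ 1, 1] * !![1, -σ (-1); 0, 1]) : Matrix (Fin 2) (Fin 2) K) =
      !![σ a, 0; 0, (σ a)⁻¹] := by
    simp only [map_neg, map_inv₀, map_one, neg_neg]
    ext k l
    fin_cases k <;> fin_cases l <;> simp [Matrix.mul_apply, Fin.sum_univ_two, hsa] <;> field_simp <;> ring
  rw [e3, e4, ι_diag i i' h1 a ha, ι_diag (rev i') (rev i) hr (σ a) hsa, Matrix.diagonal_mul_diagonal]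
  show mono 1 (torD σ i i' a) = _
  rw [mono_one]
  congr 1
  funext k
  simp only [torD]
  by_cases e1 : k = i
  · subst e1
    simp [h1, h2, h3]
  · by_cases e2 : k = i'
    · subst e2
      simp [h1.symm, h4, h5]
    · by_cases e3 : k = rev i'
      · subst e3
        simp [h3.symm, h5.symm, hr]
      · by_cases e4 : k = rev i
        · subst e4
          simp [h2.symm, h4.symm, hr.symm]
        · simp [e1, e2, e3, e4]

/-- The diagonal of the Weyl element. -/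
def dS (K : Type*) [Field K] (i : Fin n) : Fin n → K := fun k => (if k = i then -1 else 1) * (if k = rev i then -1 else 1)

omit [Fintype K] in
lemma dS_rel (k : Fin n) : dS K i k * σ (dS K i (rev k)) = 1 := by
  simp only [dS, map_mul, apply_ite σ, map_neg, map_one]
  have e1 : (rev k = i) = (k = rev i) := by
    apply propext
    constructor
    · intro e
      rw [← e, rev_rev]
    · intro e
      rw [e, rev_rev]
  have e2 : (rev k = rev i) = (k = i) := by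
    apply propext
    exact rev_inj
  simp only [e1, e2]
  split_ifs <;> ring

omit [Fintype K] in
lemma dS_prod (h : i ≠ rev i) : ∏ k, dS K i k = 1 := by
  simp only [dS, Finset.prod_mul_distrib]
  simp [Finset.prod_ite_eq']

omit [Fintype K] in
lemma wS_det (h1 : i ≠ i') (h : i ≠ rev i) :
    (∏ k, dS K i k) * ((Equiv.Perm.sign (Equiv.swap i i' * Equiv.swap (rev i) (rev i')) : ℤˣ) : ℤ) = 1 := by
  rw [perS_sign h1, dS_prod h]
  simp

/-- The Weyl element of a short simple root. -/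
def wS (K : Type*) [Field K] [Fintype K] (h1 : i ≠ i') (h : i ≠ rev i) : SLn K n :=
  monoSL (Equiv.swap i i' * Equiv.swap (rev i) (rev i')) (dS K i) (wS_det h1 h)

lemma perS_lt (hi : (i' : ℕ) = i + 1) (hn : 2 * (i : ℕ) + 4 ≤ n) {k l : Fin n} (hlk : l < k) (h1 : ¬(k = i' ∧ l = i))
    (h2 : ¬(k = rev i ∧ l = rev i')) :
    (Equiv.swap i i' * Equiv.swap (rev i) (rev i')) l < (Equiv.swap i i' * Equiv.swap (rev i) (rev i')) k := by
  rw [Fin.lt_def] at hlk ⊢
  simp only [Equiv.Perm.mul_apply, Equiv.swap_apply_def]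
  have hc : ∀ x y : Fin n, x = y ↔ (x : ℕ) = y := fun x y => Fin.ext_iff
  simp only [hc, val_rev] at h1 h2 ⊢
  have hk := k.2
  have hl := l.2
  split_ifs <;> (try simp only [val_rev] at *) <;> omega

variable (hi : (i' : ℕ) = i + 1) (hn : 2 * (i : ℕ) + 4 ≤ n)

include hi hn

lemma wS_mem : wS K (sh_facts hi hn).1 (sh_facts hi hn).2.1 ∈ G σ n := by
  obtain ⟨h1, h2, h3, h4, h5⟩ := sh_facts hi hn
  exact monoSL_mem_G (perS_rev h1 h3 h2 h5) dS_rel _

lemma perS_vals : (Equiv.swap i i' * Equiv.swap (rev i) (rev i')) i = i' ∧ (Equiv.swap i i' * Equiv.swap (rev i) (rev i')) i' = i ∧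
    (Equiv.swap i i' * Equiv.swap (rev i) (rev i')) (rev i) = rev i' ∧
    (Equiv.swap i i' * Equiv.swap (rev i) (rev i')) (rev i') = rev i := by
  obtain ⟨h1, h2, h3, h4, h5⟩ := sh_facts hi hn
  simp only [Equiv.Perm.mul_apply]
  rw [Equiv.swap_apply_of_ne_of_ne h2 h3, Equiv.swap_apply_left, Equiv.swap_apply_of_ne_of_ne h4 h5, Equiv.swap_apply_right,
    Equiv.swap_apply_left, Equiv.swap_apply_right, Equiv.swap_apply_of_ne_of_ne h3.symm h5.symm,
    Equiv.swap_apply_of_ne_of_ne h2.symm h4.symm]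
  exact ⟨rfl, rfl, rfl, rfl⟩

lemma wS_conj (hσ : ∀ x, σ (σ x) = x) (c : K) :
    wS K (sh_facts hi hn).1 (sh_facts hi hn).2.1 * xS σ i i' (ne_of_succ hi) (-c) * (wS K (sh_facts hi hn).1 (sh_facts hi hn).2.1)⁻¹ =
      xS σ i' i (ne_of_succ hi).symm c := by
  obtain ⟨h1, h2, h3, h4, h5⟩ := sh_facts hi hn
  obtain ⟨v1, v2, v3, v4⟩ := perS_vals hi hn
  have := conj_xS' (σ := σ) hσ (perS_rev h1 h3 h2 h5) dS_rel (wS_det (K := K) h1 h2) h1.symm h1 v2 v1 (-c)
  rw [wS, this]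
  congr 1
  simp [dS, h1.symm, h4, h2]

lemma mirror_zero (hI : HI σ) {u : SLn K n} (hu : u ∈ Ab σ i i') : (u : Mt K n) (rev i') (rev i) = 0 := by
  have hlt := lt_of_succ hi
  have h1 := mirror_of_vanish (Ab_le_UJ hu) hlt (by
    intro t h2 h3
    rw [Fin.lt_def] at h2 h3
    omega)
  rw [hu.1.2 i i' le_rfl hlt le_rfl, zero_add] at h1
  exact hI.inj h1

lemma nz_Ab_wS (hI : HI σ) : Nz (Ab σ i i') (wS K (sh_facts hi hn).1 (sh_facts hi hn).2.1) := by
  obtain ⟨h1, h2, h3, h4, h5⟩ := sh_facts hi hn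
  obtain ⟨v1, v2, v3, v4⟩ := perS_vals hi hn
  have hlt := lt_of_succ hi
  apply nz_Ab_mono (perS_rev h1 h3 h2 h5) dS_rel
  · intro u hu k l hlk
    by_cases e1 : k = i' ∧ l = i
    · obtain ⟨rfl, rfl⟩ := e1
      rw [v1, v2]
      exact hu.1.2 _ _ le_rfl hlt le_rfl
    · by_cases e2 : k = rev i ∧ l = rev i'
      · obtain ⟨rfl, rfl⟩ := e2
        rw [v3, v4]
        exact mirror_zero hi hn hI hu
      · exact hu.1.1.1 _ _ (perS_lt hi hn hlk e1 e2)
  · intro u hu x y hx hxy hy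
    have e1 : x = i := by
      apply Fin.ext
      rw [Fin.le_def] at hx hy
      rw [Fin.lt_def] at hxy
      omega
    have e2 : y = i' := by
      apply Fin.ext
      rw [Fin.le_def] at hx hy
      rw [Fin.lt_def] at hxy
      omega
    rw [e1, e2, v1, v2]
    exact hu.1.1.1 _ _ hlt

end short

section good

variable {Γ : Type*} [Group Γ] {π : G σ n →* Γ} {i i' : Fin n}

/-- The short torus element in the unitary group. -/
def tSG (hσ : ∀ x, σ (σ x) = x) (i i' : Fin n) {a : K} (ha : a ≠ 0) (hsa : σ a ≠ 0) : G σ n :=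
  ⟨tS σ i i' ha hsa, tS_mem hσ ha hsa⟩

/-- The torus elements of the short simple roots are good. -/
theorem short_good (p : ℕ) [Fact p.Prime] [CharP K p] [NeZero n] (hI : HI σ) (hπ : PQ π) (h4 : 4 ≤ n)
    (hi : (i' : ℕ) = i + 1) (hn : 2 * (i : ℕ) + 4 ≤ n) {a : K} (ha : a ≠ 0) (hsa : σ a ≠ 0) :
    ParaGood (P1 π (UJ σ n)) (π (tSG hI.invol i i' ha hsa)) := by
  have hσ := hI.invol
  obtain ⟨h1, h2, h3, h4', h5⟩ := sh_facts hi hn
  have hlt := lt_of_succ hi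
  apply good_of p hI hπ (a := i) (b := i')
  · exact nz_UJ_of_torus (torD_rel hσ i i' ha) (torD_det i i' ha hsa)
  · exact nz_Ab_torus (torD_rel hσ i i' ha) (torD_det i i' ha hsa)
  · let xG : K → G σ n := fun c => ⟨xS σ i i' h1 c, xS_mem_G hσ h1 h2 h5 h3 c⟩
    let yG : K → G σ n := fun c => ⟨xS σ i' i h1.symm c, xS_mem_G hσ h1.symm h5 h2 h4' c⟩
    have e : tSG hσ i i' ha hsa = xG a * yG (-a⁻¹) * xG a * (xG (-1) * yG 1 * xG (-1)) :=
      Subtype.ext (tS_eq hi hn ha hsa)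
    have hx : ∀ c, π (xG c) ∈ Subgroup.closure (Gen (P1 π (UJ σ n)) (P1 π (Ab σ i i'))) := fun c =>
      gen_of_UJ (xS_mem_UJ hσ hlt h2 h5 h3 c)
    have hy : ∀ c, π (yG c) ∈ Subgroup.closure (Gen (P1 π (UJ σ n)) (P1 π (Ab σ i i'))) := fun c =>
      gen_of_conj (w := ⟨wS K h1 h2, wS_mem hi hn⟩) (u := xG (-c)) (nz_Ab_wS hi hn hI) (xS_mem_UJ hσ hlt h2 h5 h3 _)
        (wS_conj hi hn hσ c).symm
    rw [e]
    simp only [map_mul]
    exact Subgroup.mul_mem _ (Subgroup.mul_mem _ (Subgroup.mul_mem _ (hx _) (hy _)) (hx _))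
      (Subgroup.mul_mem _ (Subgroup.mul_mem _ (hx _) (hy _)) (hx _))
  · intro g hg hcomm
    by_cases h0 : (i : ℕ) = 0
    · exact hC_zero hI h4 h0 (by omega) g hg hcomm
    · exact hC_typeI hI h4 (by omega) (by omega) g hg hcomm

end good

end Cfsg.Agent.Lib.H29.SuA
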