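import Cfsg.Agent.Lib.H29.SuG

/-!
# The long simple root of the unitary group: even degree
-/

set_option autoImplicit false
set_option linter.unusedSimpArgs false

namespace Cfsg.Agent.Lib.H29.SuA

open Matrix Fin Cfsg.Agent.Lib.H29.ParaFusion Cfsg.Agent.Lib.H29.LinA

variable {K : Type*} [Field K] [Fintype K] {n : ℕ} {σ : K →+* K}

section block

variable {a b : Fin n}

omit [Field K] [Fintype K] in
lemma swap_mem_block (hab : a < b) {x : Fin n} (h1 : a ≤ x) (h2 : x ≤ b) : a ≤ Equiv.swap a b x ∧ Equiv.swap a b x ≤ b := by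
  rw [Equiv.swap_apply_def]
  split_ifs
  · exact ⟨hab.le, le_rfl⟩
  · exact ⟨le_rfl, hab.le⟩
  · exact ⟨h1, h2⟩

omit [Field K] [Fintype K] in
lemma swap_lt_out {k l : Fin n} (hab : a < b) (hlk : l < k) (h : ¬(a ≤ l ∧ k ≤ b)) : Equiv.swap a b l < Equiv.swap a b k := by
  rw [Fin.lt_def] at hlk hab ⊢
  rw [Fin.le_def, Fin.le_def] at h
  simp only [Equiv.swap_apply_def, Fin.ext_iff]
  split_ifs <;> omega

lemma long_hO (hab : a < b) {u : SLn K n} (hu : u ∈ Ub K n a b) {k l : Fin n} (hlk : l < k) :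
    (u : Mt K n) (Equiv.swap a b k) (Equiv.swap a b l) = 0 := by
  by_cases h : a ≤ l ∧ k ≤ b
  · have h1 := swap_mem_block hab h.1 (le_trans hlk.le h.2)
    have h2 := swap_mem_block hab (le_trans h.1 hlk.le) h.2
    have hne : Equiv.swap a b k ≠ Equiv.swap a b l := fun e => hlk.ne ((Equiv.swap a b).injective e).symm
    rcases lt_or_gt_of_ne hne with h3 | h3
    · exact hu.2 _ _ h2.1 h3 h1.2
    · exact hu.1.1 _ _ h3
  · exact hu.1.1 _ _ (swap_lt_out hab hlk h)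

lemma long_hO2 (hab : a < b) {u : SLn K n} (hu : u ∈ Ub K n a b) {x y : Fin n} (hx : a ≤ x) (hxy : x < y) (hy : y ≤ b) :
    (u : Mt K n) (Equiv.swap a b x) (Equiv.swap a b y) = 0 := by
  have h1 := swap_mem_block hab hx (le_trans hxy.le hy)
  have h2 := swap_mem_block hab (le_trans hx hxy.le) hy
  have hne : Equiv.swap a b x ≠ Equiv.swap a b y := fun e => hxy.ne ((Equiv.swap a b).injective e)
  rcases lt_or_gt_of_ne hne with h3 | h3
  · exact hu.2 _ _ h1.1 h3 h2.2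
  · exact hu.1.1 _ _ h3

/-- The Weyl element of a long root normalizes the block. -/
lemma nz_Ab_wJ (hσ : ∀ x, σ (σ x) = x) {c₀ : K} (hc0 : c₀ ≠ 0) (hc : σ c₀ = -c₀) {j : Fin n} (hj : j < rev j) :
    Nz (Ab σ j (rev j)) (wJ hc0 hj.ne) :=
  nz_Ab_mono (swapJ_rev hj.ne) (dJ_rel hσ hc0 hc hj.ne) _ (fun _ hu _ _ hlk => long_hO hj hu.1 hlk)
    (fun _ hu _ _ hx hxy hy => long_hO2 hj hu.1 hx hxy hy)

omit [Fintype K] in
lemma dJ_first {c₀ : K} {j : Fin n} (hj : j ≠ rev j) : dJ c₀ j j = c₀ := by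
  simp [dJ, hj]

omit [Fintype K] in
lemma dJ_second {c₀ : K} {j : Fin n} (hj : j ≠ rev j) : dJ c₀ j (rev j) = -c₀⁻¹ := by
  simp [dJ, hj.symm]

omit [Fintype K] in
lemma dJ_other {c₀ : K} {j k : Fin n} (h1 : k ≠ j) (h2 : k ≠ rev j) : dJ c₀ j k = 1 := by
  simp [dJ, h1, h2]

end block

section even

variable {i : Fin n}

/-- The diagonal of the torus element of the long root in even degree. -/
def dE (i : Fin n) (b : K) : Fin n → K := fun k => (if k = i then b else 1) * (if k = rev i then b⁻¹ else 1)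

omit [Fintype K] in
lemma dE_rel {b : K} (hb0 : b ≠ 0) (hb : σ b = b) (hi : i ≠ rev i) (k : Fin n) : dE i b k * σ (dE i b (rev k)) = 1 := by
  simp only [dE, map_mul, apply_ite σ, map_inv₀, map_one, hb]
  have e1 : (rev k = i) = (k = rev i) := by
    apply propext
    constructor
    · intro e
      rw [← e, rev_rev]
    · intro e
      rw [e, rev_rev]
  have e2 : (rev k = rev i) = (k = i) := by
    apply propext
    exact rev_inj
  simp only [e1, e2]
  by_cases h1 : k = i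
  · have h2 : k ≠ rev i := fun e => hi (h1.symm.trans e)
    simp [h1, h2, hi, hb0]
  · by_cases h2 : k = rev i
    · simp [h2, hi.symm, hb0]
    · simp [h1, h2]

omit [Fintype K] in
lemma dE_det {b : K} (hb0 : b ≠ 0) (hi : i ≠ rev i) :
    (∏ k, dE i b k) * ((Equiv.Perm.sign (1 : Equiv.Perm (Fin n)) : ℤˣ) : ℤ) = 1 := by
  simp only [dE, Finset.prod_mul_distrib]
  simp [Finset.prod_ite_eq', hb0, hi]

/-- The torus element of the long root in even degree. -/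
def tE {b : K} (hb0 : b ≠ 0) (hi : i ≠ rev i) : SLn K n := monoSL 1 (dE i b) (dE_det hb0 hi)

lemma tE_mem {b : K} (hb0 : b ≠ 0) (hb : σ b = b) (hi : i ≠ rev i) : tE hb0 hi ∈ G σ n :=
  monoSL_mem_G (fun _ => rfl) (dE_rel hb0 hb hi) _

/-- The torus element is a product of root elements. -/
lemma tE_eq {b c₀ : K} (hb0 : b ≠ 0) (hc0 : c₀ ≠ 0) (hi : i ≠ rev i) :
    tE hb0 hi = X i (rev i) hi (c₀ * b) * X (rev i) i hi.symm (-(c₀ * b)⁻¹) * X i (rev i) hi (c₀ * b) *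
      (X i (rev i) hi (-c₀) * X (rev i) i hi.symm c₀⁻¹ * X i (rev i) hi (-c₀)) := by
  have e1 : ∀ c : K, ((X i (rev i) hi c : SLn K n) : Mt K n) = ι i (rev i) !![1, c; 0, 1] := by
    intro c
    rw [coe_X, ι_up]
  have e2 : ∀ c : K, ((X (rev i) i hi.symm c : SLn K n) : Mt K n) = ι i (rev i) !![1, 0; c, 1] := by
    intro c
    rw [coe_X, ι_lo]
  apply Subtype.ext
  simp only [Matrix.SpecialLinearGroup.coe_mul, e1, e2, ι_mul _ _ hi]
  have e3 : (!![1, c₀ * b; 0, 1] * !![1, 0; -(c₀ * b)⁻¹, 1] * !![1, c₀ * b; 0, 1] *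
      (!![1, -c₀; 0, 1] * !![1, 0; c₀⁻¹, 1] * !![1, -c₀; 0, 1]) : Matrix (Fin 2) (Fin 2) K) = !![b, 0; 0, b⁻¹] := by
    ext k l
    fin_cases k <;> fin_cases l <;> simp [Matrix.mul_apply, Fin.sum_univ_two, hb0, hc0] <;> field_simp <;> ring
  rw [e3, ι_diag i (rev i) hi b hb0]
  show mono 1 (dE i b) = _
  rw [mono_one]
  congr 1
  funext k
  simp only [dE]
  by_cases h1 : k = i
  · have h2 : k ≠ rev i := fun e => hi (h1.symm.trans e)
    simp [h1, hi]
  · by_cases h2 : k = rev i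
    · simp [h2, hi.symm]
    · simp [h1, h2]

variable {Γ : Type*} [Group Γ] {π : G σ n →* Γ}

/-- The long torus element in even degree in the unitary group. -/
def tEG (hσ : ∀ x, σ (σ x) = x) {b : K} (hb0 : b ≠ 0) (hb : σ b = b) (hi : i ≠ rev i) : G σ n :=
  ⟨tE hb0 hi, tE_mem hb0 hb hi⟩

/-- The torus elements of the long simple root are good, even degree. -/
theorem longE_good (p : ℕ) [Fact p.Prime] [CharP K p] [NeZero n] (hI : HI σ) (hπ : PQ π) (h4 : 4 ≤ n)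
    (hn : 2 * (i : ℕ) + 2 = n) (hi : i ≠ rev i) {b : K} (hb0 : b ≠ 0) (hb : σ b = b) :
    ParaGood (P1 π (UJ σ n)) (π (tEG hI.invol hb0 hb hi)) := by
  have hσ := hI.invol
  have hlt : i < rev i := lt_rev_iff'.mpr (by omega)
  obtain ⟨c₀, hc0, hc⟩ := hI.exists_c
  apply good_of p hI hπ (a := i) (b := rev i)
  · exact nz_UJ_of_torus (dE_rel hb0 hb hi) (dE_det hb0 hi)
  · exact nz_Ab_torus (dE_rel hb0 hb hi) (dE_det hb0 hi)
  · have hconj : ∀ f : K, wJ hc0 hi * X i (rev i) hi (-(c₀ * c₀) * f) * (wJ hc0 hi)⁻¹ = X (rev i) i hi.symm f := by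
      intro f
      apply conj_monoSL_X _ (d_ne (dJ_rel hσ hc0 hc hi)) _ _ _ _ (Equiv.swap_apply_right _ _) (Equiv.swap_apply_left _ _)
      rw [dJ_first hi, dJ_second hi]
      field_simp
    have hxm : ∀ (c : K), σ c = -c → X i (rev i) hi c ∈ G σ n := fun c h => X_rev_mem_G hσ hi h
    have hs : ∀ (f : K), σ f = -f → σ (-(c₀ * c₀) * f) = -(-(c₀ * c₀) * f) := by
      intro f hf
      rw [map_mul, map_neg, map_mul, hc, hf]
      ring
    have hw : wJ hc0 hi ∈ G σ n := wJ_mem hσ hc0 hc hi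
    have hym : ∀ (f : K), σ f = -f → X (rev i) i hi.symm f ∈ G σ n := by
      intro f hf
      rw [← hconj f]
      exact (G σ n).mul_mem ((G σ n).mul_mem hw (hxm _ (hs f hf))) ((G σ n).inv_mem hw)
    have hx : ∀ (c : K) (h : σ c = -c), π ⟨X i (rev i) hi c, hxm c h⟩ ∈
        Subgroup.closure (Gen (P1 π (UJ σ n)) (P1 π (Ab σ i (rev i)))) := fun c h =>
      gen_of_UJ (X_rev_mem_UJ hσ hlt h)
    have hy : ∀ (f : K) (h : σ f = -f), π ⟨X (rev i) i hi.symm f, hym f h⟩ ∈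
        Subgroup.closure (Gen (P1 π (UJ σ n)) (P1 π (Ab σ i (rev i)))) := fun f h =>
      gen_of_conj (w := ⟨wJ hc0 hi, hw⟩) (u := ⟨X i (rev i) hi (-(c₀ * c₀) * f), hxm _ (hs f h)⟩)
        (nz_Ab_wJ hσ hc0 hc hlt) (X_rev_mem_UJ hσ hlt (hs f h)) (hconj f).symm
    have h1 : σ (c₀ * b) = -(c₀ * b) := by
      rw [map_mul, hc, hb]
      ring
    have h2 : σ (-(c₀ * b)⁻¹) = -(-(c₀ * b)⁻¹) := by
      rw [map_neg, map_inv₀, h1, inv_neg]
    have h3 : σ (-c₀) = -(-c₀) := by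
      rw [map_neg, hc]
    have h4' : σ c₀⁻¹ = -c₀⁻¹ := by
      rw [map_inv₀, hc, inv_neg]
    have e : tEG hσ hb0 hb hi = (⟨X i (rev i) hi (c₀ * b), hxm _ h1⟩ : G σ n) * ⟨X (rev i) i hi.symm (-(c₀ * b)⁻¹), hym _ h2⟩ *
        ⟨X i (rev i) hi (c₀ * b), hxm _ h1⟩ * ((⟨X i (rev i) hi (-c₀), hxm _ h3⟩ : G σ n) * ⟨X (rev i) i hi.symm c₀⁻¹, hym _ h4'⟩ *
        ⟨X i (rev i) hi (-c₀), hxm _ h3⟩) :=
      Subtype.ext (tE_eq hb0 hc0 hi)
    rw [e]
    simp only [map_mul]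
    exact Subgroup.mul_mem _ (Subgroup.mul_mem _ (Subgroup.mul_mem _ (hx _ h1) (hy _ h2)) (hx _ h1))
      (Subgroup.mul_mem _ (Subgroup.mul_mem _ (hx _ h3) (hy _ h4')) (hx _ h3))
  · intro g hg hcomm
    exact hC_typeI hI h4 (by omega) (by rw [val_rev]; omega) g hg hcomm

end even

end Cfsg.Agent.Lib.H29.SuA
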