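import Cfsg.Agent.Lib.H29.SuH

/-!
# The long simple root of the unitary group: odd degree
-/

set_option autoImplicit false
set_option linter.unusedSimpArgs false

namespace Cfsg.Agent.Lib.H29.SuA

open Matrix Fin Cfsg.Agent.Lib.H29.ParaFusion Cfsg.Agent.Lib.H29.LinA

section iotaP

variable {K : Type*} [Field K] {n : ℕ} (p : Fin 3 → Fin n)

/-- The inclusion matrix of three positions. -/
def Pm (K : Type*) [Field K] : Matrix (Fin n) (Fin 3) K := Matrix.of fun k x => if k = p x then 1 else 0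

lemma PmT_mul (hp : Function.Injective p) : (Pm p K)ᵀ * Pm p K = 1 := by
  ext x y
  rw [Matrix.mul_apply]
  simp only [Matrix.transpose_apply, Pm, Matrix.of_apply]
  rw [Finset.sum_eq_single (p x)]
  · by_cases h : x = y
    · subst h
      simp
    · simp [h, hp.ne h]
  · intro b _ hb
    simp [hb]
  · simp

/-- The embedding of `3 × 3` matrices at three positions. -/
def ιp (Q : Matrix (Fin 3) (Fin 3) K) : Mt K n := 1 + Pm p K * (Q - 1) * (Pm p K)ᵀ

lemma ιp_mul (hp : Function.Injective p) (Q R : Matrix (Fin 3) (Fin 3) K) : ιp p Q * ιp p R = ιp p (Q * R) := by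
  have e : Q * R - 1 = (Q - 1) + (R - 1) + (Q - 1) * (R - 1) := by
    simp only [mul_sub, sub_mul, mul_one, one_mul]
    abel
  have h1 : Pm p K * (Q - 1) * (Pm p K)ᵀ * (Pm p K * (R - 1) * (Pm p K)ᵀ) = Pm p K * ((Q - 1) * (R - 1)) * (Pm p K)ᵀ := by
    calc Pm p K * (Q - 1) * (Pm p K)ᵀ * (Pm p K * (R - 1) * (Pm p K)ᵀ)
        = Pm p K * (Q - 1) * ((Pm p K)ᵀ * Pm p K) * (R - 1) * (Pm p K)ᵀ := by
          simp only [Matrix.mul_assoc]
      _ = _ := by
          rw [PmT_mul p hp, Matrix.mul_one]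
          simp only [Matrix.mul_assoc]
  rw [ιp, ιp, ιp, e, mul_add, add_mul, add_mul, one_mul, mul_one, one_mul, h1]
  simp only [Matrix.mul_add, Matrix.add_mul]
  abel

lemma Pm_single (x y : Fin 3) (c : K) : Pm p K * Matrix.single x y c * (Pm p K)ᵀ = Matrix.single (p x) (p y) c := by
  ext k l
  have h1 : ∀ j, (Pm p K * Matrix.single x y c) k j = if j = y then Pm p K k x * c else 0 := by
    intro j
    by_cases h : j = y
    · subst h
      rw [if_pos rfl, Matrix.mul_single_apply_same]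
    · rw [if_neg h, Matrix.mul_single_apply_of_ne _ _ _ _ _ h]
  rw [Matrix.mul_apply]
  simp only [h1, ite_mul, zero_mul, Finset.sum_ite_eq', Finset.mem_univ, if_true, Matrix.transpose_apply]
  simp only [Pm, Matrix.of_apply]
  by_cases e1 : k = p x
  · by_cases e2 : l = p y
    · simp [e1, e2]
    · rw [Matrix.single_apply_of_ne _ _ _ _ _ (fun e => e2 e.2.symm)]
      simp [e2]
  · rw [Matrix.single_apply_of_ne _ _ _ _ _ (fun e => e1 e.1.symm)]
    simp [e1]

lemma ιp_eq (Q : Matrix (Fin 3) (Fin 3) K) :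
    ιp p Q = 1 + ∑ x, ∑ y, Matrix.single (p x) (p y) ((Q - 1) x y) := by
  have e : Q - 1 = ∑ x, ∑ y, Matrix.single x y ((Q - 1) x y) := Matrix.matrix_eq_sum_single _
  rw [ιp]
  congr 1
  calc Pm p K * (Q - 1) * (Pm p K)ᵀ = Pm p K * (∑ x, ∑ y, Matrix.single x y ((Q - 1) x y)) * (Pm p K)ᵀ := by rw [← e]
    _ = _ := by
      rw [Matrix.mul_sum, Matrix.sum_mul]
      apply Finset.sum_congr rfl
      intro x _
      rw [Matrix.mul_sum, Matrix.sum_mul]
      apply Finset.sum_congr rfl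
      intro y _
      exact Pm_single p x y _

end iotaP

variable {K : Type*} [Field K] [Fintype K] {n : ℕ} {σ : K →+* K}

section odd

variable {i m : Fin n}

omit [Fintype K] in
lemma od_facts (hm : (m : ℕ) = i + 1) (hn : 2 * (i : ℕ) + 3 = n) :
    rev m = m ∧ i < m ∧ i ≠ rev i ∧ rev i ≠ m ∧ i ≠ m ∧ i < rev i ∧ Function.Injective ![i, m, rev i] := by
  have h1 : rev m = m := Fin.ext (by rw [val_rev]; omega)
  have h2 : i < m := by
    rw [Fin.lt_def]
    omega
  have h3 : i ≠ rev i := by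
    intro e
    have := eq_rev_iff'.mp e
    omega
  have h4 : rev i ≠ m := by
    intro e
    have := congrArg Fin.val e
    rw [val_rev] at this
    omega
  have h6 : i < rev i := by
    rw [Fin.lt_def, val_rev]
    omega
  refine ⟨h1, h2, h3, h4, h2.ne, h6, ?_⟩
  intro x y hxy
  fin_cases x <;> fin_cases y <;> simp at hxy ⊢ <;> first | exact absurd hxy h2.ne | exact absurd hxy h2.ne.symm | exact absurd hxy h3 | exact absurd hxy h3.symm | exact absurd hxy h4 | exact absurd hxy h4.symm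

/-- The upper matrix. -/
def Qu (σ : K →+* K) (a b : K) : Matrix (Fin 3) (Fin 3) K := !![1, a, b; 0, 1, -σ a; 0, 0, 1]

/-- The lower matrix. -/
def Ql (σ : K →+* K) (a b : K) : Matrix (Fin 3) (Fin 3) K := !![1, 0, 0; -σ a, 1, 0; b, a, 1]

lemma coe_rM_up (hm : rev m = m) (him : i ≠ m) (hi : i ≠ rev i) (a b : K) :
    ((rM σ hm him hi a b : SLn K n) : Mt K n) = ιp ![i, m, rev i] (Qu σ a b) := by
  rw [coe_rM, ιp_eq]
  simp [Qu, Fin.sum_univ_three, Matrix.one_apply]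
  abel

lemma coe_rM_lo (hm : rev m = m) (him : rev i ≠ m) (hi : rev i ≠ rev (rev i)) (a b : K) :
    ((rM σ hm him hi a b : SLn K n) : Mt K n) = ιp ![i, m, rev i] (Ql σ a b) := by
  rw [coe_rM, ιp_eq, rev_rev]
  simp [Ql, Fin.sum_univ_three, Matrix.one_apply]
  abel

/-- The diagonal of the torus element of the long root in odd degree. -/
def dO (σ : K →+* K) (i m : Fin n) (c : K) : Fin n → K := fun k =>
  (if k = i then c else 1) * (if k = m then σ c / c else 1) * (if k = rev i then (σ c)⁻¹ else 1)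

omit [Fintype K] in
lemma dO_rel (hσ : ∀ x, σ (σ x) = x) (hm : rev m = m) (him : i ≠ m) (hi : i ≠ rev i) (hrm : rev i ≠ m) {c : K} (hc : c ≠ 0) (hsc : σ c ≠ 0)
    (k : Fin n) : dO σ i m c k * σ (dO σ i m c (rev k)) = 1 := by
  simp only [dO, map_mul, apply_ite σ, map_inv₀, map_div₀, map_one, hσ]
  have e1 : (rev k = i) = (k = rev i) := by
    apply propext
    constructor
    · intro e
      rw [← e, rev_rev]
    · intro e
      rw [e, rev_rev]
  have e2 : (rev k = rev i) = (k = i) := by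
    apply propext
    exact rev_inj
  have e3 : (rev k = m) = (k = m) := by
    apply propext
    constructor
    · intro e
      rw [← rev_rev k, e, hm]
    · intro e
      rw [e, hm]
  simp only [e1, e2, e3]
  by_cases h1 : k = i
  · have h2 : k ≠ rev i := fun e => hi (h1.symm.trans e)
    have h3 : k ≠ m := fun e => him (h1.symm.trans e)
    simp [h1, hi, him, hc]
  · by_cases h2 : k = rev i
    · simp [h2, hi.symm, hrm, hsc]
    · by_cases h3 : k = m
      · have h4 : m ≠ rev i := hrm.symm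
        have h5 : m ≠ i := him.symm
        simp [h3, h4, h5, hc, hsc]
      · simp [h1, h2, h3]

omit [Fintype K] in
lemma dO_det (him : i ≠ m) (hi : i ≠ rev i) (hrm : rev i ≠ m) {c : K} (hc : c ≠ 0) (hsc : σ c ≠ 0) :
    (∏ k, dO σ i m c k) * ((Equiv.Perm.sign (1 : Equiv.Perm (Fin n)) : ℤˣ) : ℤ) = 1 := by
  simp only [dO, Finset.prod_mul_distrib]
  simp [Finset.prod_ite_eq', hc, hsc]
  field_simp

/-- The torus element of the long root in odd degree. -/
def tO (σ : K →+* K) (him : i ≠ m) (hi : i ≠ rev i) (hrm : rev i ≠ m) {c : K} (hc : c ≠ 0) (hsc : σ c ≠ 0) : SLn K n :=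
  monoSL 1 (dO σ i m c) (dO_det him hi hrm hc hsc)

lemma tO_mem (hσ : ∀ x, σ (σ x) = x) (hm : rev m = m) (him : i ≠ m) (hi : i ≠ rev i) (hrm : rev i ≠ m) {c : K} (hc : c ≠ 0) (hsc : σ c ≠ 0) :
    tO σ him hi hrm hc hsc ∈ G σ n :=
  monoSL_mem_G (fun _ => rfl) (dO_rel hσ hm him hi hrm hc hsc) _

omit [Fintype K] in
lemma Q_id {a s b t : K} (hb : b ≠ 0) (ht : t ≠ 0) (h : a * s = -(b + t)) :
    (!![1, a, b; 0, 1, -s; 0, 0, 1] * !![1, 0, 0; s / t, 1, 0; 1 / t, -(a / b), 1] *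
      !![1, a * t / b, b; 0, 1, -(s * b / t); 0, 0, 1] : Matrix (Fin 3) (Fin 3) K) = !![0, 0, b; 0, -t / b, 0; 1 / t, 0, 0] := by
  have h12 : (!![1, a, b; 0, 1, -s; 0, 0, 1] * !![1, 0, 0; s / t, 1, 0; 1 / t, -(a / b), 1] : Matrix (Fin 3) (Fin 3) K) =
      !![0, 0, b; 0, -t / b, -s; 1 / t, -(a / b), 1] := by
    ext k l
    fin_cases k <;> fin_cases l <;> simp [Matrix.mul_apply, Fin.sum_univ_three] <;> field_simp <;>
      first | ring1 | linear_combination h | linear_combination -h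
  rw [h12]
  ext k l
  fin_cases k <;> fin_cases l <;> simp [Matrix.mul_apply, Fin.sum_univ_three] <;> field_simp <;>
    first | ring1 | linear_combination h | linear_combination -h

omit [Fintype K] in
lemma Q_id2 {c₀ : K} (hc0 : c₀ ≠ 0) :
    (!![1, 0, -c₀; 0, 1, 0; 0, 0, 1] * !![1, 0, 0; 0, 1, 0; 1 / c₀, 0, 1] * !![1, 0, -c₀; 0, 1, 0; 0, 0, 1] :
      Matrix (Fin 3) (Fin 3) K) = !![0, 0, -c₀; 0, 1, 0; 1 / c₀, 0, 0] := by
  ext k l
  fin_cases k <;> fin_cases l <;> simp [Matrix.mul_apply, Fin.sum_univ_three, hc0]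

omit [Fintype K] in
lemma Q_id3 {b t c₀ : K} (hc0 : c₀ ≠ 0) :
    (!![0, 0, b; 0, -t / b, 0; 1 / t, 0, 0] * !![0, 0, -c₀; 0, 1, 0; 1 / c₀, 0, 0] : Matrix (Fin 3) (Fin 3) K) =
      !![b / c₀, 0, 0; 0, -t / b, 0; 0, 0, -c₀ / t] := by
  ext k l
  fin_cases k <;> fin_cases l <;> simp [Matrix.mul_apply, Fin.sum_univ_three] <;> field_simp

omit [Fintype K] in
lemma diag3 {c : K} (him : i ≠ m) (hi : i ≠ rev i) (hrm : rev i ≠ m) :
    Matrix.diagonal (dO σ i m c) = 1 + Matrix.single i i (c - 1) + Matrix.single m m (σ c / c - 1) +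
      Matrix.single (rev i) (rev i) ((σ c)⁻¹ - 1) := by
  ext k l
  by_cases h : k = l
  · subst h
    simp only [Matrix.diagonal_apply_eq, Matrix.add_apply, Matrix.one_apply_eq, dO, Matrix.single_apply]
    by_cases h1 : k = i
    · subst h1
      simp [him, hi, him.symm, hi.symm]
    · by_cases h2 : k = m
      · subst h2
        simp [him, hi, him.symm, hi.symm, hrm, hrm.symm]
      · by_cases h3 : k = rev i
        · subst h3
          simp [him, hi, him.symm, hi.symm, hrm, hrm.symm]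
        · simp [h1, h2, h3, Ne.symm h1, Ne.symm h2, Ne.symm h3]
  · rw [Matrix.diagonal_apply_ne _ h]
    simp only [Matrix.add_apply, Matrix.one_apply_ne h, Matrix.single_apply]
    have e : ∀ x : Fin n, ¬(x = k ∧ x = l) := fun x e => h (e.1.symm.trans e.2)
    simp [e]

/-- The torus element as a product of root elements. -/
lemma tO_eq (hσ : ∀ x, σ (σ x) = x) (hp : Function.Injective ![i, m, rev i]) (hm : rev m = m) (him : i ≠ m) (hi : i ≠ rev i) (hrm : rev i ≠ m)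
    (hi' : rev i ≠ rev (rev i)) {c c₀ a b : K} (hc : c ≠ 0) (hsc : σ c ≠ 0) (hc0 : c₀ ≠ 0) (hc₀ : σ c₀ = -c₀) (hb : b = c * c₀)
    (ha : a * σ a = -(b + σ b)) :
    tO σ him hi hrm hc hsc = rM σ hm him hi a b * rM σ hm hrm hi' (-(a / b)) (1 / σ b) * rM σ hm him hi (a * σ b / b) b *
      (rM σ hm him hi 0 (-c₀) * rM σ hm hrm hi' 0 (1 / c₀) * rM σ hm him hi 0 (-c₀)) := by
  have hb0 : b ≠ 0 := by
    rw [hb]
    exact mul_ne_zero hc hc0
  have hsb : σ b = σ c * (-c₀) := by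
    rw [hb, map_mul, hc₀]
  have hsb0 : σ b ≠ 0 := by
    rw [hsb]
    exact mul_ne_zero hsc (neg_ne_zero.mpr hc0)
  apply Subtype.ext
  simp only [Matrix.SpecialLinearGroup.coe_mul, coe_rM_up hm him hi, coe_rM_lo hm hrm hi', ιp_mul _ hp]
  have e : Qu σ a b * Ql σ (-(a / b)) (1 / σ b) * Qu σ (a * σ b / b) b *
      (Qu σ 0 (-c₀) * Ql σ 0 (1 / c₀) * Qu σ 0 (-c₀)) = !![c, 0, 0; 0, σ c / c, 0; 0, 0, (σ c)⁻¹] := by
    have e1 : Ql σ (-(a / b)) (1 / σ b) = !![1, 0, 0; σ a / σ b, 1, 0; 1 / σ b, -(a / b), 1] := by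
      rw [Ql, map_neg, map_div₀, neg_neg]
    have e2 : Qu σ (a * σ b / b) b = !![1, a * σ b / b, b; 0, 1, -(σ a * b / σ b); 0, 0, 1] := by
      rw [Qu, map_div₀, map_mul, hσ]
    have e3 : Qu σ 0 (-c₀) = !![1, 0, -c₀; 0, 1, 0; 0, 0, 1] := by
      rw [Qu, map_zero, neg_zero]
    have e4 : Ql σ 0 (1 / c₀) = !![1, 0, 0; 0, 1, 0; 1 / c₀, 0, 1] := by
      rw [Ql, map_zero, neg_zero]
    rw [e1, e2, e3, e4, Qu, Q_id hb0 hsb0 ha, Q_id2 hc0, Q_id3 hc0]
    have e5 : b / c₀ = c := by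
      rw [hb]
      field_simp
    have e6 : -σ b / b = σ c / c := by
      rw [hsb, hb]
      field_simp
    have e7 : -c₀ / σ b = (σ c)⁻¹ := by
      rw [hsb]
      field_simp
    rw [e5, e6, e7]
  rw [e, ιp_eq]
  show mono 1 (dO σ i m c) = _
  rw [mono_one, diag3 him hi hrm]
  simp [Fin.sum_univ_three, Matrix.one_apply]
  abel

variable {Γ : Type*} [Group Γ] {π : G σ n →* Γ}

/-- The long torus element in odd degree in the unitary group. -/
def tOG (hσ : ∀ x, σ (σ x) = x) (hm : rev m = m) (him : i ≠ m) (hi : i ≠ rev i) (hrm : rev i ≠ m) {c : K} (hc : c ≠ 0) (hsc : σ c ≠ 0) : G σ n :=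
  ⟨tO σ him hi hrm hc hsc, tO_mem hσ hm him hi hrm hc hsc⟩

/-- The torus elements of the long simple root are good, odd degree. -/
theorem longO_good (p : ℕ) [Fact p.Prime] [CharP K p] [NeZero n] (hI : HI σ) (hπ : PQ π) (h4 : 4 ≤ n)
    (hmi : (m : ℕ) = i + 1) (hn : 2 * (i : ℕ) + 3 = n) (hm : rev m = m) (him : i ≠ m) (hi : i ≠ rev i) (hrm : rev i ≠ m)
    {c : K} (hc : c ≠ 0) (hsc : σ c ≠ 0) :
    ParaGood (P1 π (UJ σ n)) (π (tOG hI.invol hm him hi hrm hc hsc)) := by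
  have hσ := hI.invol
  obtain ⟨-, hlt, -, -, -, hlt', hp⟩ := od_facts hmi hn
  have hi' : rev i ≠ rev (rev i) := by
    rw [rev_rev]
    exact hi.symm
  obtain ⟨c₀, hc0, hc₀⟩ := hI.exists_c
  apply good_of p hI hπ (a := i) (b := rev i)
  · exact nz_UJ_of_torus (dO_rel hσ hm him hi hrm hc hsc) (dO_det him hi hrm hc hsc)
  · exact nz_Ab_torus (dO_rel hσ hm him hi hrm hc hsc) (dO_det him hi hrm hc hsc)
  · have hσ0 : σ (c₀ * c₀) = c₀ * c₀ := by
      rw [map_mul, hc₀]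
      ring
    have hs : ∀ (α β : K), β + σ β + α * σ α = 0 →
        (-(c₀ * c₀) * β) + σ (-(c₀ * c₀) * β) + (-c₀ * α) * σ (-c₀ * α) = 0 := by
      intro α β h
      simp only [map_mul, map_neg, hc₀]
      linear_combination (-(c₀ * c₀)) * h
    have hw : wJ hc0 hi ∈ G σ n := wJ_mem hσ hc0 hc₀ hi
    have hconj : ∀ (α β : K), wJ hc0 hi * rM σ hm him hi (-c₀ * α) (-(c₀ * c₀) * β) * (wJ hc0 hi)⁻¹ = rM σ hm hrm hi' α β := by
      intro α β
      have h1 := conj_rM (s := Equiv.swap i (rev i)) (d := dJ c₀ i) hσ (swapJ_rev hi) (dJ_rel hσ hc0 hc₀ hi) (dJ_det hc0 hi)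
        (i := rev i) (i₀ := i) (m := m) (m' := m) hm hm hrm him hi' hi (Equiv.swap_apply_right _ _)
        (Equiv.swap_apply_of_ne_of_ne him.symm hrm.symm) (-c₀ * α) (-(c₀ * c₀) * β)
      rw [wJ, h1]
      rw [dJ_second hi, dJ_other him.symm hrm.symm]
      congr 1
      · field_simp
      · rw [map_neg, map_inv₀, hc₀]
        field_simp
    have hxm : ∀ (a b : K), b + σ b + a * σ a = 0 → rM σ hm him hi a b ∈ G σ n := fun a b h =>
      rM_mem_G hσ hm him hi h
    have hym : ∀ (α β : K), β + σ β + α * σ α = 0 → rM σ hm hrm hi' α β ∈ G σ n := fun a b h =>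
      rM_mem_G hσ hm hrm hi' h
    have hx : ∀ (a b : K) (h : b + σ b + a * σ a = 0), π ⟨rM σ hm him hi a b, hxm a b h⟩ ∈
        Subgroup.closure (Gen (P1 π (UJ σ n)) (P1 π (Ab σ i (rev i)))) := fun a b h =>
      gen_of_UJ (rM_mem_UJ hσ hm hlt hi h)
    have hy : ∀ (α β : K) (h : β + σ β + α * σ α = 0), π ⟨rM σ hm hrm hi' α β, hym α β h⟩ ∈
        Subgroup.closure (Gen (P1 π (UJ σ n)) (P1 π (Ab σ i (rev i)))) := fun α β h =>
      gen_of_conj (w := ⟨wJ hc0 hi, hw⟩) (u := ⟨rM σ hm him hi (-c₀ * α) (-(c₀ * c₀) * β), hxm _ _ (hs α β h)⟩)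
        (nz_Ab_wJ hσ hc0 hc₀ hlt') (rM_mem_UJ hσ hm hlt hi (hs α β h)) (hconj α β).symm
    set b : K := c * c₀ with hb
    have hb0 : b ≠ 0 := mul_ne_zero hc hc0
    have hsb0 : σ b ≠ 0 := by
      rw [hb, map_mul, hc₀]
      exact mul_ne_zero hsc (neg_ne_zero.mpr hc0)
    obtain ⟨a, ha⟩ := hI.norm (-(b + σ b)) (by
      rw [map_neg, map_add, hσ]
      ring)
    have h1 : b + σ b + a * σ a = 0 := by
      rw [ha]
      ring
    have h2 : 1 / σ b + σ (1 / σ b) + (-(a / b)) * σ (-(a / b)) = 0 := by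
      simp only [map_neg, map_div₀, map_one, hσ]
      field_simp
      linear_combination h1
    have h3 : b + σ b + (a * σ b / b) * σ (a * σ b / b) = 0 := by
      simp only [map_mul, map_div₀, hσ]
      field_simp
      linear_combination h1
    have h4' : -c₀ + σ (-c₀) + 0 * σ 0 = 0 := by
      rw [map_neg, hc₀]
      ring
    have h5 : 1 / c₀ + σ (1 / c₀) + 0 * σ 0 = 0 := by
      rw [map_div₀, map_one, hc₀]
      field_simp
      ring
    have e : tOG hσ hm him hi hrm hc hsc = (⟨rM σ hm him hi a b, hxm _ _ h1⟩ : G σ n) * ⟨rM σ hm hrm hi' (-(a / b)) (1 / σ b), hym _ _ h2⟩ *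
        ⟨rM σ hm him hi (a * σ b / b) b, hxm _ _ h3⟩ * ((⟨rM σ hm him hi 0 (-c₀), hxm _ _ h4'⟩ : G σ n) * ⟨rM σ hm hrm hi' 0 (1 / c₀), hym _ _ h5⟩ *
        ⟨rM σ hm him hi 0 (-c₀), hxm _ _ h4'⟩) :=
      Subtype.ext (tO_eq hσ hp hm him hi hrm hi' hc hsc hc0 hc₀ hb ha)
    rw [e]
    simp only [map_mul]
    exact Subgroup.mul_mem _ (Subgroup.mul_mem _ (Subgroup.mul_mem _ (hx _ _ h1) (hy _ _ h2)) (hx _ _ h3))
      (Subgroup.mul_mem _ (Subgroup.mul_mem _ (hx _ _ h4') (hy _ _ h5)) (hx _ _ h4'))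
  · intro g hg hcomm
    exact hC_typeI hI h4 (by omega) (by rw [val_rev]; omega) g hg hcomm

end odd

end Cfsg.Agent.Lib.H29.SuA
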