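import Cfsg.Agent.Lib.H29.SuI

/-!
# Generation of the Borel subgroup and the simplicity of the `p`-fusion system of the projective unitary groups
-/

set_option autoImplicit false
set_option linter.unusedSimpArgs false

namespace Cfsg.Agent.Lib.H29.SuA

open Matrix Fin Cfsg.Agent.Lib.H29.ParaFusion Cfsg.Agent.Lib.H29.LinA

variable {K : Type*} [Field K] [Fintype K] {n : ℕ} {σ : K →+* K}
variable {Γ : Type*} [Group Γ]

/-- Multiplying by a torus element with a given diagonal. -/
lemma tor_mul_apply {d : Fin n → K} (hdet : (∏ k, d k) * ((Equiv.Perm.sign (1 : Equiv.Perm (Fin n)) : ℤˣ) : ℤ) = 1)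
    (g : SLn K n) (k l : Fin n) : ((monoSL 1 d hdet * g : SLn K n) : Mt K n) k l = d k * (g : Mt K n) k l := by
  rw [Matrix.SpecialLinearGroup.coe_mul]
  show (mono 1 d * (g : Mt K n) : Mt K n) k l = _
  rw [mono_mul_apply]
  rfl

lemma tor_mul_BJ {d : Fin n → K} (hdet : (∏ k, d k) * ((Equiv.Perm.sign (1 : Equiv.Perm (Fin n)) : ℤˣ) : ℤ) = 1)
    (hm : monoSL 1 d hdet ∈ G σ n) {g : SLn K n} (hg : g ∈ BJ σ n) : monoSL 1 d hdet * g ∈ BJ σ n := by
  refine ⟨?_, (G σ n).mul_mem hm hg.2⟩
  intro k l hlk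
  rw [tor_mul_apply, hg.1 k l hlk, mul_zero]

lemma mem_UJ_of_diag {z : SLn K n} (hz : z ∈ BJ σ n) (h : ∀ k, (z : Mt K n) k k = 1) : z ∈ UJ σ n :=
  ⟨⟨hz.1, h⟩, hz.2⟩

/-- A diagonal entry determined by all the others. -/
lemma last_diag {z : SLn K n} (hz : z ∈ B K n) (k₀ : Fin n) (h : ∀ k, k ≠ k₀ → (z : Mt K n) k k = 1) :
    (z : Mt K n) k₀ k₀ = 1 := by
  have h1 := diag_prod hz
  rwa [Finset.prod_eq_single k₀ (fun b _ hb => h b hb) (by simp)] at h1

/-- Generation of the Borel subgroup. -/
theorem mem_closure_of_BJ (hI : HI σ) (h2 : 2 ≤ n) {π : G σ n →* Γ} {C : Subgroup Γ}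
    (hU : ∀ u : G σ n, (u : SLn K n) ∈ UJ σ n → π u ∈ C)
    (hS : ∀ (i i' : Fin n) (_ : (i' : ℕ) = i + 1) (_ : 2 * (i : ℕ) + 4 ≤ n) (a : K) (ha : a ≠ 0) (hsa : σ a ≠ 0),
      π (tSG hI.invol i i' ha hsa) ∈ C)
    (hE : ∀ (i : Fin n) (_ : 2 * (i : ℕ) + 2 = n) (hi : i ≠ rev i) (b : K) (hb0 : b ≠ 0) (hb : σ b = b),
      π (tEG hI.invol hb0 hb hi) ∈ C)
    (hO : ∀ (i m : Fin n) (_ : (m : ℕ) = i + 1) (_ : 2 * (i : ℕ) + 3 = n) (hm : rev m = m) (him : i ≠ m) (hi : i ≠ rev i)
      (hrm : rev i ≠ m) (c : K) (hc : c ≠ 0) (hsc : σ c ≠ 0), π (tOG hI.invol hm him hi hrm hc hsc) ∈ C)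
    {g : G σ n} (hg : (g : SLn K n) ∈ BJ σ n) : π g ∈ C := by
  classical
  have hσ := hI.invol
  have hsne : ∀ {x : K}, x ≠ 0 → σ x ≠ 0 := fun {x} hx h0 => hx (hI.inj h0)
  have step : ∀ {h g : G σ n}, π h ∈ C → π (h * g) ∈ C → π g ∈ C := by
    intro h g h1 h2
    rw [map_mul] at h2
    have := C.mul_mem (C.inv_mem h1) h2
    simpa using this
  have key : ∀ e t : ℕ, 2 * t + 2 + e = n → ∀ g : G σ n, (g : SLn K n) ∈ BJ σ n →
      (∀ j : Fin n, (j : ℕ) < t → ((g : SLn K n) : Mt K n) j j = 1) → π g ∈ C := by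
    intro e
    induction e using Nat.strong_induction_on with
    | _ e ih =>
      intro t het g hg hj
      have hrev : ∀ k : Fin n, ((rev k : Fin n) : ℕ) < t → ((g : SLn K n) : Mt K n) k k = 1 := by
        intro k hk
        have h1 := diag_rel hg k
        rw [hj _ hk, map_one, one_mul] at h1
        exact h1
      have hd0 := diag_ne hg.1
      have hrv : ∀ k : Fin n, ((rev k : Fin n) : ℕ) = n - (k + 1) := fun k => val_rev k
      match e, ih, het with
      | 0, ih, het =>
        -- even degree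
        let i : Fin n := ⟨t, by omega⟩
        have hit : (i : ℕ) = t := rfl
        have hi : i ≠ rev i := fun e => by
          have := eq_rev_iff'.mp e
          omega
        set b := ((g : SLn K n) : Mt K n) i i with hb_def
        have hb0 : b ≠ 0 := hd0 i
        have hothers : ∀ k : Fin n, k ≠ i → k ≠ rev i → ((g : SLn K n) : Mt K n) k k = 1 := by
          intro k h1 h2'
          have h3 : (k : ℕ) ≠ t := fun e => h1 (Fin.ext e)
          have h4 : (k : ℕ) ≠ t + 1 := fun e => h2' (Fin.ext (by rw [val_rev, e, hit]; omega))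
          have h5 := k.2
          by_cases h6 : (k : ℕ) < t
          · exact hj k h6
          · apply hrev
            rw [val_rev]
            omega
        have h5 : b * ((g : SLn K n) : Mt K n) (rev i) (rev i) = 1 := by
          have h1 := diag_prod hg.1
          rwa [Finset.prod_eq_mul i (rev i) hi (fun c _ hc => hothers c hc.1 hc.2) (by simp) (by simp)] at h1
        have h6 : σ (((g : SLn K n) : Mt K n) (rev i) (rev i)) * b = 1 := diag_rel hg i
        have h7 : ((g : SLn K n) : Mt K n) (rev i) (rev i) = b⁻¹ := eq_inv_of_mul_eq_one_right h5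
        have hb : σ b = b := by
          rw [h7, map_inv₀] at h6
          have hne : σ b ≠ 0 := hsne hb0
          field_simp at h6
          exact h6.symm
        have hb' : σ b⁻¹ = b⁻¹ := by
          rw [map_inv₀, hb]
        have hb1 : b⁻¹ ≠ 0 := inv_ne_zero hb0
        apply step (hE i (by omega) hi b⁻¹ hb1 hb')
        apply hU
        apply mem_UJ_of_diag (tor_mul_BJ _ (tE_mem hb1 hb' hi) hg)
        intro k
        show ((tE hb1 hi * (g : SLn K n) : SLn K n) : Mt K n) k k = 1
        rw [tE, tor_mul_apply]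
        by_cases h1 : k = i
        · rw [h1]
          simp only [dE, if_true, if_neg hi, mul_one]
          exact inv_mul_cancel₀ hb0
        · by_cases h2' : k = rev i
          · rw [h2', h7]
            simp only [dE, if_true, if_neg hi.symm, one_mul]
            rw [inv_inv]
            exact mul_inv_cancel₀ hb0
          · rw [hothers k h1 h2']
            simp [dE, h1, h2']
      | 1, ih, het =>
        -- odd degree
        let i : Fin n := ⟨t, by omega⟩
        let m : Fin n := ⟨t + 1, by omega⟩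
        have hit : (i : ℕ) = t := rfl
        have hmt : (m : ℕ) = i + 1 := rfl
        obtain ⟨hm, hlt, hi, hrm, him, -, -⟩ := od_facts hmt (by omega : 2 * (i : ℕ) + 3 = n)
        set c := ((g : SLn K n) : Mt K n) i i with hc_def
        have hc : c ≠ 0 := hd0 i
        have hc1 : c⁻¹ ≠ 0 := inv_ne_zero hc
        have hsc1 : σ c⁻¹ ≠ 0 := hsne hc1
        have hothers : ∀ k : Fin n, k ≠ i → k ≠ m → k ≠ rev i → ((g : SLn K n) : Mt K n) k k = 1 := by
          intro k h1 h2' h3
          have h4 : (k : ℕ) ≠ t := fun e => h1 (Fin.ext e)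
          have h5 : (k : ℕ) ≠ t + 1 := fun e => h2' (Fin.ext e)
          have h6 : (k : ℕ) ≠ t + 2 := fun e => h3 (Fin.ext (by rw [val_rev, e, hit]; omega))
          have h7 := k.2
          by_cases h8 : (k : ℕ) < t
          · exact hj k h8
          · apply hrev
            rw [val_rev]
            omega
        have h6 : σ c * ((g : SLn K n) : Mt K n) (rev i) (rev i) = 1 := by
          have := diag_rel hg (rev i)
          rwa [rev_rev] at this
        have hmemG := tO_mem hσ hm him hi hrm hc1 hsc1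
        have hB := tor_mul_BJ (dO_det him hi hrm hc1 hsc1) hmemG hg
        apply step (hO i m hmt (by omega) hm him hi hrm c⁻¹ hc1 hsc1)
        apply hU
        apply mem_UJ_of_diag hB
        have hall : ∀ k, k ≠ m → ((tO σ him hi hrm hc1 hsc1 * (g : SLn K n) : SLn K n) : Mt K n) k k = 1 := by
          intro k hkm
          rw [tO, tor_mul_apply]
          by_cases h1 : k = i
          · rw [h1]
            simp only [dO, if_true, if_neg him, if_neg hi, mul_one]
            exact inv_mul_cancel₀ hc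
          · by_cases h2' : k = rev i
            · rw [h2']
              simp only [dO, if_true, if_neg hi.symm, if_neg hrm, one_mul, map_inv₀, inv_inv]
              exact h6
            · rw [hothers k h1 hkm h2']
              simp [dO, h1, h2', hkm]
        intro k
        by_cases hkm : k = m
        · rw [hkm]
          exact last_diag hB.1 m hall
        · exact hall k hkm
      | e' + 2, ih, het =>
        -- a short root
        let i : Fin n := ⟨t, by omega⟩
        let i' : Fin n := ⟨t + 1, by omega⟩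
        have hit : (i : ℕ) = t := rfl
        have hii : (i' : ℕ) = i + 1 := rfl
        have hn' : 2 * (i : ℕ) + 4 ≤ n := by
          rw [hit]
          omega
        obtain ⟨f1, f2, f3, f4, f5⟩ := sh_facts hii hn'
        set a := (((g : SLn K n) : Mt K n) i i)⁻¹ with ha_def
        have ha : a ≠ 0 := inv_ne_zero (hd0 i)
        have hsa : σ a ≠ 0 := hsne ha
        have hmemG := tS_mem (i := i) (i' := i') hσ ha hsa
        have hB := tor_mul_BJ (torD_det i i' ha hsa) hmemG hg
        apply step (hS i i' hii hn' a ha hsa)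
        apply ih e' (by omega) (t + 1) (by omega) _ hB
        intro j hjt
        show ((tS σ i i' ha hsa * (g : SLn K n) : SLn K n) : Mt K n) j j = 1
        rw [tS, tor_mul_apply]
        by_cases h1 : (j : ℕ) = t
        · have h1' : j = i := Fin.ext h1
          rw [h1']
          simp only [torD, if_true, if_neg f1, if_neg f3, if_neg f2, mul_one]
          exact inv_mul_cancel₀ (hd0 i)
        · have h3 : (j : ℕ) < t := by omega
          have e1 : j ≠ i := fun e => h1 (congrArg Fin.val e)
          have e2 : j ≠ i' := fun e => by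
            have := congrArg Fin.val e
            rw [hii, hit] at this
            omega
          have e3 : j ≠ rev i' := fun e => by
            have := eq_rev_iff'.mp e
            rw [hii, hit] at this
            omega
          have e4 : j ≠ rev i := fun e => by
            have := eq_rev_iff'.mp e
            rw [hit] at this
            omega
          rw [hj j h3]
          simp [torD, e1, e2, e3, e4]
  exact key (n - 2) 0 (by omega) g hg (fun j hj => absurd hj (Nat.not_lt_zero _))

section main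

variable (p : ℕ) [Fact p.Prime] [CharP K p]

/-- `U` as a Sylow subgroup of the unitary group. -/
def UJsyl [NeZero n] (hI : HI σ) : Sylow p (G σ n) where
  toSubgroup := (UJ σ n).subgroupOf (G σ n)
  isPGroup' := by
    intro x
    obtain ⟨k, hk⟩ := UJ_isPGroup (σ := σ) (n := n) p ⟨((x : G σ n) : SLn K n), Subgroup.mem_subgroupOf.mp x.2⟩
    refine ⟨k, ?_⟩
    apply Subtype.ext
    apply Subtype.ext
    have h1 : (((x : G σ n) : SLn K n)) ^ (p ^ k) = 1 := congrArg Subtype.val hk
    simpa using h1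
  is_maximal' := fun hQ hle => UJ_max p hI hQ hle

/-- The simplicity of the fusion system, for an abstract projective quotient. -/
theorem main_abs [Finite Γ] (hI : HI σ) (hn : 4 ≤ n) {π : G σ n →* Γ} (hπ : PQ π) (R : Sylow p Γ) :
    (Cfsg.groupFusionSystem (R : Subgroup Γ)).IsSimple p := by
  classical
  haveI : NeZero n := ⟨by omega⟩
  have hσ := hI.invol
  let P : Sylow p Γ := (UJsyl p hI).mapSurjective hπ.surj
  have hP : (P : Subgroup Γ) = P1 π (UJ σ n) := Sylow.coe_mapSurjective hπ.surj _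
  have hS1 : (P : Subgroup Γ) ≠ ⊥ := by
    intro h
    rw [hP] at h
    obtain ⟨c₀, hc0, hc⟩ := hI.exists_c
    let f : Fin n := ⟨0, by omega⟩
    have hf : f < rev f := by
      rw [Fin.lt_def, val_rev]
      show 0 < n - (0 + 1)
      omega
    let x : G σ n := ⟨X f (rev f) hf.ne c₀, X_rev_mem_G hσ hf.ne hc⟩
    have h1 : π x ∈ P1 π (UJ σ n) := mem_P1 π (X_rev_mem_UJ hσ hf hc)
    rw [h, Subgroup.mem_bot, ← map_one π] at h1
    obtain ⟨c, hc'⟩ := hπ.ker _ _ h1
    have h2 := congrFun (congrFun hc' f) (rev f)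
    have hx : ((x : SLn K n) : Mt K n) = 1 + Matrix.single f (rev f) c₀ := coe_X f (rev f) hf.ne c₀
    rw [hx] at h2
    simp [hf.ne] at h2
    exact hc0 h2
  apply simple_of_para P hS1 _
    (({h | ∃ (i i' : Fin n) (_ : (i' : ℕ) = i + 1) (_ : 2 * (i : ℕ) + 4 ≤ n) (a : K) (ha : a ≠ 0) (hsa : σ a ≠ 0),
        h = π (tSG hσ i i' ha hsa)} ∪
      {h | ∃ (i : Fin n) (_ : 2 * (i : ℕ) + 2 = n) (hi : i ≠ rev i) (b : K) (hb0 : b ≠ 0) (hb : σ b = b),
        h = π (tEG hσ hb0 hb hi)}) ∪
      {h | ∃ (i m : Fin n) (_ : (m : ℕ) = i + 1) (_ : 2 * (i : ℕ) + 3 = n) (hm : rev m = m) (him : i ≠ m) (hi : i ≠ rev i)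
        (hrm : rev i ≠ m) (c : K) (hc : c ≠ 0) (hsc : σ c ≠ 0), h = π (tOG hσ hm him hi hrm hc hsc)}) _ _ R
  · -- strongly closed subgroups
    intro T hTP hT1 hTc
    rw [hP] at hTP hTc ⊢
    let T' : Subgroup (SLn K n) := (T.comap π).map (G σ n).subtype ⊓ UJ σ n
    have hle : T' ≤ UJ σ n := inf_le_right
    have hne : T' ≠ ⊥ := by
      intro h
      apply hT1
      rw [eq_bot_iff]
      intro t ht
      obtain ⟨u, hu, rfl⟩ := hTP ht
      have hu' : (u : SLn K n) ∈ T' := ⟨⟨u, ht, rfl⟩, Subgroup.mem_subgroupOf.mp hu⟩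
      rw [h, Subgroup.mem_bot] at hu'
      have h1 : u = 1 := Subtype.ext hu'
      rw [h1, map_one]
      exact Subgroup.one_mem _
    have hcl : ∀ x ∈ T', ∀ g ∈ G σ n, g * x * g⁻¹ ∈ UJ σ n → g * x * g⁻¹ ∈ T' := by
      intro x hx g hg hgx
      obtain ⟨⟨x', hx', hxe⟩, -⟩ := hx
      have hxe' : (x' : SLn K n) = x := hxe
      subst hxe'
      have e' : ((⟨g, hg⟩ * x' * ⟨g, hg⟩⁻¹ : G σ n) : SLn K n) = g * (x' : SLn K n) * g⁻¹ := by
        simp only [Subgroup.coe_mul, Subgroup.coe_inv]
      have hgx' : ((⟨g, hg⟩ * x' * ⟨g, hg⟩⁻¹ : G σ n) : SLn K n) ∈ UJ σ n := by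
        rw [e']
        exact hgx
      have h1 : π (⟨g, hg⟩ * x' * ⟨g, hg⟩⁻¹) ∈ T := by
        rw [map_mul, map_mul, map_inv]
        apply hTc (π x') hx' (π ⟨g, hg⟩)
        rw [← map_inv, ← map_mul, ← map_mul]
        exact mem_P1 π hgx'
      have h2 : ((⟨g, hg⟩ * x' * ⟨g, hg⟩⁻¹ : G σ n) : SLn K n) ∈ (T.comap π).map (G σ n).subtype := ⟨_, h1, rfl⟩
      rw [e'] at h2
      exact ⟨h2, hgx⟩
    have hE := closed_eq_UJ p hI hn hle hne hcl
    apply le_antisymm hTP
    rintro _ ⟨u, hu, rfl⟩
    have hu' : (u : SLn K n) ∈ T' := by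
      rw [hE]
      exact Subgroup.mem_subgroupOf.mp hu
    obtain ⟨⟨v, hv, hve⟩, -⟩ := hu'
    have h1 : v = u := Subtype.ext hve
    rw [← h1]
    exact hv
  · rintro _ ((⟨i, i', hi, hn', a, ha, hsa, rfl⟩ | ⟨i, hn', hi, b, hb0, hb, rfl⟩) |
      ⟨i, m, hmi, hn', hm, him, hi, hrm, c, hc, hsc, rfl⟩)
    · rw [hP]
      exact short_good p hI hπ hn hi hn' ha hsa
    · rw [hP]
      exact longE_good p hI hπ hn hn' hi hb0 hb
    · rw [hP]
      exact longO_good p hI hπ hn hmi hn' hm him hi hrm hc hsc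
  · intro g hg
    obtain ⟨ĝ, rfl⟩ := hπ.surj g
    rw [hP] at hg
    have hB := mem_BJ_of_nzP p hI hπ hg
    apply mem_closure_of_BJ hI (by omega) _ _ _ _ hB
    · intro u hu
      apply Subgroup.subset_closure
      left
      show π u ∈ (P : Subgroup Γ)
      rw [hP]
      exact mem_P1 π hu
    · intro i i' hi hn' a ha hsa
      apply Subgroup.subset_closure
      right
      left
      left
      exact ⟨i, i', hi, hn', a, ha, hsa, rfl⟩
    · intro i hn' hi b hb0 hb
      apply Subgroup.subset_closure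
      right
      left
      right
      exact ⟨i, hn', hi, b, hb0, hb, rfl⟩
    · intro i m hmi hn' hm him hi hrm c hc hsc
      apply Subgroup.subset_closure
      right
      right
      exact ⟨i, m, hmi, hn', hm, him, hi, hrm, c, hc, hsc, rfl⟩

end main

end Cfsg.Agent.Lib.H29.SuA
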