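import Cfsg.Agent.Lib.H29.SuJ
import Cfsg.Agent.Lib.SUSpec.HermAlg

/-!
# The transfer to the projective special unitary groups
-/

set_option autoImplicit false
set_option linter.unusedSimpArgs false

namespace Cfsg.Agent.Lib.H29.SuA

open Matrix Fin Cfsg.Agent.Lib.H29.ParaFusion Cfsg.Agent.Lib.H29.LinA
open Cfsg.Agent.Lib.HermCount.Field Cfsg.Agent.Lib.HermCount.Space

variable {K : Type*} [Field K] [Fintype K] {n : ℕ} {q : ℕ}

/-- The antidiagonal Hermitian form. -/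
def hermJ (n : ℕ) (K : Type*) [Field K] (q : ℕ) (u v : Fin n → K) : K := ∑ i, u i * (v (rev i)) ^ q

lemma hermJ_space (hK : Fintype.card K = q ^ 2) : HSpace q (hermJ n K q) where
  add_left x y z := by
    simp only [hermJ, Pi.add_apply, add_mul, Finset.sum_add_distrib]
  smul_left a x z := by
    simp only [hermJ, Pi.smul_apply, smul_eq_mul, Finset.mul_sum, mul_assoc]
  conj x y := by
    simp only [hermJ]
    rw [← frobHom_apply hK, map_sum]
    simp only [frobHom_apply, mul_pow, frob_frob hK]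
    rw [← Equiv.sum_comp Fin.revPerm]
    apply Finset.sum_congr rfl
    intro i _
    simp only [Fin.revPerm_apply, rev_rev]
    ring
  nd x hx := by
    classical
    funext i
    have h1 := hx (Pi.single (rev i) 1)
    rw [hermJ, Finset.sum_eq_single i] at h1
    · have hq : q ≠ 0 := by
        have := two_le hK
        omega
      simpa [hq] using h1
    · intro b _ hb
      have h2 : rev b ≠ rev i := fun e => hb (rev_inj.mp e)
      have hq : q ≠ 0 := by
        have := two_le hK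
        omega
      simp [h2, hq]
    · simp

/-- The Hermitian structure of the field. -/
lemma hI_frob (hK : Fintype.card K = q ^ 2) : HI (frobHom hK) where
  invol x := frob_frob hK x
  exists_ne := exists_frob_ne hK
  trace t ht := exists_trace hK t ht
  norm t ht := by
    by_cases h0 : t = 0
    · exact ⟨0, by simp [h0]⟩
    · have h1 := card_norm_fiber hK t ht h0
      have h2 : Nat.card {a : K // a ^ (q + 1) = t} ≠ 0 := by
        rw [h1]
        omega
      obtain ⟨⟨a, ha⟩⟩ := (Nat.card_ne_zero.mp h2).1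
      exact ⟨a, by rw [frobHom_apply, ← ha]; ring⟩

/-- The adjoint relation. -/
lemma form_adj (hK : Fintype.card K = q ^ 2) (A : Mt K n) (u v : Fin n → K) :
    hermJ n K q (A *ᵥ u) v = hermJ n K q u (adj (frobHom hK) A *ᵥ v) := by
  simp only [hermJ, Matrix.mulVec, dotProduct]
  have e : ∀ k : Fin n, (∑ l, adj (frobHom hK) A (rev k) l * v l) ^ q = ∑ i, A i k * (v (rev i)) ^ q := by
    intro k
    rw [← frobHom_apply hK, map_sum, ← Equiv.sum_comp Fin.revPerm]
    apply Finset.sum_congr rfl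
    intro i _
    simp only [Fin.revPerm_apply, adj_apply, rev_rev, map_mul, frobHom_apply, frob_frob hK]
  simp only [e, Finset.sum_mul, Finset.mul_sum]
  rw [Finset.sum_comm]
  apply Finset.sum_congr rfl
  intro k _
  apply Finset.sum_congr rfl
  intro i _
  ring

lemma mem_G_iff (hK : Fintype.card K = q ^ 2) {B : SLn K n} :
    B ∈ G (frobHom hK) n ↔ ∀ u v, hermJ n K q ((B : Mt K n) *ᵥ u) ((B : Mt K n) *ᵥ v) = hermJ n K q u v := by
  constructor
  · intro hB u v
    rw [form_adj hK, Matrix.mulVec_mulVec, mem_G.mp hB, Matrix.one_mulVec]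
  · intro h
    rw [mem_G]
    apply Matrix.mulVec_injective
    funext v
    rw [Matrix.one_mulVec]
    have S := hermJ_space (n := n) hK
    have h1 : ∀ w, hermJ n K q ((adj (frobHom hK) (B : Mt K n) * (B : Mt K n)) *ᵥ v - v) w = 0 := by
      intro w
      rw [S.conj w]
      have h3 : hermJ n K q w ((adj (frobHom hK) (B : Mt K n) * (B : Mt K n)) *ᵥ v - v) =
          hermJ n K q w ((adj (frobHom hK) (B : Mt K n) * (B : Mt K n)) *ᵥ v) - hermJ n K q w v := by
        simp only [hermJ, Pi.sub_apply, ← frobHom_apply hK, map_sub, mul_sub, Finset.sum_sub_distrib]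
      rw [h3, ← Matrix.mulVec_mulVec, ← form_adj hK, h, sub_self]
      exact zero_pow (by have := two_le hK; omega)
    have h2 := S.nd _ h1
    exact sub_eq_zero.mp h2

/-! ### The model -/

section model

variable (hK : Fintype.card K = q ^ 2) (ψ : (Fin n → K) ≃ₗ[K] (Fin n → K))

/-- The change of basis. -/
noncomputable def Pq (ψ : (Fin n → K) ≃ₗ[K] (Fin n → K)) : Mt K n := LinearMap.toMatrix' ψ.toLinearMap

/-- The inverse change of basis. -/
noncomputable def Pr (ψ : (Fin n → K) ≃ₗ[K] (Fin n → K)) : Mt K n := LinearMap.toMatrix' ψ.symm.toLinearMap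

omit [Fintype K] in
lemma Pq_mulVec (x : Fin n → K) : Pq ψ *ᵥ x = ψ x := by
  rw [Pq, LinearMap.toMatrix'_mulVec]
  rfl

omit [Fintype K] in
lemma Pr_mulVec (x : Fin n → K) : Pr ψ *ᵥ x = ψ.symm x := by
  rw [Pr, LinearMap.toMatrix'_mulVec]
  rfl

omit [Fintype K] in
lemma Pq_Pr : Pq ψ * Pr ψ = 1 := by
  apply Matrix.mulVec_injective
  funext x
  rw [← Matrix.mulVec_mulVec, Pr_mulVec, Pq_mulVec, Matrix.one_mulVec, ψ.apply_symm_apply]

omit [Fintype K] in
lemma Pr_Pq : Pr ψ * Pq ψ = 1 := by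
  apply Matrix.mulVec_injective
  funext x
  rw [← Matrix.mulVec_mulVec, Pq_mulVec, Pr_mulVec, Matrix.one_mulVec, ψ.symm_apply_apply]

omit [Fintype K] in
lemma det_conj1 {B : Mt K n} (hB : B.det = 1) : (Pr ψ * B * Pq ψ).det = 1 := by
  have h1 : (Pr ψ).det * (Pq ψ).det = 1 := by
    rw [← Matrix.det_mul, Pr_Pq, Matrix.det_one]
  rw [Matrix.det_mul, Matrix.det_mul, hB, mul_one, h1]

omit [Fintype K] in
lemma det_conj2 {B : Mt K n} (hB : B.det = 1) : (Pq ψ * B * Pr ψ).det = 1 := by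
  have h1 : (Pq ψ).det * (Pr ψ).det = 1 := by
    rw [← Matrix.det_mul, Pq_Pr, Matrix.det_one]
  rw [Matrix.det_mul, Matrix.det_mul, hB, mul_one, h1]

variable (hψ : ∀ x y, hermJ n K q (ψ x) (ψ y) = Cfsg.hermForm n K q x y)

include hψ

lemma hermForm_symm (x y : Fin n → K) : Cfsg.hermForm n K q (ψ.symm x) (ψ.symm y) = hermJ n K q x y := by
  rw [← hψ, ψ.apply_symm_apply, ψ.apply_symm_apply]

/-- The comparison map. -/
noncomputable def Phi : G (frobHom hK) n →* Cfsg.SU n K q where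
  toFun B := ⟨⟨Pr ψ * ((B : SLn K n) : Mt K n) * Pq ψ, det_conj1 ψ (B : SLn K n).2⟩, fun u v => by
    show Cfsg.hermForm n K q ((Pr ψ * ((B : SLn K n) : Mt K n) * Pq ψ) *ᵥ u) ((Pr ψ * ((B : SLn K n) : Mt K n) * Pq ψ) *ᵥ v) = _
    simp only [← Matrix.mulVec_mulVec, Pq_mulVec, Pr_mulVec]
    rw [hermForm_symm ψ hψ, (mem_G_iff hK).mp B.2, hψ]⟩
  map_one' := by
    apply Subtype.ext
    apply Subtype.ext
    show Pr ψ * (((1 : G (frobHom hK) n) : SLn K n) : Mt K n) * Pq ψ = 1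
    simp [Pr_Pq]
  map_mul' x y := by
    apply Subtype.ext
    apply Subtype.ext
    show Pr ψ * (((x * y : G (frobHom hK) n) : SLn K n) : Mt K n) * Pq ψ =
      (Pr ψ * ((x : SLn K n) : Mt K n) * Pq ψ) * (Pr ψ * ((y : SLn K n) : Mt K n) * Pq ψ)
    rw [Subgroup.coe_mul, Matrix.SpecialLinearGroup.coe_mul]
    calc Pr ψ * (((x : SLn K n) : Mt K n) * ((y : SLn K n) : Mt K n)) * Pq ψ
        = Pr ψ * ((x : SLn K n) : Mt K n) * 1 * (((y : SLn K n) : Mt K n) * Pq ψ) := by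
          simp only [Matrix.mul_one, Matrix.mul_assoc]
      _ = Pr ψ * ((x : SLn K n) : Mt K n) * (Pq ψ * Pr ψ) * (((y : SLn K n) : Mt K n) * Pq ψ) := by rw [Pq_Pr]
      _ = _ := by simp only [Matrix.mul_assoc]

lemma coe_Phi (B : G (frobHom hK) n) : (((Phi hK ψ hψ B : Cfsg.SU n K q) : SLn K n) : Mt K n) =
    Pr ψ * ((B : SLn K n) : Mt K n) * Pq ψ := rfl

lemma Phi_surj : Function.Surjective (Phi hK ψ hψ) := by
  intro A
  have hA : ∀ u v, Cfsg.hermForm n K q (((A : SLn K n) : Mt K n) *ᵥ u) (((A : SLn K n) : Mt K n) *ᵥ v) = Cfsg.hermForm n K q u v := A.2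
  let B : SLn K n := ⟨Pq ψ * ((A : SLn K n) : Mt K n) * Pr ψ, det_conj2 ψ (A : SLn K n).2⟩
  have hB : B ∈ G (frobHom hK) n := by
    rw [mem_G_iff hK]
    intro u v
    show hermJ n K q ((Pq ψ * ((A : SLn K n) : Mt K n) * Pr ψ) *ᵥ u) ((Pq ψ * ((A : SLn K n) : Mt K n) * Pr ψ) *ᵥ v) = _
    simp only [← Matrix.mulVec_mulVec, Pq_mulVec, Pr_mulVec]
    rw [hψ, hA, hermForm_symm ψ hψ]
  refine ⟨⟨B, hB⟩, ?_⟩
  apply Subtype.ext
  apply Subtype.ext
  rw [coe_Phi]
  show Pr ψ * (Pq ψ * ((A : SLn K n) : Mt K n) * Pr ψ) * Pq ψ = _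
  calc Pr ψ * (Pq ψ * ((A : SLn K n) : Mt K n) * Pr ψ) * Pq ψ
      = (Pr ψ * Pq ψ) * ((A : SLn K n) : Mt K n) * (Pr ψ * Pq ψ) := by simp only [Matrix.mul_assoc]
    _ = _ := by rw [Pr_Pq, Matrix.one_mul, Matrix.mul_one]

/-- The projection. -/
noncomputable def toPSU : G (frobHom hK) n →* Cfsg.PSU n K q :=
  (QuotientGroup.mk' _).comp (Phi hK ψ hψ)

theorem toPSU_pq (hn : 2 ≤ n) : PQ (toPSU hK ψ hψ) where
  surj := (QuotientGroup.mk'_surjective _).comp (Phi_surj hK ψ hψ)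
  ker x y h := by
    have h1 : (Phi hK ψ hψ y)⁻¹ * Phi hK ψ hψ x ∈ Subgroup.center (Cfsg.SU n K q) := by
      apply QuotientGroup.eq.mp
      exact h.symm
    obtain ⟨a, ha⟩ := Cfsg.Agent.Lib.SUSpec.HermAlg.scalar_of_center hK hn h1
    refine ⟨a, ?_⟩
    have h2 : (((Phi hK ψ hψ x : Cfsg.SU n K q) : SLn K n) : Mt K n) = a • (((Phi hK ψ hψ y : Cfsg.SU n K q) : SLn K n) : Mt K n) := by
      have h3 : Phi hK ψ hψ x = Phi hK ψ hψ y * ((Phi hK ψ hψ y)⁻¹ * Phi hK ψ hψ x) := by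
        group
      apply Matrix.mulVec_injective
      funext v
      rw [h3, Subgroup.coe_mul, Matrix.SpecialLinearGroup.coe_mul, ← Matrix.mulVec_mulVec, ha, Matrix.mulVec_smul, Matrix.smul_mulVec]
    rw [coe_Phi, coe_Phi] at h2
    calc ((x : SLn K n) : Mt K n) = (Pq ψ * Pr ψ) * ((x : SLn K n) : Mt K n) * (Pq ψ * Pr ψ) := by
          rw [Pq_Pr, Matrix.one_mul, Matrix.mul_one]
      _ = Pq ψ * (Pr ψ * ((x : SLn K n) : Mt K n) * Pq ψ) * Pr ψ := by simp only [Matrix.mul_assoc]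
      _ = Pq ψ * (a • (Pr ψ * ((y : SLn K n) : Mt K n) * Pq ψ)) * Pr ψ := by rw [h2]
      _ = a • ((Pq ψ * Pr ψ) * ((y : SLn K n) : Mt K n) * (Pq ψ * Pr ψ)) := by
          simp only [Matrix.mul_smul, Matrix.smul_mul, Matrix.mul_assoc]
      _ = _ := by rw [Pq_Pr, Matrix.one_mul, Matrix.mul_one]
  sc z c hz := by
    show ((Phi hK ψ hψ z : Cfsg.SU n K q) : Cfsg.PSU n K q) = 1
    rw [QuotientGroup.eq_one_iff]
    apply Cfsg.Agent.Lib.SUSpec.HermAlg.center_of_scalar (a := c)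
    intro v
    have h1 : (((Phi hK ψ hψ z : Cfsg.SU n K q) : SLn K n) : Mt K n) = c • 1 := by
      rw [coe_Phi, hz]
      simp only [Matrix.mul_smul, Matrix.smul_mul, Matrix.mul_one, Pr_Pq]
    rw [h1, Matrix.smul_mulVec, Matrix.one_mulVec]

end model

/-- The main theorem. -/
theorem psu_main (p : ℕ) [Fact p.Prime] [CharP K p] (hK : Fintype.card K = q ^ 2) (hn : 4 ≤ n)
    (S : Sylow p (Cfsg.PSU n K q)) : (Cfsg.groupFusionSystem (S : Subgroup (Cfsg.PSU n K q))).IsSimple p := by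
  obtain ⟨ψ, hψ⟩ := Cfsg.Agent.Lib.Witt.HermModel.exists_model (hermJ_space (n := n) hK) hK n (Module.finrank_fin_fun K)
  exact main_abs p (hI_frob hK) hn (toPSU_pq hK ψ hψ (by omega)) S

end Cfsg.Agent.Lib.H29.SuA
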